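import Mathlib
import Cfsg.Agent.BlockLib.KG.Inertial

/-!
# Counting the Brauer elements of a block with abelian defect groups
-/

set_option autoImplicit false

namespace Cfsg.Agent.H6.SubsecCount

open Cfsg Cfsg.Agent.BlockLib Cfsg.Agent.BlockLib.CA

universe u v

local notation "C(" P ")" => Subgroup.centralizer (SetLike.coe P)
local notation "N(" P ")" => Subgroup.normalizer (SetLike.coe P)

variable {k : Type u} {G : Type v} [Field k] [Group G] [Fintype G]
variable {p : ℕ} [Fact p.Prime] [CharP k p] [Split k G]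

/-- Abelian defect groups: the stabilizer of the maximal pair controls fusion of subpairs. -/
theorem control_of_abelian {b e f : CA k G} {P Q : Subgroup G} (h : IsMaxBP p b P e)
    (hab : P ≤ C(P)) (hle : SubLE p (Q, f) (P, e)) {g : G}
    (hle' : SubLE p (cjs g Q, cj g f) (P, e)) :
    ∃ y ∈ stab P e, ∃ c ∈ C(Q), g = y * c := by
  have hPe : IsBP p P e := h.1.1
  have hQf : IsBP p Q f := hle.isBP hPe
  have hPC : P ≤ C(Q) := hab.trans (Subgroup.centralizer_le hle.le)
  have hrel : RelData p Q f C(Q) :=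
    ⟨hQf, hle.le.trans hPC, le_rfl, centralizer_le_stab hQf.2.mem⟩
  have h1 := hle'.cj g⁻¹
  simp only [cjs_cjs, ← cj_mul, inv_mul_cancel, cjs_one, cj_one] at h1
  have h2 : cjs g⁻¹ P ≤ C(Q) := by
    have h3 : P ≤ C(cjs g Q) := hab.trans (Subgroup.centralizer_le hle'.le)
    have := cjs_mono (x := g⁻¹) h3
    rwa [← centralizer_cjs, cjs_cjs, inv_mul_cancel, cjs_one] at this
  obtain ⟨c, hc, h3⟩ := (hrel.main hPC hle (h.isRelMax _)).2 _ _ h2 h1
  rw [cjs_cjs, ← cj_mul] at h3
  have h4 := h3.mem_stab_of_cjs hPe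
  exact ⟨(c * g⁻¹)⁻¹, Subgroup.inv_mem _ h4, c, hc, by group⟩

omit [Fintype G] in
theorem cjs_zpowers (g u : G) : cjs g (Subgroup.zpowers u) = Subgroup.zpowers (g * u * g⁻¹) := by
  unfold cjs
  rw [MonoidHom.map_zpowers]
  rfl

omit [Fintype G] in
theorem mem_centralizer_zpowers {g x : G} : g ∈ C(Subgroup.zpowers x) ↔ g * x = x * g := by
  rw [Subgroup.mem_centralizer_iff]
  constructor
  · intro h
    exact (h x (Subgroup.mem_zpowers x)).symm
  · intro h y hy
    obtain ⟨n, rfl⟩ := Subgroup.mem_zpowers_iff.mp hy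
    exact ((show Commute g x from h).zpow_right n).symm.eq

open Classical in
/-- The blocks `f` of `C_G(x)` such that `(x, f)` is a Brauer element of `b`. -/
noncomputable def bel (b : CA k G) (x : G) : Finset (CA k G) :=
  (blks C(Subgroup.zpowers x)).filter fun f => br (Subgroup.zpowers x) b * f = f

omit [Fact p.Prime] [CharP k p] in
theorem mem_bel {b f : CA k G} {x : G} (hb : IsBlk ⊤ b) (hx : IsPGroup p (Subgroup.zpowers x)) :
    f ∈ bel b x ↔ IsBPOf p b (Subgroup.zpowers x) f := by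
  classical
  rw [bel, Finset.mem_filter, mem_blks]
  exact ⟨fun h => ⟨⟨hx, h.1⟩, hb, h.2⟩, fun h => ⟨h.1.2, h.2.2⟩⟩

/-- If the stabilizer of the maximal pair is transitive on the nonidentity elements of the defect
group, there is at most one class of nontrivial Brauer elements. -/
theorem sum_card_bel_le_one [DecidableEq G] {b e : CA k G} {P : Subgroup G}
    (h : IsMaxBP p b P e) (X : Finset G)
    (hXp : ∀ x ∈ X, IsPGroup p (Subgroup.zpowers x))
    (hXc : ∀ x ∈ X, ∀ y ∈ X, IsConj x y → x = y)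
    (htr : ∀ u ∈ P, ∀ u' ∈ P, u ≠ 1 → u' ≠ 1 → ∃ t ∈ stab P e, t * u * t⁻¹ = u') :
    ∑ x ∈ X.erase 1, (bel b x).card ≤ 1 := by
  classical
  have hPe : IsBP p P e := h.1.1
  rw [← Finset.card_sigma, Finset.card_le_one]
  rintro ⟨x, f⟩ h1 ⟨x', f'⟩ h2
  rw [Finset.mem_sigma] at h1 h2
  simp only [Finset.mem_erase] at h1 h2
  obtain ⟨⟨hx1, hxX⟩, hf⟩ := h1
  obtain ⟨⟨hx1', hxX'⟩, hf'⟩ := h2
  rw [mem_bel h.1.2.1 (hXp x hxX)] at hf
  rw [mem_bel h.1.2.1 (hXp x' hxX')] at hf'
  obtain ⟨g, hg⟩ := h.exists_conj_subLE hf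
  obtain ⟨g', hg'⟩ := h.exists_conj_subLE hf'
  rw [cjs_zpowers] at hg hg'
  have hu : g * x * g⁻¹ ∈ P := hg.le (Subgroup.mem_zpowers _)
  have hu' : g' * x' * g'⁻¹ ∈ P := hg'.le (Subgroup.mem_zpowers _)
  have hu1 : g * x * g⁻¹ ≠ 1 := fun h0 => hx1 (by simpa using h0)
  have hu1' : g' * x' * g'⁻¹ ≠ 1 := fun h0 => hx1' (by simpa using h0)
  obtain ⟨t, ht, htu⟩ := htr _ hu _ hu' hu1 hu1'
  have h3 := hg.cj t
  simp only [cjs_zpowers, htu, cjs_eq_of_mem_normalizer ht.1, ht.2] at h3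
  have h4 : cj t (cj g f) = cj g' f' := SubLE.unique hPe h3 hg'
  have hconj : (g'⁻¹ * t * g) * x * (g'⁻¹ * t * g)⁻¹ = x' := by
    have : g'⁻¹ * (t * (g * x * g⁻¹) * t⁻¹) * g' = x' := by rw [htu]; group
    rw [← this]; group
  have hxx : x = x' := hXc x hxX x' hxX' (isConj_iff.mpr ⟨_, hconj⟩)
  subst hxx
  have hcen : g'⁻¹ * t * g ∈ C(Subgroup.zpowers x) := by
    rw [mem_centralizer_zpowers]
    conv_rhs => rw [← hconj]
    group
  have h5 : f' = cj (g'⁻¹ * t * g) f := by
    rw [mul_assoc, cj_mul, cj_mul, h4, cj_inv_cj]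
  have h6 : cj (g'⁻¹ * t * g) f = f := mem_fix_iff_cj.mp hf.1.2.mem.2 _ hcen
  rw [h5, h6]

/-- If the defect group is abelian and the stabilizer of the maximal pair centralizes it, the
nonidentity elements of the defect group give pairwise nonconjugate Brauer elements. -/
theorem le_sum_card_bel [DecidableEq G] {b e : CA k G} {P : Subgroup G}
    (h : IsMaxBP p b P e) (hab : P ≤ C(P)) (X : Finset G)
    (hXrep : ∀ g : G, IsPGroup p (Subgroup.zpowers g) → ∃ x ∈ X, IsConj g x)
    (hst : stab P e ≤ C(P)) :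
    Nat.card P - 1 ≤ ∑ x ∈ X.erase 1, (bel b x).card := by
  classical
  have hPe : IsBP p P e := h.1.1
  have hex : ∀ u : G, u ∈ P → ∃ (x g : G) (f : CA k G), x ∈ X ∧ g * u * g⁻¹ = x ∧
      SubLE p (Subgroup.zpowers u, f) (P, e) := by
    intro u hu
    have hle : Subgroup.zpowers u ≤ P := (Subgroup.zpowers_le).mpr hu
    obtain ⟨x, hx, hc⟩ := hXrep u (hPe.1.to_le hle)
    obtain ⟨g, hg⟩ := isConj_iff.mp hc
    obtain ⟨f, hf⟩ := exists_subLE hPe _ hle
    exact ⟨x, g, f, hx, hg, hf⟩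
  choose! x g f hxX hgx hf using hex
  rw [← Finset.card_sigma]
  have hcard : Nat.card P - 1 = (Finset.univ.filter fun u : G => u ∈ P ∧ u ≠ 1).card := by
    have h1 : (Finset.univ.filter fun u : G => u ∈ P ∧ u ≠ 1) =
        (Finset.univ.filter fun u : G => u ∈ P).erase 1 := by
      ext u
      simp only [Finset.mem_filter, Finset.mem_univ, true_and, Finset.mem_erase]
      tauto
    rw [h1, Finset.card_erase_of_mem (by simp [P.one_mem]), Nat.card_eq_fintype_card,
      Fintype.card_subtype]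
  rw [hcard]
  refine Finset.card_le_card_of_injOn (fun u => (⟨x u, cj (g u) (f u)⟩ : (_ : G) × CA k G)) ?_ ?_
  · intro u hu
    simp only [Finset.coe_filter, Finset.mem_univ, true_and, Set.mem_setOf_eq] at hu
    simp only [Finset.coe_sigma, Set.mem_sigma_iff, Finset.mem_coe, Finset.mem_erase]
    refine ⟨⟨?_, hxX u hu.1⟩, ?_⟩
    · rw [← hgx u hu.1]
      intro h0
      exact hu.2 (by simpa using h0)
    · have hp : IsPGroup p (Subgroup.zpowers (x u)) := by
        rw [← hgx u hu.1, ← cjs_zpowers]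
        exact ((hf u hu.1).isBP hPe).cj (g u) |>.1
      rw [mem_bel h.1.2.1 hp]
      have h1 := (((hf u hu.1).isBPOf_iff).mpr h.1).cj (g u)
      rwa [cjs_zpowers, hgx u hu.1] at h1
  · intro u hu u' hu' heq
    simp only [Finset.coe_filter, Finset.mem_univ, true_and, Set.mem_setOf_eq] at hu hu'
    simp only [Sigma.mk.injEq, heq_eq_eq] at heq
    obtain ⟨hxx, hff⟩ := heq
    have hconj : ((g u')⁻¹ * g u) * u * ((g u')⁻¹ * g u)⁻¹ = u' := by
      have h1 : (g u')⁻¹ * (g u * u * (g u)⁻¹) * g u' = u' := by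
        rw [hgx u hu.1, hxx, ← hgx u' hu'.1]; group
      refine Eq.trans ?_ h1
      group
    have hle' : SubLE p (cjs ((g u')⁻¹ * g u) (Subgroup.zpowers u), cj ((g u')⁻¹ * g u) (f u))
        (P, e) := by
      rw [cjs_zpowers, hconj, cj_mul, hff, cj_inv_cj]
      exact hf u' hu'.1
    obtain ⟨y, hy, c, hc, hyc⟩ := control_of_abelian h hab (hf u hu.1) hle'
    rw [mem_centralizer_zpowers] at hc
    have hyu : y * u = u * y := by
      have := Subgroup.mem_centralizer_iff.mp (hst hy) u hu.1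
      exact this.symm
    rw [← hconj, hyc]
    calc u = y * u * y⁻¹ := by rw [hyu]; group
      _ = y * (c * u * c⁻¹) * y⁻¹ := by rw [hc]; group
      _ = _ := by group

end Cfsg.Agent.H6.SubsecCount
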