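import Mathlib
import Cfsg.Agent.H6.SubsecCount
import Cfsg.Agent.H6.FirstMainTr
import Cfsg.Agent.BlockLib.KG.EquivTr
import Cfsg.Agent.Lib.Helper8.BQ2

/-!
# Blocks of centralizers of `p`-elements inducing a given block: translation
-/

set_option autoImplicit false

namespace Cfsg.Agent.H6.SubsecTr

open Cfsg Cfsg.Agent.BlockLib Cfsg.Agent.BlockLib.CA Cfsg.Agent.CharLib
open Cfsg.Agent.H6.SubsecCount Cfsg.Agent.H6.IndBlk

universe u

local notation "C(" P ")" => Subgroup.centralizer (SetLike.coe P)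
local notation "N(" P ")" => Subgroup.normalizer (SetLike.coe P)
local notation "Ce(" g ")" => Subgroup.centralizer (Singleton.singleton g : Set _)

variable {M : Ideal AlgInt} [M.IsPrime] {G : Type u} [Group G] [Fintype G]
variable {p : ℕ} [Fact p.Prime] [CharP (ResField M) p]

omit [Fintype G] in
theorem centralizer_singleton_eq (x : G) : Ce(x) = C(Subgroup.zpowers x) := by
  ext g
  rw [mem_centralizer_zpowers, Subgroup.mem_centralizer_singleton_iff]

theorem isInducedBlock_singleton_iff {x : G} (hx : IsPGroup p (Subgroup.zpowers x))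
    {b : Set (IrrCharacter Ce(x))} (hb : IsPBlock M b) {B : Set (IrrCharacter G)}
    (hB : IsPBlock M B) :
    IsInducedBlock M Ce(x) b B ↔ epsS M Ce(x) b ∈ bel (eps M B) x := by
  have heq := centralizer_singleton_eq x
  rw [isInducedBlock_iff_br hx
    (by rw [Subgroup.zpowers_le, Subgroup.mem_centralizer_singleton_iff])
    heq.ge (by rw [heq]; exact CA.centralizer_le_normalizer' _) hb hB,
    mem_bel (isBlk_eps hB) hx]
  constructor
  · intro h
    exact ⟨⟨hx, heq ▸ isBlk_epsS hb⟩, isBlk_eps hB, h⟩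
  · intro h
    exact h.2.2

theorem card_induced_eq {x : G} (hx : IsPGroup p (Subgroup.zpowers x))
    {B : Set (IrrCharacter G)} (hB : IsPBlock M B) :
    Nat.card {b : Set (IrrCharacter Ce(x)) // IsInducedBlock M Ce(x) b B} =
      (bel (eps M B) x).card := by
  classical
  have heq := centralizer_singleton_eq x
  rw [← Fintype.card_coe, ← Nat.card_eq_fintype_card]
  refine Nat.card_congr (Equiv.ofBijective
    (fun b => ⟨epsS M Ce(x) b.1, (isInducedBlock_singleton_iff hx b.2.1 hB).mp b.2⟩) ⟨?_, ?_⟩)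
  · intro b b' h
    apply Subtype.ext
    exact epsS_injective b.2.1 b'.2.1 (congrArg Subtype.val h)
  · rintro ⟨f, hf⟩
    have hf' := (mem_bel (isBlk_eps hB) hx).mp hf
    obtain ⟨b, hb, hbf⟩ := exists_epsS_eq (M := M) (H := Ce(x)) (heq ▸ hf'.1.2)
    refine ⟨⟨b, (isInducedBlock_singleton_iff hx hb hB).mpr (by rw [hbf]; exact hf)⟩, ?_⟩
    exact Subtype.ext hbf

/-- the isomorphism of a subgroup equal to `⊤` with the group -/
noncomputable def topIso {H : Subgroup G} (hH : H = ⊤) : H ≃* G :=
  (MulEquiv.subgroupCongr hH).trans Subgroup.topEquiv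

omit [Fintype G] in
@[simp] theorem topIso_apply {H : Subgroup G} (hH : H = ⊤) (h : H) : topIso hH h = (h : G) := rfl

/-- the block of a subgroup equal to `⊤` corresponding to a block of the group -/
def topBlk {H : Subgroup G} (hH : H = ⊤) (B : Set (IrrCharacter G)) : Set (IrrCharacter H) :=
  mapIrr (topIso hH).symm '' B

omit [M.IsPrime] [Fintype G] in
theorem isPBlock_topBlk {H : Subgroup G} (hH : H = ⊤) {B : Set (IrrCharacter G)}
    (hB : IsPBlock M B) : IsPBlock M (topBlk hH B) := isPBlock_equiv _ hB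

omit [Fintype G] in
theorem blockRank_topBlk {H : Subgroup G} (hH : H = ⊤) (B : Set (IrrCharacter G)) :
    blockRank p (topBlk hH B) = blockRank p B :=
  Cfsg.Agent.Lib.Helper8.BQ.blockRank_equiv _ p B

theorem epsS_topBlk {H : Subgroup G} (hH : H = ⊤) (B : Set (IrrCharacter G)) :
    epsS M H (topBlk hH B) = eps M B := by
  unfold epsS eps
  congr 1
  funext g
  have hg : g ∈ H := by rw [hH]; exact Subgroup.mem_top g
  rw [subgroupBlockCoeff, dif_pos hg, topBlk, ← blockCoeff_equiv (topIso hH).symm B g]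
  congr 1

theorem isInducedBlock_of_eq_top_iff (q : ℕ) [Fact q.Prime] [CharP (ResField M) q]
    {H : Subgroup G} (hH : H = ⊤) {b : Set (IrrCharacter H)}
    (hb : IsPBlock M b) {B : Set (IrrCharacter G)} (hB : IsPBlock M B) :
    IsInducedBlock M H b B ↔ b = topBlk hH B := by
  have hbot : IsPGroup q (⊥ : Subgroup G) := IsPGroup.of_bot
  rw [isInducedBlock_iff_br hbot bot_le (by rw [hH]; exact le_top)
    (by rw [Subgroup.normalizer_eq_top]; exact le_top) hb hB,
    CA.br_eq_self (fun g hg => absurd (by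
      rw [Subgroup.mem_centralizer_iff]
      intro h hh
      rw [SetLike.mem_coe, Subgroup.mem_bot] at hh
      rw [hh, one_mul, mul_one]) hg)]
  have h1 : CA.IsBlk (⊤ : Subgroup G) (epsS M H b) := hH ▸ isBlk_epsS hb
  constructor
  · intro h
    apply epsS_injective hb (isPBlock_topBlk hH hB)
    rw [epsS_topBlk]
    exact ((isBlk_eps hB).eq_of_mul_ne_zero h1 (by rw [h]; exact h1.ne_zero)).symm
  · rintro rfl
    rw [epsS_topBlk]
    exact (isBlk_eps hB).idem

theorem setOf_induced_of_eq_top (q : ℕ) [Fact q.Prime] [CharP (ResField M) q]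
    {H : Subgroup G} (hH : H = ⊤) {B : Set (IrrCharacter G)}
    (hB : IsPBlock M B) : {b : Set (IrrCharacter H) | IsInducedBlock M H b B} = {topBlk hH B} := by
  ext b
  simp only [Set.mem_setOf_eq, Set.mem_singleton_iff]
  constructor
  · intro h
    exact (isInducedBlock_of_eq_top_iff q hH h.1 hB).mp h
  · rintro rfl
    exact (isInducedBlock_of_eq_top_iff q hH (isPBlock_topBlk hH hB) hB).mpr rfl

end Cfsg.Agent.H6.SubsecTr
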