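import Mathlib
import Cfsg.Agent.H6.SubsecTr
import Cfsg.Agent.BlockLib.KG.DefectTr
import Cfsg.Agent.BlockLib.KG.PRegTr
import Cfsg.Agent.BlockLib.KG.InvSyl
import Cfsg.Agent.Lib.Helper23.MinMax
import Cfsg.Agent.Lib.Helper23.Subsect
import Cfsg.Agent.Lib.Helper23.Defect01
import Cfsg.Agent.S0912
import Cfsg.Agent.S0917
import Cfsg.Agent.S0958
import Cfsg.Agent.S4669
import Cfsg.Agent.S4710
import Cfsg.Agent.S4716
import Cfsg.Agent.S4511
import Cfsg.Agent.S4726

/-!
# 2-blocks of defect 2 of a group with a central involution have one Brauer character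
-/

set_option autoImplicit false

namespace Cfsg.Agent.H6.KleinBlk

open Cfsg Cfsg.Agent.BlockLib Cfsg.Agent.CharLib
open Cfsg.Agent.H6.SubsecCount Cfsg.Agent.H6.SubsecTr Cfsg.Agent.Lib.Helper23.MinMax

universe u

local notation "C(" P ")" => Subgroup.centralizer (SetLike.coe P)
local notation "N(" P ")" => Subgroup.normalizer (SetLike.coe P)
local notation "Ce(" g ")" => Subgroup.centralizer (Singleton.singleton g : Set _)

variable {G : Type u} [Group G]

theorem exists_isDefectGroup [Finite G] {p : ℕ} [Fact p.Prime] {M : Ideal AlgInt}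
    (hM : IsPModular p M) {B : Set (IrrCharacter G)} (hB : IsPBlock M B) :
    ∃ D : Subgroup G, IsDefectGroup p M B D := by
  cases nonempty_fintype G
  haveI := isPrime_of_isPModular hM
  haveI := charP_resField hM
  obtain ⟨D, hD⟩ := CA.exists_isDefGrp (p := p) (isBlk_eps hB)
  exact ⟨D, (isDefectGroup_iff hB D).mpr hD⟩

theorem mem_of_central [Finite G] {p : ℕ} [Fact p.Prime] {M : Ideal AlgInt}
    (hM : IsPModular p M) {B : Set (IrrCharacter G)} (hB : IsPBlock M B) {D : Subgroup G}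
    (hD : IsDefectGroup p M B D) {z : G} (hz : z ∈ Subgroup.center G)
    (hzp : ∃ k : ℕ, orderOf z = p ^ k) : z ∈ D := by
  apply Cfsg.Agent.S0912.result p M hM B hB D hD
  have hle : Subgroup.zpowers z ≤ Subgroup.center G := Subgroup.zpowers_le.mpr hz
  have hn : (Subgroup.zpowers z).Normal := ⟨fun n hn g => by
    have := Subgroup.mem_center_iff.mp (hle hn) g
    rw [this, mul_inv_cancel_right]
    exact hn⟩
  exact (le_sSup (show Subgroup.zpowers z ∈ {N : Subgroup G | N.Normal ∧ IsPGroup p N} from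
    ⟨hn, InvSyl.isPGroup_zpowers hzp⟩)) (Subgroup.mem_zpowers z)

theorem three_le_card [Finite G] (K : Subgroup G) {a b : G} (ha : a ∈ K) (hb : b ∈ K)
    (ha1 : a ≠ 1) (hb1 : b ≠ 1) (hab : a ≠ b) : 3 ≤ Nat.card K := by
  classical
  have h1 : ({1, a, b} : Finset G).card = 3 := by
    rw [Finset.card_insert_of_notMem (by simp [ha1.symm, hb1.symm]),
      Finset.card_insert_of_notMem (by simp [hab]), Finset.card_singleton]
  rw [← h1, ← Set.ncard_coe_finset]
  change _ ≤ (K : Set G).ncard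
  apply Set.ncard_le_ncard _ (Set.toFinite _)
  intro x hx
  simp only [Finset.coe_insert, Finset.coe_singleton, Set.mem_insert_iff,
    Set.mem_singleton_iff] at hx
  rcases hx with rfl | rfl | rfl
  · exact K.one_mem
  · exact ha
  · exact hb

theorem le_finsum_mem' {α : Type*} {s : Set α} (hs : s.Finite) (f : α → ℕ) {a : α} (ha : a ∈ s) :
    f a ≤ ∑ᶠ i ∈ s, f i := by
  rw [finsum_mem_eq_finite_toFinset_sum f hs]
  exact Finset.single_le_sum (fun _ _ => Nat.zero_le _) (by simpa using ha)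

theorem centralizer_singleton_eq_top {z : G} (hz : z ∈ Subgroup.center G) : Ce(z) = ⊤ := by
  rw [Subgroup.centralizer_eq_top_iff_subset]
  intro x hx
  rw [Set.mem_singleton_iff] at hx
  rw [hx]; exact hz

theorem blockDefect_eq_two [Finite G] {M : Ideal AlgInt} (hM : IsPModular 2 M)
    {B : Set (IrrCharacter G)} (hB : IsPBlock M B) {D : Subgroup G}
    (hD : IsDefectGroup 2 M B D) (hcard : Nat.card D = 4) : blockDefect 2 B = 2 := by
  haveI : Fact (Nat.Prime 2) := ⟨Nat.prime_two⟩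
  have h := card_of_isDefectGroup hM hB hD
  rw [hcard] at h
  exact (Nat.pow_right_injective (le_refl 2) (show 2 ^ 2 = 2 ^ blockDefect 2 B from h)).symm

/-- A 2-block of defect 2 with a subsection of rank one and defect 2 has at most 4 characters. -/
theorem card_le_four [Finite G] {M : Ideal AlgInt} (hM : IsPModular 2 M)
    {B : Set (IrrCharacter G)} (hB : IsPBlock M B) (hd : blockDefect 2 B = 2) {v : G}
    (hv : ∃ k : ℕ, orderOf v = 2 ^ k) {γ : Set (IrrCharacter Ce(v))}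
    (hγ : IsInducedBlock M Ce(v) γ B) (hγd : blockDefect 2 γ = 2) (hγ1 : blockRank 2 γ = 1) :
    Nat.card B ≤ 4 := by
  haveI : Fact (Nat.Prime 2) := ⟨Nat.prime_two⟩
  have hh : ∀ χ ∈ B, blockHeight 2 B (χ : G → ℂ) = 0 := fun χ hχ =>
    Nat.le_zero.mp (((Cfsg.Agent.S4710.result 2 M hM B hB 2 hd).2 χ hχ).2 le_rfl)
  have h := Cfsg.Agent.S4716.result 2 M hM B hB 2 hd hh v hv γ hγ hγd
  rw [hγ1] at h
  by_contra hcon
  push Not at hcon
  have : 5 ^ 2 ≤ Nat.card B ^ 2 := Nat.pow_le_pow_left hcon 2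
  omega

theorem blockRank_eq_one_of_central [Finite G] {M : Ideal AlgInt} (hM : IsPModular 2 M)
    {β : Set (IrrCharacter G)} (hβ : IsPBlock M β) {D : Subgroup G}
    (hD : IsDefectGroup 2 M β D) (hcard : Nat.card D = 4) {z : G}
    (hz : z ∈ Subgroup.center G) (hz1 : z ≠ 1) (hzp : ∃ k : ℕ, orderOf z = 2 ^ k) :
    blockRank 2 β = 1 := by
  classical
  cases nonempty_fintype G
  haveI : Fact (Nat.Prime 2) := ⟨Nat.prime_two⟩
  haveI := isPrime_of_isPModular hM
  haveI := charP_resField hM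
  obtain ⟨v, hvD, hv1, hvz⟩ : ∃ v ∈ D, v ≠ 1 ∧ v ≠ z := by
    by_contra hcon
    push Not at hcon
    have hsub : (D : Set G) ⊆ {1, z} := by
      intro x hx
      by_cases hx1 : x = 1
      · left; exact hx1
      · right; exact hcon x hx hx1
    have h1 : (D : Set G).ncard ≤ 2 :=
      (Set.ncard_le_ncard hsub (Set.toFinite _)).trans
        ((Set.ncard_insert_le 1 {z}).trans (by rw [Set.ncard_singleton]))
    have h2 : (D : Set G).ncard = 4 := hcard
    omega
  have hvp : ∃ k : ℕ, orderOf v = 2 ^ k := by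
    have h1 : orderOf v ∣ 2 ^ 2 := by
      have := Subgroup.orderOf_dvd_natCard D hvD
      rwa [hcard] at this
    obtain ⟨k, -, hk⟩ := (Nat.dvd_prime_pow Nat.prime_two).mp h1
    exact ⟨k, hk⟩
  have heq := centralizer_singleton_eq v
  obtain ⟨γ, hγ⟩ := (Cfsg.Agent.S0958.result 2 M hM (Subgroup.zpowers v) Ce(v)
    (InvSyl.isPGroup_zpowers hvp)
    (sup_le (by rw [Subgroup.zpowers_le, Subgroup.mem_centralizer_singleton_iff]) heq.ge)
    (by rw [heq]; exact CA.centralizer_le_normalizer' _) β hβ).mpr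
    ⟨D, hD, 1, by
      rw [MonoidHom.map_zpowers, Subgroup.zpowers_le]
      simpa using hvD⟩
  obtain ⟨D2, hD2⟩ := exists_isDefectGroup hM hγ.1
  have hzY : z ∈ Ce(v) := by
    rw [Subgroup.mem_centralizer_singleton_iff]
    exact (Subgroup.mem_center_iff.mp hz v).symm
  have hvY : v ∈ Ce(v) := by rw [Subgroup.mem_centralizer_singleton_iff]
  have hzc : (⟨z, hzY⟩ : Ce(v)) ∈ Subgroup.center Ce(v) := by
    rw [Subgroup.mem_center_iff]
    intro g
    apply Subtype.ext
    exact Subgroup.mem_center_iff.mp hz g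
  have hvc : (⟨v, hvY⟩ : Ce(v)) ∈ Subgroup.center Ce(v) := by
    rw [Subgroup.mem_center_iff]
    intro g
    apply Subtype.ext
    exact Subgroup.mem_centralizer_singleton_iff.mp g.2
  have hzD2 : (⟨z, hzY⟩ : Ce(v)) ∈ D2 := mem_of_central hM hγ.1 hD2 hzc (by
    obtain ⟨k, hk⟩ := hzp
    exact ⟨k, by rw [← hk]; exact Subgroup.orderOf_mk z hzY⟩)
  have hvD2 : (⟨v, hvY⟩ : Ce(v)) ∈ D2 := mem_of_central hM hγ.1 hD2 hvc (by
    obtain ⟨k, hk⟩ := hvp
    exact ⟨k, by rw [← hk]; exact Subgroup.orderOf_mk v hvY⟩)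
  obtain ⟨E, hE, hD2E⟩ := Cfsg.Agent.S0917.result 2 M hM Ce(v) γ hγ.1 β hβ hγ D2 hD2
  have hEcard : Nat.card E = 4 := by
    rw [card_of_isDefectGroup hM hβ hE, ← card_of_isDefectGroup hM hβ hD, hcard]
  have hK3 : 3 ≤ Nat.card (D2 ⊓ Subgroup.center Ce(v) : Subgroup Ce(v)) :=
    three_le_card _ (a := ⟨z, hzY⟩) (b := ⟨v, hvY⟩) ⟨hzD2, hzc⟩ ⟨hvD2, hvc⟩
      (fun h => hz1 (congrArg Subtype.val h)) (fun h => hv1 (congrArg Subtype.val h))
      (fun h => hvz (congrArg Subtype.val h).symm)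
  have hD2le : Nat.card D2 ≤ 4 := by
    rw [← hEcard, ← Subgroup.card_map_of_injective (Subgroup.subtype_injective Ce(v))]
    exact Subgroup.card_le_of_le hD2E
  have hKD : Nat.card (D2 ⊓ Subgroup.center Ce(v) : Subgroup Ce(v)) ∣ Nat.card D2 :=
    Subgroup.card_dvd_of_le inf_le_left
  have hD2pow := card_of_isDefectGroup hM hγ.1 hD2
  have hD2card : Nat.card D2 = 4 := by
    have h3 : 3 ≤ Nat.card D2 := hK3.trans (Nat.le_of_dvd Nat.card_pos hKD)
    have h4 : Nat.card D2 ≠ 3 := by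
      intro h
      rw [h] at hD2pow
      have : 2 ∣ 3 := by
        rw [hD2pow]
        apply dvd_pow_self
        rintro h0
        rw [h0] at hD2pow
        omega
      omega
    omega
  have hKcard : Nat.card (D2 ⊓ Subgroup.center Ce(v) : Subgroup Ce(v)) = 4 := by
    rw [hD2card] at hKD
    have := Nat.le_of_dvd (by norm_num) hKD
    interval_cases h : Nat.card (D2 ⊓ Subgroup.center Ce(v) : Subgroup Ce(v))
    · omega
    · rfl
  have hD2c : D2 ≤ Subgroup.center Ce(v) := by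
    have : D2 ⊓ Subgroup.center Ce(v) = D2 :=
      Subgroup.eq_of_le_of_card_ge inf_le_left (by rw [hKcard, hD2card])
    rw [← this]
    exact inf_le_right
  have hγ1 : blockRank 2 γ = 1 := Cfsg.Agent.S4669.result 2 M hM γ hγ.1 D2 hD2 hD2c
  have hk4 : Nat.card β ≤ 4 := card_le_four hM hβ (blockDefect_eq_two hM hβ hD hcard) hvp hγ
    (blockDefect_eq_two hM hγ.1 hD2 hD2card) hγ1
  obtain ⟨X, hvX, hX, hXrep⟩ := Cfsg.Agent.Lib.Helper23.Subsect.exists_rep_set 2 v hvp
  have h1X : (1 : G) ∈ X := by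
    obtain ⟨u, ⟨huX, hc⟩, -⟩ := hXrep 1 ⟨0, by simp⟩
    obtain ⟨c, hc⟩ := isConj_iff.mp hc
    rw [← hc] at huX
    simpa using huX
  have hzX : z ∈ X := by
    obtain ⟨u, ⟨huX, hc⟩, -⟩ := hXrep z hzp
    obtain ⟨c, hc⟩ := isConj_iff.mp hc
    rw [← hc, Subgroup.mem_center_iff.mp hz c, mul_inv_cancel_right] at huX
    exact huX
  have hsum := Cfsg.Agent.S4511.result 2 M hM β hβ X hX hXrep
  have hsub : ({1, z, v} : Finset G) ⊆ X := by
    intro x hx
    simp only [Finset.mem_insert, Finset.mem_singleton] at hx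
    rcases hx with rfl | rfl | rfl
    · exact h1X
    · exact hzX
    · exact hvX
  have hle := Finset.sum_le_sum_of_subset (f := fun x => ∑ᶠ b ∈ {b : Set (IrrCharacter Ce(x)) |
    IsInducedBlock M Ce(x) b β}, blockRank 2 b) hsub
  rw [← hsum, Finset.sum_insert (by simp [hz1.symm, hv1.symm]),
    Finset.sum_insert (by simp [hvz.symm]), Finset.sum_singleton,
    setOf_induced_of_eq_top 2 (centralizer_singleton_eq_top (Subgroup.one_mem _)) hβ,
    setOf_induced_of_eq_top 2 (centralizer_singleton_eq_top hz) hβ,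
    finsum_mem_singleton, finsum_mem_singleton, blockRank_topBlk, blockRank_topBlk] at hle
  have hv1' : 1 ≤ ∑ᶠ b ∈ {b : Set (IrrCharacter Ce(v)) | IsInducedBlock M Ce(v) b β},
      blockRank 2 b := by
    rw [← hγ1]
    exact le_finsum_mem' (Set.toFinite _) _ hγ
  have hpos := Cfsg.Agent.Lib.Helper23.Defect01.blockRank_pos (p := 2) Nat.prime_two
    (pb_nonempty hβ)
  omega

/-- The nontrivial subsections of a 2-block with abelian defect groups of order 4. -/
theorem subsection_rank_one [Finite G] {M : Ideal AlgInt} (hM : IsPModular 2 M)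
    {B : Set (IrrCharacter G)} (hB : IsPBlock M B) {P : Subgroup G}
    (hP : IsDefectGroup 2 M B P) (hcard : Nat.card P = 4) (hab : IsMulCommutative P) {x : G}
    (hx : ∃ k : ℕ, orderOf x = 2 ^ k) (hx1 : x ≠ 1) {β : Set (IrrCharacter Ce(x))}
    (hβ : IsInducedBlock M Ce(x) β B) : blockRank 2 β = 1 ∧ blockDefect 2 β = 2 := by
  haveI : Fact (Nat.Prime 2) := ⟨Nat.prime_two⟩
  obtain ⟨D', hD'⟩ := exists_isDefectGroup hM hβ.1
  have hxY : x ∈ Ce(x) := by rw [Subgroup.mem_centralizer_singleton_iff]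
  have hxc : (⟨x, hxY⟩ : Ce(x)) ∈ Subgroup.center Ce(x) := by
    rw [Subgroup.mem_center_iff]
    intro g
    apply Subtype.ext
    exact Subgroup.mem_centralizer_singleton_iff.mp g.2
  have hxp : ∃ k : ℕ, orderOf (⟨x, hxY⟩ : Ce(x)) = 2 ^ k := by
    obtain ⟨k, hk⟩ := hx
    exact ⟨k, by rw [← hk]; exact Subgroup.orderOf_mk x hxY⟩
  have hxD' : (⟨x, hxY⟩ : Ce(x)) ∈ D' := mem_of_central hM hβ.1 hD' hxc hxp
  have hC : Subgroup.centralizer ((D'.map (Subgroup.subtype Ce(x)) : Subgroup G) : Set G) ≤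
      Ce(x) := by
    apply Subgroup.centralizer_le
    intro y hy
    rw [Set.mem_singleton_iff] at hy
    rw [hy]
    exact ⟨⟨x, hxY⟩, hxD', rfl⟩
  have h1 := ((Cfsg.Agent.S4726.result 2 M hM Ce(x) β hβ.1 D' hD' hC).2 B hβ).2 P hP hab
  have hcard' : Nat.card D' = 4 := by
    rw [← Subgroup.card_map_of_injective (Subgroup.subtype_injective Ce(x)),
      card_of_isDefectGroup hM hB h1, ← card_of_isDefectGroup hM hB hP, hcard]
  exact ⟨blockRank_eq_one_of_central hM hβ.1 hD' hcard' hxc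
    (fun h => hx1 (congrArg Subtype.val h)) hxp, blockDefect_eq_two hM hβ.1 hD' hcard'⟩

end Cfsg.Agent.H6.KleinBlk
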