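import Mathlib
import Cfsg.Agent.H6.KleinBlkA
import Cfsg.Agent.H6.MajorSub2
import Cfsg.Agent.BlockLib.KG.ConstrainedChar
import Cfsg.Agent.BlockLib.KG.ExtFirstMain
import Cfsg.Agent.BlockLib.KG.CycAut
import Cfsg.Agent.BlockLib.KG.NilTr

/-!
# Blocks with cyclic defect groups and trivial inertial quotient
-/

set_option autoImplicit false

namespace Cfsg.Agent.H6.CycCentral

open Cfsg Cfsg.Agent.BlockLib Cfsg.Agent.CharLib
open Cfsg.Agent.H6.SubsecCount Cfsg.Agent.H6.SubsecTr Cfsg.Agent.Lib.Helper23.MinMax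
open Cfsg.Agent.H6.KleinBlk

universe u

local notation "C(" P ")" => Subgroup.centralizer (SetLike.coe P)
local notation "N(" P ")" => Subgroup.normalizer (SetLike.coe P)
local notation "Ce(" g ")" => Subgroup.centralizer (Singleton.singleton g : Set _)

variable {G : Type u} [Group G]

theorem le_centralizer_of_isCyclic {P : Subgroup G} (hcyc : IsCyclic P) : P ≤ C(P) := by
  intro x hx
  rw [Subgroup.mem_centralizer_iff]
  intro y hy
  obtain ⟨g, hg⟩ := hcyc.exists_generator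
  obtain ⟨i, hi⟩ := Subgroup.mem_zpowers_iff.mp (hg ⟨x, hx⟩)
  obtain ⟨j, hj⟩ := Subgroup.mem_zpowers_iff.mp (hg ⟨y, hy⟩)
  have h1 : (⟨y, hy⟩ : P) * ⟨x, hx⟩ = ⟨x, hx⟩ * ⟨y, hy⟩ := by
    rw [← hi, ← hj, ← zpow_add, ← zpow_add, add_comm]
  exact congrArg Subtype.val h1

/-- A block with defect group `⟨v⟩` has at most `|⟨v⟩|` irreducible characters. -/
theorem card_le_of_zpowers [Finite G] {p : ℕ} [Fact p.Prime] {M : Ideal AlgInt}
    (hM : IsPModular p M) {β : Set (IrrCharacter G)} (hβ : IsPBlock M β) {v : G}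
    (hD : IsDefectGroup p M β (Subgroup.zpowers v)) :
    Nat.card β ≤ Nat.card (Subgroup.zpowers v) := by
  classical
  cases nonempty_fintype G
  haveI := isPrime_of_isPModular hM
  haveI := charP_resField hM
  have hcardD := card_of_isDefectGroup hM hβ hD
  have hvp : ∃ k : ℕ, orderOf v = p ^ k := ⟨_, by rw [← Nat.card_zpowers, hcardD]⟩
  have heq := centralizer_singleton_eq v
  obtain ⟨γ, hγ⟩ := (Cfsg.Agent.S0958.result p M hM (Subgroup.zpowers v) Ce(v)
    (InvSyl.isPGroup_zpowers hvp)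
    (sup_le (by rw [Subgroup.zpowers_le, Subgroup.mem_centralizer_singleton_iff]) heq.ge)
    (by rw [heq]; exact CA.centralizer_le_normalizer' _) β hβ).mpr
    ⟨_, hD, 1, by
      rw [MonoidHom.map_zpowers, Subgroup.zpowers_le]
      simp⟩
  obtain ⟨D2, hD2⟩ := exists_isDefectGroup hM hγ.1
  have hvY : v ∈ Ce(v) := by rw [Subgroup.mem_centralizer_singleton_iff]
  have hvc : (⟨v, hvY⟩ : Ce(v)) ∈ Subgroup.center Ce(v) := by
    rw [Subgroup.mem_center_iff]
    intro g
    apply Subtype.ext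
    exact Subgroup.mem_centralizer_singleton_iff.mp g.2
  have hvD2 : (⟨v, hvY⟩ : Ce(v)) ∈ D2 := mem_of_central hM hγ.1 hD2 hvc (by
    obtain ⟨k, hk⟩ := hvp
    exact ⟨k, by rw [← hk]; exact Subgroup.orderOf_mk v hvY⟩)
  obtain ⟨E, hE, hD2E⟩ := Cfsg.Agent.S0917.result p M hM Ce(v) γ hγ.1 β hβ hγ D2 hD2
  have hEcard : Nat.card E = Nat.card (Subgroup.zpowers v) := by
    rw [card_of_isDefectGroup hM hβ hE, ← hcardD]
  have hD2le : Nat.card D2 ≤ Nat.card (Subgroup.zpowers v) := by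
    rw [← hEcard, ← Subgroup.card_map_of_injective (Subgroup.subtype_injective Ce(v))]
    exact Subgroup.card_le_of_le hD2E
  have hzle : Subgroup.zpowers (⟨v, hvY⟩ : Ce(v)) ≤ D2 := Subgroup.zpowers_le.mpr hvD2
  have hzcard : Nat.card (Subgroup.zpowers (⟨v, hvY⟩ : Ce(v))) =
      Nat.card (Subgroup.zpowers v) := by
    rw [Nat.card_zpowers, Nat.card_zpowers, Subgroup.orderOf_mk]
  have hD2eq : Subgroup.zpowers (⟨v, hvY⟩ : Ce(v)) = D2 :=
    Subgroup.eq_of_le_of_card_ge hzle (by rw [hzcard]; exact hD2le)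
  have hD2c : D2 ≤ Subgroup.center Ce(v) := by
    rw [← hD2eq]
    exact Subgroup.zpowers_le.mpr hvc
  have hγ1 : blockRank p γ = 1 := Cfsg.Agent.S4669.result p M hM γ hγ.1 D2 hD2 hD2c
  have hdd : blockDefect p γ = blockDefect p β := by
    have h1 := card_of_isDefectGroup hM hγ.1 hD2
    rw [← hD2eq, hzcard, hcardD] at h1
    exact (Nat.pow_right_injective (Fact.out : p.Prime).two_le h1).symm
  obtain ⟨k, hk⟩ := hvp
  have := Cfsg.Agent.H6.MajorSub.card_le_of_major hM hk hγ hdd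
  rwa [hγ1, mul_one, ← hcardD] at this

/-- A block with cyclic defect groups and trivial inertial quotient has one Brauer character. -/
theorem blockRank_eq_one [Finite G] {p : ℕ} [Fact p.Prime] {M : Ideal AlgInt}
    (hM : IsPModular p M) {B : Set (IrrCharacter G)} (hB : IsPBlock M B) {P : Subgroup G}
    (hPD : IsDefectGroup p M B P) (hcyc : IsCyclic P)
    (hst : ∀ c : Set (IrrCharacter C(P)), IsInducedBlock M C(P) c B → ∀ g ∈ N(P),
      StabilizesBlock C(P) c g → g ∈ C(P)) :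
    blockRank p B = 1 ∧ IsNilpotentBlock p M B := by
  classical
  letI := Fintype.ofFinite G
  haveI := isPrime_of_isPModular hM
  haveI := charP_resField hM
  have hDG := (isDefectGroup_iff hB P).mp hPD
  have hP : IsPGroup p P := by
    obtain ⟨g, -, hg⟩ := hDG
    exact hg.1
  have hPC : P ≤ C(P) := le_centralizer_of_isCyclic hcyc
  obtain ⟨c, hc⟩ := (Cfsg.Agent.S0958.result p M hM P C(P) hP (sup_le hPC le_rfl)
    (CA.centralizer_le_normalizer' _) B hB).mpr ⟨P, hPD, 1, by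
      intro x hx
      obtain ⟨y, hy, rfl⟩ := hx
      simpa using hy⟩
  have hblk := hc.1
  have hBPOf : CA.IsBPOf p (eps M B) P (epsS M C(P) c) :=
    ⟨⟨hP, isBlk_epsS hblk⟩, isBlk_eps hB, (isInducedBlock_centralizer_iff_br hP hblk hB).mp hc⟩
  have hmax := CA.isMaxBP_of_isDefGrp hBPOf hDG
  have hst' : CA.stab P (epsS M C(P) c) ≤ C(P) := by
    intro g hg
    exact hst c hc g hg.1 ((stabilizesBlock_iff hblk g).mpr
      ⟨CA.normalizer_le_normalizer_centralizer P hg.1, hg.2⟩)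
  refine ⟨?_, (isNilpotentBlock_iff hB).mpr ((hmax.isNilBlk_iff_of_abelian hPC).mpr hst')⟩
  obtain ⟨⟨v, hvP⟩, hgen⟩ := hcyc.exists_generator
  have hPv : P = Subgroup.zpowers v := by
    apply le_antisymm
    · intro x hx
      obtain ⟨i, hi⟩ := Subgroup.mem_zpowers_iff.mp (hgen ⟨x, hx⟩)
      exact Subgroup.mem_zpowers_iff.mpr ⟨i, by simpa using congrArg Subtype.val hi⟩
    · exact Subgroup.zpowers_le.mpr hvP
  have hk : Nat.card B ≤ Nat.card P := by
    have := card_le_of_zpowers hM hB (v := v) (by rw [← hPv]; exact hPD)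
    rwa [← hPv] at this
  obtain ⟨X, -, hX, hXrep⟩ := Cfsg.Agent.Lib.Helper23.Subsect.exists_rep_set p (1 : G)
    ⟨0, by simp⟩
  have hsum := Cfsg.Agent.S4511.result p M hM B hB X hX hXrep
  have h1X : (1 : G) ∈ X := by
    obtain ⟨w, ⟨hwX, hc⟩, -⟩ := hXrep 1 ⟨0, by simp⟩
    obtain ⟨c, hc⟩ := isConj_iff.mp hc
    rw [← hc] at hwX
    simpa using hwX
  rw [← Finset.add_sum_erase X _ h1X,
    setOf_induced_of_eq_top p (centralizer_singleton_eq_top (Subgroup.one_mem _)) hB,
    finsum_mem_singleton, blockRank_topBlk] at hsum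
  have hL : ∀ x ∈ X.erase 1, (bel (eps M B) x).card ≤
      ∑ᶠ b ∈ {b : Set (IrrCharacter Ce(x)) | IsInducedBlock M Ce(x) b B}, blockRank p b := by
    intro x hx
    obtain ⟨hx1, hxX⟩ := Finset.mem_erase.mp hx
    rw [← card_induced_eq (InvSyl.isPGroup_zpowers (hX x hxX)) hB]
    have h1 : Nat.card {b : Set (IrrCharacter Ce(x)) // IsInducedBlock M Ce(x) b B} =
        ∑ᶠ b ∈ {b : Set (IrrCharacter Ce(x)) | IsInducedBlock M Ce(x) b B}, 1 := by
      rw [finsum_mem_eq_finite_toFinset_sum _ (Set.toFinite _), Finset.sum_const, smul_eq_mul,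
        mul_one, ← Set.ncard_eq_toFinset_card _ (Set.toFinite _)]
      rfl
    rw [h1, finsum_mem_eq_finite_toFinset_sum _ (Set.toFinite _),
      finsum_mem_eq_finite_toFinset_sum _ (Set.toFinite _)]
    apply Finset.sum_le_sum
    intro b hb
    have hb' : IsInducedBlock M Ce(x) b B := by simpa using hb
    exact Cfsg.Agent.Lib.Helper23.Defect01.blockRank_pos (p := p) (Fact.out : p.Prime)
      (pb_nonempty hb'.1)
  have hge := le_sum_card_bel hmax hPC X (fun g hg => by
    obtain ⟨j, hj⟩ := hg ⟨g, Subgroup.mem_zpowers g⟩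
    have h2 : g ^ p ^ j = 1 := congrArg Subtype.val hj
    obtain ⟨i, -, hi⟩ := (Nat.dvd_prime_pow (Fact.out : p.Prime)).mp
      (orderOf_dvd_of_pow_eq_one h2)
    obtain ⟨x, ⟨hx, hc⟩, -⟩ := hXrep g ⟨i, hi⟩
    exact ⟨x, hx, hc⟩) hst'
  have hle := Finset.sum_le_sum hL
  have hpos := Cfsg.Agent.Lib.Helper23.Defect01.blockRank_pos (p := p) (Fact.out : p.Prime)
    (pb_nonempty hB)
  have hPpos : 0 < Nat.card P := Nat.card_pos
  omega

/-- A block with cyclic defect groups of a group with a nontrivial central `p`-element. -/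
theorem of_central [Finite G] {p : ℕ} [Fact p.Prime] {M : Ideal AlgInt}
    (hM : IsPModular p M) {B : Set (IrrCharacter G)} (hB : IsPBlock M B) {P : Subgroup G}
    (hPD : IsDefectGroup p M B P) (hcyc : IsCyclic P) {u : G} (hu : u ∈ Subgroup.center G)
    (hu1 : u ≠ 1) (hup : ∃ k : ℕ, orderOf u = p ^ k) :
    blockRank p B = 1 ∧ IsNilpotentBlock p M B := by
  classical
  apply blockRank_eq_one hM hB hPD hcyc
  intro c hc g hg hs
  letI := Fintype.ofFinite G
  haveI := isPrime_of_isPModular hM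
  haveI := charP_resField hM
  have hDG := (isDefectGroup_iff hB P).mp hPD
  have hP : IsPGroup p P := by
    obtain ⟨g, -, hg⟩ := hDG
    exact hg.1
  have hPC : P ≤ C(P) := le_centralizer_of_isCyclic hcyc
  have hblk := hc.1
  have hBPOf : CA.IsBPOf p (eps M B) P (epsS M C(P) c) :=
    ⟨⟨hP, isBlk_epsS hblk⟩, isBlk_eps hB, (isInducedBlock_centralizer_iff_br hP hblk hB).mp hc⟩
  have hmax := CA.isMaxBP_of_isDefGrp hBPOf hDG
  have hnd := hmax.not_dvd_relIndex
  rw [sup_eq_right.mpr hPC] at hnd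
  have hTN : CA.stab P (epsS M C(P) c) ≤ N(P) := fun x hx => hx.1
  haveI : (C(P).subgroupOf (CA.stab P (epsS M C(P) c))).Normal := by
    refine ⟨fun n hn x => ?_⟩
    rw [Subgroup.mem_subgroupOf] at hn ⊢
    have := (Subgroup.mem_normalizer_iff.mp
      (CA.normalizer_le_normalizer_centralizer P (hTN x.2)) n).mp hn
    simpa using this
  have hgT : g ∈ CA.stab P (epsS M C(P) c) := ⟨hg, ((stabilizesBlock_iff hblk g).mp hs).2⟩
  exact CycAut.mem_centralizer_of_fix hP hcyc hTN hnd hgT (mem_of_central hM hB hPD hu hup) hu1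
    (by rw [Subgroup.mem_center_iff.mp hu g, mul_inv_cancel_right])

end Cfsg.Agent.H6.CycCentral
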