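import Mathlib
import Cfsg.Agent.H25.Codeg
import Cfsg.Agent.CharLib.MGroup
import Cfsg.Agent.CharLib.Complete

set_option autoImplicit false

namespace Cfsg.Agent.H6.FT

open Cfsg Cfsg.Agent.CharLib Module
open scoped ComplexConjugate

universe u

variable {G : Type u} [Group G] [Fintype G]

theorem central_mul {χ : G → ℂ} (hχ : IsIrrCharacter G χ) {z : G}
    (hz : z ∈ Subgroup.center G) :
    ∃ ω : ℂ, ‖ω‖ = 1 ∧ ∀ g, χ (g * z) = ω * χ g := by
  have hχ1 : χ 1 ≠ 0 := irr_apply_one_ne_zero ⟨χ, hχ⟩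
  obtain ⟨d, ρ, hirr, hch⟩ := hχ
  haveI := hirr
  obtain ⟨ω, hω⟩ := schur ρ (ρ z) (fun g => by
    have := Subgroup.mem_center_iff.mp hz g
    change ρ z * ρ g = ρ g * ρ z
    rw [← map_mul, ← map_mul, this])
  have hmul : ∀ g : G, χ (g * z) = ω * χ g := by
    intro g
    rw [← hch]
    change LinearMap.trace ℂ _ (ρ (g * z)) = ω * LinearMap.trace ℂ _ (ρ g)
    rw [map_mul, hω]
    have h0 : ρ g * (ω • (LinearMap.id : (Fin d → ℂ) →ₗ[ℂ] (Fin d → ℂ))) = ω • ρ g := by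
      ext; simp
    rw [h0, map_smul, smul_eq_mul]
  refine ⟨ω, ?_, hmul⟩
  have hpow : ∀ k : ℕ, χ (z ^ k) = ω ^ k * χ 1 := by
    intro k
    induction k with
    | zero => simp
    | succ k ih => rw [pow_succ, hmul, ih]; ring
  have h1 := hpow (orderOf z)
  rw [pow_orderOf_eq_one] at h1
  have h2 : ω ^ orderOf z = 1 := by
    have : (ω ^ orderOf z - 1) * χ 1 = 0 := by rw [sub_mul, ← h1]; ring
    rcases mul_eq_zero.mp this with h | h
    · exact sub_eq_zero.mp h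
    · exact absurd h hχ1
  exact Complex.norm_eq_one_of_pow_eq_one h2 (orderOf_pos z).ne'

open Classical in
theorem avg_char (K : Subgroup G) [K.Normal] {φ : G → ℂ} (hφ : IsCharacter G φ) :
    IsCharacter G (fun x => φ x - (Nat.card K : ℂ)⁻¹ *
      ∑ a : G, if a ∈ K then φ (x * a) else 0) := by
  obtain ⟨m, hm⟩ := isCharacter_iff.mp hφ
  rw [isCharacter_iff]
  refine ⟨fun ξ => if (∃ x ∈ K, (ξ : G → ℂ) x ≠ (ξ : G → ℂ) 1) then m ξ else 0, ?_⟩
  have hK0 : (Nat.card K : ℂ) ≠ 0 := by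
    exact_mod_cast (Nat.card_pos (α := K)).ne'
  have hφx : ∀ x, φ x = ∑ ξ : IrrCharacter G, (m ξ : ℂ) * (ξ : G → ℂ) x := by
    intro x
    rw [hm]
    simp [Finset.sum_apply]
  funext x
  have h1 : ∑ a : G, (if a ∈ K then φ (x * a) else 0) =
      ∑ ξ : IrrCharacter G, (m ξ : ℂ) * ∑ a : G, (if a ∈ K then (ξ : G → ℂ) (x * a) else 0) := by
    simp only [Finset.mul_sum]
    rw [Finset.sum_comm]
    refine Finset.sum_congr rfl fun a _ => ?_
    by_cases ha : a ∈ K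
    · simp only [ha, if_true]
      exact hφx _
    · simp [ha]
  rw [h1, hφx x, Finset.mul_sum, ← Finset.sum_sub_distrib]
  simp only [Finset.sum_apply, Pi.smul_apply, smul_eq_mul]
  refine Finset.sum_congr rfl fun ξ _ => ?_
  by_cases hξ : ∃ x ∈ K, (ξ : G → ℂ) x ≠ (ξ : G → ℂ) 1
  · rw [Cfsg.Agent.H25.sum_coset_eq_zero K ξ hξ x]
    simp [hξ]
  · have h2 : ∀ a ∈ K, (ξ : G → ℂ) a = (ξ : G → ℂ) 1 := by
      intro a ha
      by_contra hne
      exact hξ ⟨a, ha, hne⟩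
    have h3 : ∑ a : G, (if a ∈ K then (ξ : G → ℂ) (x * a) else 0) =
        (Nat.card K : ℂ) * (ξ : G → ℂ) x := by
      have : ∀ a : G, (if a ∈ K then (ξ : G → ℂ) (x * a) else 0) =
          (if a ∈ K then (ξ : G → ℂ) x else 0) := by
        intro a
        by_cases ha : a ∈ K
        · simp only [ha, if_true]
          exact Cfsg.Agent.H25.irr_mul_of_mem_ker ξ (h2 a ha) x
        · simp [ha]
      simp only [this]
      rw [← Finset.sum_filter, Finset.sum_const, nsmul_eq_mul]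
      congr 2
      rw [Nat.card_eq_fintype_card, Fintype.card_subtype]
    rw [h3]
    simp only [hξ, if_false]
    field_simp
    simp

theorem one_le_norm {φ : G → ℂ} (hφ : IsCharacter G φ) (h0 : φ ≠ 0) :
    (Nat.card G : ℝ) ≤ ∑ x, Complex.normSq (φ x) := by
  obtain ⟨k, hk⟩ := classInner_char_nat hφ hφ
  have hk0 : k ≠ 0 := by
    rintro rfl
    exact h0 (classInner_self_eq_zero (by simpa using hk))
  have hG0 : (Nat.card G : ℂ) ≠ 0 := card_ne_zero_complex
  rw [classInner] at hk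
  have h1 : ∑ g : G, φ g * conj (φ g) = ((∑ x, Complex.normSq (φ x) : ℝ) : ℂ) := by
    push_cast
    exact Finset.sum_congr rfl fun g _ => Complex.mul_conj _
  rw [h1] at hk
  have h2 : ((∑ x, Complex.normSq (φ x) : ℝ) : ℂ) = ((k * Nat.card G : ℝ) : ℂ) := by
    push_cast
    push_cast at hk
    field_simp at hk
    rw [hk, mul_comm]
  have h3 : (∑ x, Complex.normSq (φ x) : ℝ) = k * Nat.card G := by exact_mod_cast h2
  rw [h3]
  have : (1 : ℝ) ≤ k := by exact_mod_cast Nat.one_le_iff_ne_zero.mpr hk0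
  nlinarith [(Nat.cast_nonneg (Nat.card G) : (0 : ℝ) ≤ Nat.card G)]

theorem abelian_norm (hA : ∀ a b : G, a * b = b * a) {φ : G → ℂ} (hφ : IsCharacter G φ) :
    (φ 1).re * (Nat.card G : ℝ) ≤ ∑ x, Complex.normSq (φ x) := by
  obtain ⟨m, hm⟩ := isCharacter_iff.mp hφ
  have hlin : ∀ ξ : IrrCharacter G, (ξ : G → ℂ) 1 = 1 := by
    intro ξ
    obtain ⟨d, ρ, hirr, hch⟩ := ξ.2
    haveI := hirr
    have := Cfsg.Agent.CharLib.H2.finrank_eq_one_of_comm_image ρ (fun x y => by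
      change ρ x * ρ y = ρ y * ρ x
      rw [← map_mul, ← map_mul, hA])
    rw [← hch, Representation.char_one, this]
    simp
  have h1 : φ 1 = ((∑ ξ : IrrCharacter G, (m ξ : ℝ) : ℝ) : ℂ) := by
    rw [hm]
    simp [Finset.sum_apply, hlin]
  have h2 : classInner φ φ = ((∑ ξ : IrrCharacter G, (m ξ : ℝ) ^ 2 : ℝ) : ℂ) := by
    conv_lhs => rw [hm]
    rw [classInner_sum_sum]
    push_cast
    refine Finset.sum_congr rfl fun ξ _ => ?_
    rw [Complex.conj_natCast]
    ring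
  have hG0 : (Nat.card G : ℂ) ≠ 0 := card_ne_zero_complex
  rw [classInner] at h2
  have h3 : ∑ g : G, φ g * conj (φ g) = ((∑ x, Complex.normSq (φ x) : ℝ) : ℂ) := by
    push_cast
    exact Finset.sum_congr rfl fun g _ => Complex.mul_conj _
  rw [h3] at h2
  have h4 : ((∑ x, Complex.normSq (φ x) : ℝ) : ℂ) =
      (((∑ ξ : IrrCharacter G, (m ξ : ℝ) ^ 2) * Nat.card G : ℝ) : ℂ) := by
    rw [Complex.ofReal_mul, ← h2]
    push_cast
    field_simp
  have h5 : (∑ x, Complex.normSq (φ x) : ℝ) =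
      (∑ ξ : IrrCharacter G, (m ξ : ℝ) ^ 2) * Nat.card G := by exact_mod_cast h4
  rw [h5, h1, Complex.ofReal_re]
  apply mul_le_mul_of_nonneg_right _ (Nat.cast_nonneg _)
  refine Finset.sum_le_sum fun ξ _ => ?_
  have : (m ξ : ℝ) ≤ (m ξ : ℝ) ^ 2 := by
    exact_mod_cast Nat.le_self_pow (by norm_num) (m ξ)
  exact this

end Cfsg.Agent.H6.FT
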