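import Mathlib
import Cfsg.Agent.H6.FT1

set_option autoImplicit false

namespace Cfsg.Agent.H6.FT

open Cfsg Cfsg.Agent.CharLib Module
open scoped ComplexConjugate

universe u

variable {G : Type u} [Group G] [Fintype G]

theorem sum_sub {M : Type*} [AddCommMonoid M] (K : Subgroup G) [Fintype K] (F : G → M)
    (hF : ∀ g, g ∉ K → F g = 0) : ∑ x : K, F x = ∑ g, F g := by
  classical
  rw [← Finset.sum_subtype (Finset.univ.filter (· ∈ K)) (by simp) F]
  exact Finset.sum_subset (Finset.filter_subset _ _) (fun g _ hg => hF g (by simpa using hg))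

open Classical in
theorem ti_count (N : Subgroup G) (D E : G → Prop) (w : G → ℝ) (hw0 : ∀ g, 0 ≤ w g)
    (hw : ∀ g y, w (y⁻¹ * g * y) = w g)
    (hDE : ∀ g y, D (y⁻¹ * g * y) → E g)
    (hA : ∀ x u, D x → D (u * x * u⁻¹) → u ∈ N) :
    (Nat.card G : ℝ) * ∑ x, (if D x then w x else 0) ≤
      (Nat.card N : ℝ) * ∑ g, (if E g then w g else 0) := by
  have h1 : ∀ y : G, ∑ x, (if D x then w x else 0) =
      ∑ g, (if D (y⁻¹ * g * y) then w g else 0) := by
    intro y
    symm
    refine Fintype.sum_equiv (MulAut.conj y⁻¹).toEquiv _ _ ?_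
    intro g
    simp only [MulEquiv.toEquiv_eq_coe, MulEquiv.coe_toEquiv, MulAut.conj_apply, inv_inv, hw]
  have h2 : (Nat.card G : ℝ) * ∑ x, (if D x then w x else 0) =
      ∑ y : G, ∑ g, (if D (y⁻¹ * g * y) then w g else 0) := by
    rw [Finset.sum_congr rfl (fun y _ => (h1 y).symm), Finset.sum_const, nsmul_eq_mul,
      Finset.card_univ, Nat.card_eq_fintype_card]
  rw [h2, Finset.sum_comm, Finset.mul_sum]
  refine Finset.sum_le_sum fun g _ => ?_
  rw [← Finset.sum_filter, Finset.sum_const, nsmul_eq_mul]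
  by_cases hne : (Finset.univ.filter (fun y : G => D (y⁻¹ * g * y))).Nonempty
  · obtain ⟨y₀, hy₀⟩ := hne
    have hy₀' : D (y₀⁻¹ * g * y₀) := by simpa using hy₀
    have hE : E g := hDE g y₀ hy₀'
    rw [if_pos hE]
    apply mul_le_mul_of_nonneg_right _ (hw0 g)
    have hcard : (Finset.univ.filter (fun y : G => D (y⁻¹ * g * y))).card ≤
        (Finset.univ.filter (fun y : G => y ∈ N)).card := by
      apply Finset.card_le_card_of_injOn (fun y => y⁻¹ * y₀)
      · intro y hy
        have hy' : D (y⁻¹ * g * y) := by simpa using hy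
        have : y⁻¹ * y₀ ∈ N := by
          apply hA _ _ hy₀'
          have : y⁻¹ * y₀ * (y₀⁻¹ * g * y₀) * (y⁻¹ * y₀)⁻¹ = y⁻¹ * g * y := by group
          rw [this]
          exact hy'
        simpa using this
      · intro a _ b _ hab
        simpa using hab
    have hN : (Finset.univ.filter (fun y : G => y ∈ N)).card = Nat.card N := by
      rw [Nat.card_eq_fintype_card, Fintype.card_subtype]
    rw [hN] at hcard
    exact_mod_cast hcard
  · rw [Finset.not_nonempty_iff_eq_empty] at hne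
    rw [hne]
    simp only [Finset.card_empty, Nat.cast_zero, zero_mul]
    apply mul_nonneg (Nat.cast_nonneg _)
    split_ifs
    · exact hw0 g
    · exact le_rfl

open Classical in
theorem avg_decomp (K : Subgroup G) [K.Normal] {φ : G → ℂ} (hφ : IsCharacter G φ) :
    classInner (fun x => (Nat.card K : ℂ)⁻¹ * ∑ a : G, if a ∈ K then φ (x * a) else 0)
      (fun x => φ x - (Nat.card K : ℂ)⁻¹ * ∑ a : G, if a ∈ K then φ (x * a) else 0) = 0 := by
  obtain ⟨m, hm⟩ := isCharacter_iff.mp hφ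
  have hK0 : (Nat.card K : ℂ) ≠ 0 := by
    exact_mod_cast (Nat.card_pos (α := K)).ne'
  have hφx : ∀ x, φ x = ∑ ξ : IrrCharacter G, (m ξ : ℂ) * (ξ : G → ℂ) x := by
    intro x
    rw [hm]
    simp [Finset.sum_apply]
  have key : (fun x => (Nat.card K : ℂ)⁻¹ * ∑ a : G, if a ∈ K then φ (x * a) else 0) =
      ∑ ξ : IrrCharacter G,
        ((if (∃ x ∈ K, (ξ : G → ℂ) x ≠ (ξ : G → ℂ) 1) then 0 else m ξ : ℕ) : ℂ) •
          (ξ : G → ℂ) := by
    funext x
    have h1 : ∑ a : G, (if a ∈ K then φ (x * a) else 0) =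
        ∑ ξ : IrrCharacter G, (m ξ : ℂ) *
          ∑ a : G, (if a ∈ K then (ξ : G → ℂ) (x * a) else 0) := by
      simp only [Finset.mul_sum]
      rw [Finset.sum_comm]
      refine Finset.sum_congr rfl fun a _ => ?_
      by_cases ha : a ∈ K
      · simp only [ha, if_true]
        exact hφx _
      · simp [ha]
    rw [h1, Finset.mul_sum]
    simp only [Finset.sum_apply, Pi.smul_apply, smul_eq_mul]
    refine Finset.sum_congr rfl fun ξ _ => ?_
    by_cases hξ : ∃ x ∈ K, (ξ : G → ℂ) x ≠ (ξ : G → ℂ) 1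
    · rw [Cfsg.Agent.H25.sum_coset_eq_zero K ξ hξ x]
      simp [hξ]
    · have h2 : ∀ a ∈ K, (ξ : G → ℂ) a = (ξ : G → ℂ) 1 := by
        intro a ha
        by_contra hne
        exact hξ ⟨a, ha, hne⟩
      have h3 : ∑ a : G, (if a ∈ K then (ξ : G → ℂ) (x * a) else 0) =
          (Nat.card K : ℂ) * (ξ : G → ℂ) x := by
        have : ∀ a : G, (if a ∈ K then (ξ : G → ℂ) (x * a) else 0) =
            (if a ∈ K then (ξ : G → ℂ) x else 0) := by
          intro a
          by_cases ha : a ∈ K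
          · simp only [ha, if_true]
            exact Cfsg.Agent.H25.irr_mul_of_mem_ker ξ (h2 a ha) x
          · simp [ha]
        simp only [this]
        rw [← Finset.sum_filter, Finset.sum_const, nsmul_eq_mul]
        congr 2
        rw [Nat.card_eq_fintype_card, Fintype.card_subtype]
      rw [h3]
      simp only [hξ, if_false]
      field_simp
  have key2 : (fun x => φ x - (Nat.card K : ℂ)⁻¹ * ∑ a : G, if a ∈ K then φ (x * a) else 0) =
      ∑ ξ : IrrCharacter G,
        ((if (∃ x ∈ K, (ξ : G → ℂ) x ≠ (ξ : G → ℂ) 1) then m ξ else 0 : ℕ) : ℂ) •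
          (ξ : G → ℂ) := by
    have : (fun x => φ x - (Nat.card K : ℂ)⁻¹ * ∑ a : G, if a ∈ K then φ (x * a) else 0) =
        φ - (fun x => (Nat.card K : ℂ)⁻¹ * ∑ a : G, if a ∈ K then φ (x * a) else 0) := rfl
    rw [this, key]
    conv_lhs => rw [hm]
    rw [← Finset.sum_sub_distrib]
    refine Finset.sum_congr rfl fun ξ _ => ?_
    rw [← sub_smul]
    congr 1
    by_cases hξ : ∃ x ∈ K, (ξ : G → ℂ) x ≠ (ξ : G → ℂ) 1
    · simp [hξ]
    · simp [hξ]
  rw [key2, key, classInner_sum_sum]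
  refine Finset.sum_eq_zero fun ξ _ => ?_
  by_cases hξ : ∃ x ∈ K, (ξ : G → ℂ) x ≠ (ξ : G → ℂ) 1
  · simp [hξ]
  · simp [hξ]

end Cfsg.Agent.H6.FT
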