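import Mathlib
import Cfsg.Agent.H6.FT2

set_option autoImplicit false
set_option maxHeartbeats 1000000

namespace Cfsg.Agent.H6.FT

open Cfsg Cfsg.Agent.CharLib Module
open scoped ComplexConjugate

universe u

variable {G : Type u} [Group G] [Fintype G]

open Classical in
theorem part1 (H : Subgroup G)
    (hZ : H ⊓ Subgroup.center G = ⊥)
    (hone : ∀ g : G, g ∉ Subgroup.center G → ∀ y : G, (∃ k ∈ H, k ≠ 1 ∧ k * g = g * k) →
      (∃ k ∈ H, k ≠ 1 ∧ (y * k * y⁻¹) * g = g * (y * k * y⁻¹)) → y ∈ Subgroup.normalizer (H : Set G))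
    (hab : ∀ a ∈ H, ∀ b ∈ H, a * b = b * a)
    (χ : G → ℂ) (hχ : IsIrrCharacter G χ) (hker : ∃ h ∈ H, χ h ≠ χ 1) :
    (Nat.card H : ℝ) * Complex.normSq ((Nat.card H : ℂ)⁻¹ * ∑ a : G, if a ∈ H then χ a else 0)
      < Complex.normSq (χ 1) := by
  set N := Subgroup.normalizer (H : Set G) with hN
  have hHN : H ≤ N := Subgroup.le_normalizer
  have hcf : IsClassFunction G χ := isClassFunction_of_irr hχ
  set hH : ℂ := (Nat.card H : ℂ) with hhH
  have hH0 : hH ≠ 0 := by
    rw [hhH]
    exact_mod_cast (Nat.card_pos (α := H)).ne'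
  set f : G → ℂ := fun x => hH⁻¹ * ∑ a : G, if a ∈ H then χ (x * a) else 0 with hf
  set Ξ : G → ℂ := fun x => χ x - f x with hΞ
  let P : G → Prop := fun x => ∃ k ∈ H, k ≠ 1 ∧ k * x = x * k
  obtain ⟨h₀, hh₀, hne₀⟩ := hker
  have hh₀1 : h₀ ≠ 1 := by rintro rfl; exact hne₀ rfl
  have F1 : ∀ x b, b ∈ H → f (x * b) = f x := by
    intro x b hb
    simp only [hf]
    congr 1
    refine Fintype.sum_equiv (Equiv.mulLeft b) _ _ ?_
    intro a
    simp only [Equiv.coe_mulLeft, H.mul_mem_cancel_left hb, mul_assoc]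
  haveI : (H.subgroupOf N).Normal := Subgroup.normal_in_normalizer
  have hcardK : Nat.card (H.subgroupOf N) = Nat.card H :=
    Nat.card_congr (Subgroup.subgroupOfEquivOfLe hHN).toEquiv
  have hsumK : ∀ x : N, ∑ a : N, (if a ∈ H.subgroupOf N then χ ((x * a : N) : G) else 0) =
      ∑ a : G, if a ∈ H then χ (x * a) else 0 := by
    intro x
    have := sum_sub N (fun a : G => if a ∈ H then χ (x * a) else 0) (fun g hg => by
      rw [if_neg (fun h => hg (hHN h))])
    rw [← this]
    refine Finset.sum_congr rfl fun a _ => ?_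
    simp only [Subgroup.mem_subgroupOf, Subgroup.coe_mul]
  have hχN : IsCharacter N (fun x : N => χ x) := isCharacter_restrict (isCharacter_of_irr hχ) N
  have hΞN : IsCharacter N (fun x : N => Ξ x) := by
    have e : (fun x : N => Ξ x) = (fun x : N => (fun x : N => χ x) x -
        (Nat.card (H.subgroupOf N) : ℂ)⁻¹ *
          ∑ a : N, if a ∈ H.subgroupOf N then (fun x : N => χ x) (x * a) else 0) := by
      funext x
      simp only [hΞ, hf]
      rw [hsumK x, hcardK]
    rw [e]
    exact avg_char _ hχN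
  have hΞ0 : (fun x : N => Ξ x) ≠ 0 := by
    intro h
    have e1 : Ξ h₀ = 0 := congrFun h ⟨h₀, hHN hh₀⟩
    have e2 : Ξ 1 = 0 := congrFun h 1
    apply hne₀
    have e3 : f h₀ = f 1 := by
      have := F1 1 h₀ hh₀
      rwa [one_mul] at this
    simp only [hΞ] at e1 e2
    rw [sub_eq_zero] at e1 e2
    rw [e1, e3, ← e2]
  have F3 : (Nat.card N : ℝ) ≤ ∑ x : N, Complex.normSq (Ξ x) := one_le_norm hΞN hΞ0
  have F4 : ∀ x ∈ N, ¬ P x → Ξ x = 0 := by
    intro x hx hP
    have hxinv : ∀ b ∈ H, x⁻¹ * b * x ∈ H := by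
      intro b hb
      have := (Subgroup.mem_normalizer_iff.mp (N.inv_mem hx) b).mp hb
      simpa using this
    let φ : H → H := fun b =>
      ⟨x⁻¹ * b * x * (b : G)⁻¹, H.mul_mem (hxinv b b.2) (H.inv_mem b.2)⟩
    have hinj : Function.Injective φ := by
      intro b c hbc
      have h1 : x⁻¹ * (b : G) * x * (b : G)⁻¹ = x⁻¹ * c * x * (c : G)⁻¹ :=
        congrArg Subtype.val hbc
      by_contra hne
      apply hP
      refine ⟨(c : G)⁻¹ * b, H.mul_mem (H.inv_mem c.2) b.2, ?_, ?_⟩
      · intro h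
        apply hne
        ext
        exact (inv_mul_eq_one.mp h).symm
      · have h2 : (b : G) * x * (b : G)⁻¹ = c * x * (c : G)⁻¹ := by
          have := congrArg (fun t => x * t) h1
          simpa [mul_assoc] using this
        calc (c : G)⁻¹ * b * x = (c : G)⁻¹ * (b * x * (b : G)⁻¹) * b := by group
          _ = (c : G)⁻¹ * (c * x * (c : G)⁻¹) * b := by rw [h2]
          _ = x * ((c : G)⁻¹ * b) := by group
    have hsurj : Function.Surjective φ := Finite.injective_iff_surjective.mp hinj
    have hconst : ∀ a ∈ H, χ (x * a) = χ x := by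
      intro a ha
      obtain ⟨b, hb⟩ := hsurj ⟨a, ha⟩
      have h1 : x⁻¹ * (b : G) * x * (b : G)⁻¹ = a := congrArg Subtype.val hb
      have h2 : x * a = b * x * (b : G)⁻¹ := by rw [← h1]; group
      rw [h2]
      exact hcf x b
    simp only [hΞ, hf]
    have : ∑ a : G, (if a ∈ H then χ (x * a) else 0) = hH * χ x := by
      have h5 : ∀ a : G, (if a ∈ H then χ (x * a) else 0) = if a ∈ H then χ x else 0 := by
        intro a
        by_cases ha : a ∈ H
        · simp [ha, hconst a ha]
        · simp [ha]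
      simp only [h5]
      rw [← Finset.sum_filter, Finset.sum_const, nsmul_eq_mul, hhH]
      congr 2
      rw [Nat.card_eq_fintype_card, Fintype.card_subtype]
    rw [this]
    field_simp
    ring
  have F5 : ∑ x : N, f x * conj (Ξ x) = 0 := by
    have := avg_decomp (H.subgroupOf N) hχN
    rw [classInner] at this
    have h2 := (mul_eq_zero.mp this).resolve_left (inv_ne_zero card_ne_zero_complex)
    rw [← h2]
    refine Finset.sum_congr rfl fun x _ => ?_
    simp only [hΞ, hf]
    rw [hsumK x, hcardK]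
  have F6 : ∑ x : N, (if P x then Complex.normSq (χ x) else 0) =
      ∑ x : N, (if P x then Complex.normSq (f x) else 0) + ∑ x : N, Complex.normSq (Ξ x) := by
    have hpt : ∀ x : N, (if P x then Complex.normSq (χ x) else 0) =
        (if P x then Complex.normSq (f x) else 0) + Complex.normSq (Ξ x) +
          2 * (f x * conj (Ξ x)).re := by
      intro x
      by_cases hP : P x
      · simp only [hP, if_true]
        have : χ x = f x + Ξ x := by simp only [hΞ]; ring
        rw [this, Complex.normSq_add]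
      · simp only [hP, if_false]
        rw [F4 x x.2 hP]
        simp
    rw [Finset.sum_congr rfl (fun x _ => hpt x), Finset.sum_add_distrib, Finset.sum_add_distrib,
      ← Finset.mul_sum, ← Complex.re_sum, F5]
    simp
  set Z := Subgroup.center G with hZdef
  let D : G → Prop := fun x => x ∉ Z ∧ P x
  have hA : ∀ x u, D x → D (u * x * u⁻¹) → u ∈ N := by
    intro x u hx hux
    obtain ⟨k, hk, hk1, hkc⟩ := hux.2
    have : u⁻¹ ∈ N := by
      refine hone x hx.1 u⁻¹ hx.2 ⟨k, hk, hk1, ?_⟩
      calc u⁻¹ * k * u⁻¹⁻¹ * x = u⁻¹ * (k * (u * x * u⁻¹)) * u := by group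
        _ = u⁻¹ * ((u * x * u⁻¹) * k) * u := by rw [hkc]
        _ = x * (u⁻¹ * k * u⁻¹⁻¹) := by group
    simpa using N.inv_mem this
  have F7 := ti_count N D (fun g => g ∉ Z) (fun g => Complex.normSq (χ g))
    (fun g => Complex.normSq_nonneg _)
    (fun g y => by
      have := hcf g y⁻¹
      rw [inv_inv] at this
      simp only [this])
    (fun g y hD hg => hD.1 (by
      have := (inferInstance : Z.Normal).conj_mem g hg y⁻¹
      simpa using this))
    hA
  have F8 : ∑ g, Complex.normSq (χ g) = (Nat.card G : ℝ) := by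
    have := classInner_irr_self hχ
    rw [classInner] at this
    have h1 : ∑ g : G, χ g * conj (χ g) = ((∑ x, Complex.normSq (χ x) : ℝ) : ℂ) := by
      push_cast
      exact Finset.sum_congr rfl fun g _ => Complex.mul_conj _
    rw [h1] at this
    have hG0 : (Nat.card G : ℂ) ≠ 0 := card_ne_zero_complex
    have h2 : ((∑ x, Complex.normSq (χ x) : ℝ) : ℂ) = ((Nat.card G : ℝ) : ℂ) := by
      rw [inv_mul_eq_one₀ hG0] at this
      rw [← this]
      simp
    exact_mod_cast h2
  have hwZ : ∀ z ∈ Z, Complex.normSq (χ z) = Complex.normSq (χ 1) := by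
    intro z hz
    obtain ⟨ω, hω, hmul⟩ := central_mul hχ hz
    have := hmul 1
    rw [one_mul] at this
    rw [this, Complex.normSq_mul, Complex.normSq_eq_norm_sq, hω]
    simp
  set n2 : ℝ := Complex.normSq (χ 1) with hn2
  have hsumZ : ∑ g, (if g ∈ Z then Complex.normSq (χ g) else 0) = (Nat.card Z : ℝ) * n2 := by
    have h5 : ∀ g : G, (if g ∈ Z then Complex.normSq (χ g) else 0) = if g ∈ Z then n2 else 0 := by
      intro g
      by_cases hg : g ∈ Z
      · simp [hg, hwZ g hg]
      · simp [hg]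
    simp only [h5]
    rw [← Finset.sum_filter, Finset.sum_const, nsmul_eq_mul]
    congr 2
    rw [Nat.card_eq_fintype_card, Fintype.card_subtype]
  have hsumNZ : ∑ g, (if g ∉ Z then Complex.normSq (χ g) else 0) =
      (Nat.card G : ℝ) - (Nat.card Z : ℝ) * n2 := by
    rw [← F8, ← hsumZ, eq_sub_iff_add_eq, ← Finset.sum_add_distrib]
    refine Finset.sum_congr rfl fun g _ => ?_
    by_cases hg : g ∈ Z <;> simp [hg]
  have hZN : ∀ z ∈ Z, z ∈ N := by
    intro z hz
    rw [hN, Subgroup.mem_normalizer_iff]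
    intro h
    have : z * h * z⁻¹ = h := by
      rw [← Subgroup.mem_center_iff.mp hz h]
      group
    rw [this]
  have hZP : ∀ z ∈ Z, P z := fun z hz => ⟨h₀, hh₀, hh₀1, Subgroup.mem_center_iff.mp hz h₀⟩
  have hDN : ∀ x, D x → x ∈ N := by
    intro x hx
    apply hA x x hx
    have : x * x * x⁻¹ = x := by group
    rw [this]
    exact hx
  have F9 : ∑ x : N, (if P x then Complex.normSq (χ x) else 0) =
      ∑ g, (if D g then Complex.normSq (χ g) else 0) + (Nat.card Z : ℝ) * n2 := by
    have h1 := sum_sub N (fun g : G => if g ∈ N ∧ P g then Complex.normSq (χ g) else 0)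
      (fun g hg => by rw [if_neg (fun h => hg h.1)])
    have h2 : ∑ x : N, (if P x then Complex.normSq (χ x) else 0) =
        ∑ x : N, (fun g : G => if g ∈ N ∧ P g then Complex.normSq (χ g) else 0) x := by
      refine Finset.sum_congr rfl fun x _ => ?_
      by_cases hP : P x
      · simp only [hP, x.2, and_self, if_true]
      · simp only [hP, and_false, if_false]
    rw [h2, h1, ← hsumZ, ← Finset.sum_add_distrib]
    refine Finset.sum_congr rfl fun g _ => ?_
    by_cases hg : g ∈ Z
    · have hnD : ¬ D g := fun h => h.1 hg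
      simp only [hg, hnD, hZN g hg, hZP g hg, and_self, if_true, if_false, zero_add]
    · by_cases hP : P g
      · have hD : D g := ⟨hg, hP⟩
        simp only [hg, hD, hDN g hD, hP, and_self, if_true, if_false, add_zero]
      · have hnD : ¬ D g := fun h => hP h.2
        simp only [hg, hnD, hP, and_false, if_false, add_zero]
  set cc : ℝ := Complex.normSq (f 1) with hcc
  have hfz : ∀ z ∈ Z, ∀ a ∈ H, Complex.normSq (f (z * a)) = cc := by
    intro z hz a ha
    rw [F1 z a ha]
    obtain ⟨ω, hω, hmul⟩ := central_mul hχ hz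
    have : f z = ω * f 1 := by
      have h8 : ∀ b : G, (if b ∈ H then χ (z * b) else 0) =
          ω * (if b ∈ H then χ (1 * b) else 0) := by
        intro b
        by_cases hb : b ∈ H
        · simp only [hb, if_true, one_mul]
          rw [← Subgroup.mem_center_iff.mp hz b, hmul]
        · simp [hb]
      simp only [hf, h8, ← Finset.mul_sum]
      ring
    rw [this, Complex.normSq_mul, Complex.normSq_eq_norm_sq, hω]
    simp [hcc]
  have F10 : (Nat.card H : ℝ) * (Nat.card Z : ℝ) * cc ≤
      ∑ x : N, (if P x then Complex.normSq (f x) else 0) := by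
    have h1 := sum_sub N (fun g : G => if g ∈ N ∧ P g then Complex.normSq (f g) else 0)
      (fun g hg => by rw [if_neg (fun h => hg h.1)])
    have h2 : ∑ x : N, (if P x then Complex.normSq (f x) else 0) =
        ∑ x : N, (fun g : G => if g ∈ N ∧ P g then Complex.normSq (f g) else 0) x := by
      refine Finset.sum_congr rfl fun x _ => ?_
      by_cases hP : P x
      · simp only [hP, x.2, and_self, if_true]
      · simp only [hP, and_false, if_false]
    rw [h2, h1, ← Finset.sum_filter]
    let ι : H × Z → G := fun p => (p.2 : G) * (p.1 : G)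
    have hι : Set.InjOn ι (Finset.univ : Finset (H × Z)) := by
      rintro ⟨a, z⟩ _ ⟨a', z'⟩ _ h
      have h' : (z : G) * a = z' * a' := h
      have h3 : (a : G) * (a' : G)⁻¹ = (z : G)⁻¹ * z' := by
        calc (a : G) * (a' : G)⁻¹ = (z : G)⁻¹ * (z * a) * (a' : G)⁻¹ := by group
          _ = (z : G)⁻¹ * (z' * a') * (a' : G)⁻¹ := by rw [h']
          _ = (z : G)⁻¹ * z' := by group
      have h4 : (a : G) * (a' : G)⁻¹ ∈ H ⊓ Subgroup.center G :=
        ⟨H.mul_mem a.2 (H.inv_mem a'.2), by rw [h3]; exact Z.mul_mem (Z.inv_mem z.2) z'.2⟩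
      rw [hZ, Subgroup.mem_bot] at h4
      have h5 : (a : G) = a' := mul_inv_eq_one.mp h4
      have h6 : (z : G) = z' := by
        rw [h4] at h3
        exact (inv_mul_eq_one.mp h3.symm)
      exact Prod.ext (Subtype.ext h5) (Subtype.ext h6)
    have h3 : ∑ g ∈ (Finset.univ : Finset (H × Z)).image ι, Complex.normSq (f g) =
        (Nat.card H : ℝ) * (Nat.card Z : ℝ) * cc := by
      have h7 : ∀ p ∈ (Finset.univ : Finset (H × Z)), Complex.normSq (f (ι p)) = cc :=
        fun p _ => hfz p.2 p.2.2 p.1 p.1.2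
      rw [Finset.sum_image hι]
      rw [Finset.sum_congr rfl h7, Finset.sum_const,
        nsmul_eq_mul, Finset.card_univ, Fintype.card_prod, Nat.card_eq_fintype_card,
        Nat.card_eq_fintype_card]
      push_cast
      ring
    rw [← h3]
    apply Finset.sum_le_sum_of_subset_of_nonneg
    · intro g hg
      obtain ⟨⟨a, z⟩, _, rfl⟩ := Finset.mem_image.mp hg
      simp only [Finset.mem_filter, Finset.mem_univ, true_and]
      refine ⟨N.mul_mem (hZN z z.2) (hHN a.2), h₀, hh₀, hh₀1, ?_⟩
      change h₀ * ((z : G) * a) = (z : G) * a * h₀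
      rw [← mul_assoc, Subgroup.mem_center_iff.mp z.2 h₀, mul_assoc, hab h₀ hh₀ a a.2, mul_assoc]
    · intro g _ _
      exact Complex.normSq_nonneg _
  have hf1 : f 1 = hH⁻¹ * ∑ a : G, if a ∈ H then χ a else 0 := by
    simp only [hf, one_mul]
  rw [← hf1, ← hcc]
  have hsumNZ' : ∑ g, (@ite ℝ (g ∉ Z) (Classical.propDecidable _) (Complex.normSq (χ g)) 0) =
      (Nat.card G : ℝ) - (Nat.card Z : ℝ) * n2 := by
    rw [← hsumNZ]
    refine Finset.sum_congr rfl fun g _ => ?_
    congr
  rw [hsumNZ'] at F7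
  set A : ℝ := ∑ g, (if D g then Complex.normSq (χ g) else 0) with hAdef
  have hA' : ∑ g, (@ite ℝ (D g) (Classical.propDecidable _) (Complex.normSq (χ g)) 0) = A := by
    refine Finset.sum_congr rfl fun g _ => ?_
    congr
  rw [hA'] at F7
  have hn2pos : 0 < n2 := by
    rw [hn2, Complex.normSq_pos]
    exact irr_apply_one_ne_zero ⟨χ, hχ⟩
  have hGpos : (0 : ℝ) < Nat.card G := by exact_mod_cast Nat.card_pos
  have hNpos : (0 : ℝ) < Nat.card N := by exact_mod_cast Nat.card_pos
  have hZpos : (0 : ℝ) < Nat.card Z := by exact_mod_cast Nat.card_pos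
  have K1 : (Nat.card N : ℝ) + (Nat.card H : ℝ) * (Nat.card Z : ℝ) * cc ≤
      A + (Nat.card Z : ℝ) * n2 := by
    rw [← F9, F6]
    linarith
  by_contra hcon
  push_neg at hcon
  have K2 : (Nat.card Z : ℝ) * n2 ≤ (Nat.card H : ℝ) * (Nat.card Z : ℝ) * cc := by
    have := mul_le_mul_of_nonneg_left hcon hZpos.le
    linarith
  have K3 : (Nat.card N : ℝ) ≤ A := by linarith
  have K4 : (Nat.card G : ℝ) * (Nat.card N : ℝ) ≤ (Nat.card G : ℝ) * A :=
    mul_le_mul_of_nonneg_left K3 hGpos.le
  have K5 : 0 < (Nat.card N : ℝ) * ((Nat.card Z : ℝ) * n2) :=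
    mul_pos hNpos (mul_pos hZpos hn2pos)
  nlinarith

end Cfsg.Agent.H6.FT
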