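import Mathlib
import Cfsg.Agent.H6.FT3

set_option autoImplicit false
set_option maxHeartbeats 1000000

namespace Cfsg.Agent.H6.FT

open Cfsg Cfsg.Agent.CharLib Module
open scoped ComplexConjugate

universe u

variable {G : Type u} [Group G] [Fintype G]

open Classical in
noncomputable def cH (H : Subgroup G) (ψ : G → ℂ) : ℂ :=
  (Nat.card H : ℂ)⁻¹ * ∑ a : G, if a ∈ H then ψ a else 0

theorem cH_eq (H : Subgroup G) [Fintype H] (ψ : G → ℂ) :
    classInner (fun h : H => ψ h) (fun _ => 1) = cH H ψ := by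
  classical
  rw [classInner, cH]
  congr 1
  rw [← sum_sub H (fun a : G => if a ∈ H then ψ a else 0) (fun g hg => by rw [if_neg hg])]
  refine Finset.sum_congr rfl fun x _ => ?_
  simp [x.2]

open Classical in
theorem part2 (H : Subgroup G) (hab : ∀ a ∈ H, ∀ b ∈ H, a * b = b * a)
    (hp1 : ∀ ψ : G → ℂ, IsIrrCharacter G ψ → (∃ h ∈ H, ψ h ≠ ψ 1) →
      (Nat.card H : ℝ) * Complex.normSq (cH H ψ) < Complex.normSq (ψ 1))
    (χ : G → ℂ) (hχ : IsIrrCharacter G χ) (h1 : χ 1 ≠ 1)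
    (hM : ∀ M : Subgroup G, M.Normal → H ≤ M → M = ⊤) :
    (Nat.card H : ℝ) < (1 + (χ 1).re) ^ 2 := by
  obtain ⟨n, hn0, hn⟩ := irr_apply_one_nat ⟨χ, hχ⟩
  simp only at hn
  have hn2 : 2 ≤ n := by
    rcases Nat.lt_or_ge n 2 with h | h
    · exfalso
      apply h1
      have : n = 1 := by omega
      rw [hn, this]
      simp
    · exact h
  set θ : G → ℂ := χ * (fun g => conj (χ g)) with hθdef
  have hθ : IsCharacter G θ :=
    isCharacter_mul (isCharacter_of_irr hχ) (isCharacter_conj (isCharacter_of_irr hχ))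
  obtain ⟨m, hm⟩ := isCharacter_iff.mp hθ
  let one : IrrCharacter G := ⟨fun _ => 1, isIrrCharacter_one⟩
  choose d hd0 hd using fun ψ : IrrCharacter G => irr_apply_one_nat ψ
  have hcnat : ∀ ψ : IrrCharacter G, ∃ c : ℕ, cH H (ψ : G → ℂ) = c := by
    intro ψ
    rw [← cH_eq]
    exact classInner_char_nat (isCharacter_restrict (isCharacter_of_irr ψ.2) H)
      (isCharacter_of_irr isIrrCharacter_one)
  choose c hc using hcnat
  have hθx : ∀ x, θ x = ∑ ξ : IrrCharacter G, (m ξ : ℂ) * (ξ : G → ℂ) x := by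
    intro x
    rw [hm]
    simp [Finset.sum_apply]
  have hHpos : (0 : ℝ) < Nat.card H := by exact_mod_cast Nat.card_pos
  have hH0 : (Nat.card H : ℂ) ≠ 0 := by exact_mod_cast (Nat.card_pos (α := H)).ne'
  -- m one = 1
  have hm1 : m one = 1 := by
    have e1 : classInner θ (one : G → ℂ) = m one := by
      rw [hm]
      exact classInner_sum_smul_irr (fun ψ => (m ψ : ℂ)) one
    have e2 : classInner θ (one : G → ℂ) = classInner χ χ := by
      rw [classInner, classInner]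
      congr 1
      refine Finset.sum_congr rfl fun g _ => ?_
      simp [hθdef, one]
    rw [e2, classInner_irr_self hχ] at e1
    exact_mod_cast e1.symm
  have hd1 : d one = 1 := by
    have := hd one
    have h2 : (one : G → ℂ) 1 = 1 := rfl
    rw [h2] at this
    exact_mod_cast this.symm
  have hc1 : c one = 1 := by
    have := hc one
    have h2 : cH H (one : G → ℂ) = 1 := by
      rw [cH]
      have : ∑ a : G, (if a ∈ H then (one : G → ℂ) a else 0) = (Nat.card H : ℂ) := by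
        have h5 : ∀ a : G, (if a ∈ H then (one : G → ℂ) a else 0) = if a ∈ H then (1 : ℂ) else 0 :=
          fun a => rfl
        simp only [h5]
        rw [← Finset.sum_filter, Finset.sum_const, nsmul_eq_mul, mul_one]
        congr 1
        rw [Nat.card_eq_fintype_card, Fintype.card_subtype]
      rw [this]
      exact inv_mul_cancel₀ hH0
    rw [h2] at this
    exact_mod_cast this.symm
  -- E1
  have E1 : ∑ ψ : IrrCharacter G, (m ψ : ℝ) * (d ψ : ℝ) = (n : ℝ) ^ 2 := by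
    have e := hθx 1
    have e2 : θ 1 = (n : ℂ) ^ 2 := by
      simp only [hθdef, Pi.mul_apply, hn, Complex.conj_natCast]
      ring
    rw [e2] at e
    simp only [hd] at e
    exact_mod_cast e.symm
  -- E2
  have E2 : cH H θ = ∑ ψ : IrrCharacter G, (m ψ : ℂ) * (c ψ : ℂ) := by
    rw [cH]
    have h3 : ∑ a : G, (if a ∈ H then θ a else 0) =
        ∑ ξ : IrrCharacter G, (m ξ : ℂ) * ∑ a : G, (if a ∈ H then (ξ : G → ℂ) a else 0) := by
      simp only [Finset.mul_sum]
      rw [Finset.sum_comm]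
      refine Finset.sum_congr rfl fun a _ => ?_
      by_cases ha : a ∈ H
      · simp only [ha, if_true]
        exact hθx _
      · simp [ha]
    rw [h3, Finset.mul_sum]
    refine Finset.sum_congr rfl fun ξ _ => ?_
    rw [← hc ξ, cH]
    ring
  -- E3
  have E3 : (n : ℝ) * (Nat.card H : ℝ) ≤
      (∑ ψ : IrrCharacter G, (m ψ : ℝ) * (c ψ : ℝ)) * (Nat.card H : ℝ) := by
    have a1 := abelian_norm (G := H) (fun a b => Subtype.ext (hab a a.2 b b.2))
      (isCharacter_restrict (isCharacter_of_irr hχ) H)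
    have a2 : ((fun x : H => χ x) 1).re = n := by
      simp [hn]
    rw [a2] at a1
    refine a1.trans (le_of_eq ?_)
    have a3 : ((∑ x : H, Complex.normSq (χ x) : ℝ) : ℂ) =
        (((∑ ψ : IrrCharacter G, (m ψ : ℝ) * (c ψ : ℝ)) * (Nat.card H : ℝ) : ℝ) : ℂ) := by
      push_cast
      rw [← E2, cH]
      rw [← sum_sub H (fun a : G => if a ∈ H then θ a else 0) (fun g hg => by rw [if_neg hg])]
      rw [mul_comm, ← mul_assoc, mul_inv_cancel₀ hH0, one_mul]
      refine Finset.sum_congr rfl fun x _ => ?_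
      simp only [x.2, if_true, hθdef, Pi.mul_apply]
      exact (Complex.mul_conj _).symm
    exact_mod_cast a3
  have E3' : (n : ℝ) ≤ ∑ ψ : IrrCharacter G, (m ψ : ℝ) * (c ψ : ℝ) :=
    le_of_mul_le_mul_right E3 hHpos
  set s : ℝ := Real.sqrt (Nat.card H) with hs
  have hs0 : 0 ≤ s := Real.sqrt_nonneg _
  have hs2 : s ^ 2 = Nat.card H := Real.sq_sqrt hHpos.le
  have hlt : ∀ ψ : IrrCharacter G, ψ ≠ one → s * (c ψ : ℝ) < d ψ := by
    intro ψ hψ
    have hex : ∃ h ∈ H, (ψ : G → ℂ) h ≠ (ψ : G → ℂ) 1 := by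
      by_contra hcon
      push_neg at hcon
      apply hψ
      have : Cfsg.Agent.H25.kerSub ψ = ⊤ :=
        hM _ (Cfsg.Agent.H25.kerSub_normal ψ) (fun h hh => hcon h hh)
      exact Subtype.ext (Cfsg.Agent.H25.eq_one_of_kerSub_eq_top ψ this)
    have := hp1 ψ ψ.2 hex
    rw [hc ψ, hd ψ, Complex.normSq_natCast, Complex.normSq_natCast, ← hs2] at this
    have h4 : (s * (c ψ : ℝ)) ^ 2 < (d ψ : ℝ) ^ 2 := by nlinarith
    exact lt_of_pow_lt_pow_left₀ 2 (Nat.cast_nonneg _) h4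
  have S1 := Finset.add_sum_erase Finset.univ (fun ψ : IrrCharacter G => (m ψ : ℝ) * (d ψ : ℝ))
    (Finset.mem_univ one)
  have S2 := Finset.add_sum_erase Finset.univ (fun ψ : IrrCharacter G => (m ψ : ℝ) * (c ψ : ℝ))
    (Finset.mem_univ one)
  simp only [hm1, hd1, hc1, Nat.cast_one, mul_one] at S1 S2
  rw [E1] at S1
  have hnR : (2 : ℝ) ≤ n := by exact_mod_cast hn2
  have T0 : ∑ ψ ∈ Finset.univ.erase one, (m ψ : ℝ) * (d ψ : ℝ) ≠ 0 := by
    have : ∑ ψ ∈ Finset.univ.erase one, (m ψ : ℝ) * (d ψ : ℝ) = (n : ℝ) ^ 2 - 1 := by linarith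
    rw [this]
    nlinarith
  obtain ⟨ψ₀, hψ₀, hψ₀ne⟩ := Finset.exists_ne_zero_of_sum_ne_zero T0
  have T1 : 0 < ∑ ψ ∈ Finset.univ.erase one, (m ψ : ℝ) * ((d ψ : ℝ) - s * (c ψ : ℝ)) := by
    apply Finset.sum_pos'
    · intro ψ hψ
      exact mul_nonneg (Nat.cast_nonneg _) (sub_nonneg.mpr (hlt ψ (Finset.ne_of_mem_erase hψ)).le)
    · refine ⟨ψ₀, hψ₀, ?_⟩
      have hmpos : (0 : ℝ) < m ψ₀ := by
        have : (m ψ₀ : ℝ) ≠ 0 := left_ne_zero_of_mul hψ₀ne
        exact lt_of_le_of_ne (Nat.cast_nonneg _) this.symm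
      exact mul_pos hmpos (sub_pos.mpr (hlt ψ₀ (Finset.ne_of_mem_erase hψ₀)))
  have T2 : ∑ ψ ∈ Finset.univ.erase one, (m ψ : ℝ) * ((d ψ : ℝ) - s * (c ψ : ℝ)) =
      ∑ ψ ∈ Finset.univ.erase one, (m ψ : ℝ) * (d ψ : ℝ) -
        s * ∑ ψ ∈ Finset.univ.erase one, (m ψ : ℝ) * (c ψ : ℝ) := by
    rw [Finset.mul_sum, ← Finset.sum_sub_distrib]
    refine Finset.sum_congr rfl fun ψ _ => ?_
    ring
  rw [T2] at T1
  have hre : (χ 1).re = n := by rw [hn]; simp
  rw [hre, ← hs2]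
  have T3 : s * ((n : ℝ) - 1) < ((n : ℝ) - 1) * ((n : ℝ) + 1) := by
    have : (n : ℝ) - 1 ≤ ∑ ψ ∈ Finset.univ.erase one, (m ψ : ℝ) * (c ψ : ℝ) := by linarith
    have h5 := mul_le_mul_of_nonneg_left this hs0
    nlinarith
  have T4 : s < (n : ℝ) + 1 := by
    have hpos : (0 : ℝ) < (n : ℝ) - 1 := by linarith
    nlinarith
  nlinarith

end Cfsg.Agent.H6.FT
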