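import Mathlib

set_option autoImplicit false

namespace Cfsg.Agent.H6

open TensorProduct

section
variable {F V : Type*} [Field F] [AddCommGroup V] [Module F V] [FiniteDimensional F V]

/-- In a nondegenerate alternating space of dimension `2k` there are totally isotropic subspaces of
every dimension `d ≤ k`. -/
theorem exists_isotropic_of_alt (B : LinearMap.BilinForm F V) (hB : B.Nondegenerate) (hA : B.IsAlt)
    (k : ℕ) (hV : Module.finrank F V = 2 * k) (d : ℕ) (hd : d ≤ k) :
    ∃ L : Submodule F V, Module.finrank F L = d ∧ ∀ x ∈ L, ∀ y ∈ L, B x y = 0 := by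
  induction d with
  | zero =>
    refine ⟨⊥, by simp, ?_⟩
    intro x hx y _
    rw [Submodule.mem_bot] at hx
    simp [hx]
  | succ d ih =>
    obtain ⟨L, hL, hiso⟩ := ih (by omega)
    have hle : L ≤ B.orthogonal L := by
      intro x hx
      rw [LinearMap.BilinForm.mem_orthogonal_iff]
      intro n hn
      exact hiso n hn x hx
    have hfr := LinearMap.BilinForm.finrank_orthogonal hB L
    have hlt : L < B.orthogonal L := by
      refine lt_of_le_of_ne hle ?_
      intro heq
      rw [← heq] at hfr
      omega
    obtain ⟨v, hv, hvL⟩ := SetLike.exists_of_lt hlt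
    rw [LinearMap.BilinForm.mem_orthogonal_iff] at hv
    refine ⟨L ⊔ Submodule.span F {v}, ?_, ?_⟩
    · rw [Submodule.finrank_sup_span_singleton hvL, hL]
    · intro x hx y hy
      obtain ⟨l, hl, z, hz, rfl⟩ := Submodule.mem_sup.mp hx
      obtain ⟨l', hl', z', hz', rfl⟩ := Submodule.mem_sup.mp hy
      obtain ⟨a, rfl⟩ := Submodule.mem_span_singleton.mp hz
      obtain ⟨b, rfl⟩ := Submodule.mem_span_singleton.mp hz'
      have h1 : B l v = 0 := hv l hl
      have h2 : B v l' = 0 := by
        rw [← hA.neg_eq, hv l' hl', neg_zero]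
      have h3 : B v v = 0 := hA v
      simp [hiso l hl l' hl', h1, h2, h3]

end

section
variable {F U W : Type*} [Field F] [AddCommGroup U] [Module F U] [FiniteDimensional F U]
  [AddCommGroup W] [Module F W] [FiniteDimensional F W]

theorem tmul_eq_dualDistrib (B₁ : LinearMap.BilinForm F U) (B₂ : LinearMap.BilinForm F W) :
    (B₁.tmul B₂ : U ⊗[F] W →ₗ[F] Module.Dual F (U ⊗[F] W))
      = (TensorProduct.dualDistrib F U W) ∘ₗ (TensorProduct.map B₁ B₂) := by
  apply TensorProduct.ext'
  intro u w
  apply TensorProduct.ext'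
  intro u' w'
  simp [mul_comm]

theorem tmul_nondegenerate (B₁ : LinearMap.BilinForm F U) (B₂ : LinearMap.BilinForm F W)
    (h₁ : B₁.Nondegenerate) (h₂ : B₂.Nondegenerate) : (B₁.tmul B₂).Nondegenerate := by
  have key : LinearMap.BilinForm.Nondegenerate (B₁.tmul B₂) := by
    rw [LinearMap.BilinForm.nondegenerate_iff_ker_eq_bot, LinearMap.ker_eq_bot, tmul_eq_dualDistrib]
    have e1 : Function.Injective (TensorProduct.dualDistrib F U W) :=
      (TensorProduct.dualDistribEquiv F U W).injective
    have e2 : Function.Injective (TensorProduct.map (B₁ : U →ₗ[F] Module.Dual F U) B₂) :=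
      (TensorProduct.congr (B₁.toDual h₁) (B₂.toDual h₂)).injective
    exact e1.comp e2
  exact key

/-- If `L ≤ U` is totally isotropic for `B₁` then the image of `L ⊗ W` is totally isotropic for
`B₁ ⊗ B₂`, of dimension `dim L * dim W`. -/
theorem exists_isotropic_tmul_left (B₁ : LinearMap.BilinForm F U) (B₂ : LinearMap.BilinForm F W)
    (L : Submodule F U) (hL : ∀ x ∈ L, ∀ y ∈ L, B₁ x y = 0) :
    ∃ X : Submodule F (U ⊗[F] W), Module.finrank F X = Module.finrank F L * Module.finrank F W ∧
      ∀ x ∈ X, ∀ y ∈ X, (B₁.tmul B₂) x y = 0 := by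
  refine ⟨LinearMap.range (LinearMap.rTensor W L.subtype), ?_, ?_⟩
  · rw [LinearMap.finrank_range_of_inj
      (Module.Flat.rTensor_preserves_injective_linearMap _ L.injective_subtype),
      Module.finrank_tensorProduct]
  · rintro _ ⟨x, rfl⟩ _ ⟨y, rfl⟩
    induction x using TensorProduct.induction_on with
    | zero => simp
    | add a b ha hb => simp [ha, hb]
    | tmul l w =>
      induction y using TensorProduct.induction_on with
      | zero => simp
      | add a b ha hb => rw [map_add, map_add, ha, hb, add_zero]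
      | tmul l' w' => simp [hL l l.2 l' l'.2]

end

end Cfsg.Agent.H6
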