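import Mathlib
import Cfsg.Agent.H6.PSocle

/-! Counting the cosets of a Sylow subgroup fixed by an element, and pairs of conjugates in the
same coset. -/

set_option autoImplicit false

namespace Cfsg.Agent.H6.SylowCount

open Cfsg.Agent.BlockLib Cfsg.Agent.H6.PSocle

variable {G : Type*} [Group G]

/-- the number of cosets of `S` fixed by `u` -/
noncomputable def fx (S : Subgroup G) (u : G) : ℕ := Nat.card {q : G ⧸ S // u • q = q}

theorem smul_mk_eq_iff (S : Subgroup G) (u x : G) :
    u • (x : G ⧸ S) = (x : G ⧸ S) ↔ x⁻¹ * u * x ∈ S := by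
  rw [← QuotientGroup.mk_mul_of_mem x (b := 1) S.one_mem]
  show ((u * (x * 1) : G) : G ⧸ S) = _ ↔ _
  rw [eq_comm, QuotientGroup.eq]
  simp [mul_assoc]

theorem card_conj_mem (S : Subgroup G) (u : G) :
    Nat.card {x : G // x⁻¹ * u * x ∈ S} = Nat.card S * fx S u := by
  have e := QuotientGroup.preimageMkEquivSubgroupProdSet S {q : G ⧸ S | u • q = q}
  have h1 : {x : G // x⁻¹ * u * x ∈ S} = ↥(QuotientGroup.mk ⁻¹' {q : G ⧸ S | u • q = q}) := by
    show _ = {x : G // x ∈ (QuotientGroup.mk ⁻¹' {q : G ⧸ S | u • q = q})}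
    congr 1
    ext x
    rw [Set.mem_preimage, Set.mem_setOf_eq, smul_mk_eq_iff]
  rw [h1, Nat.card_congr e, Nat.card_prod]
  rfl

variable [Finite G] {p : ℕ} [hp : Fact p.Prime]

theorem fx_modEq (S : Sylow p G) {u : G} (hu : ∃ j : ℕ, orderOf u = p ^ j) :
    fx (S : Subgroup G) u ≡ (S : Subgroup G).index [MOD p] := by
  have hP : IsPGroup p (Subgroup.zpowers u) := by
    obtain ⟨j, hj⟩ := hu
    apply IsPGroup.of_card (n := j)
    rw [Nat.card_zpowers, hj]
  have h1 := hP.card_modEq_card_fixedPoints (G ⧸ (S : Subgroup G))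
  have h2 : Nat.card (MulAction.fixedPoints (Subgroup.zpowers u) (G ⧸ (S : Subgroup G)))
      = fx (S : Subgroup G) u := by
    unfold fx
    apply Nat.card_congr
    apply Equiv.subtypeEquivRight
    intro q
    rw [MulAction.mem_fixedPoints]
    constructor
    · intro h
      exact h ⟨u, Subgroup.mem_zpowers u⟩
    · rintro h ⟨v, hv⟩
      obtain ⟨n, rfl⟩ := Subgroup.mem_zpowers_iff.mp hv
      show (u ^ n) • q = q
      exact (MulAction.stabilizer G q).zpow_mem (MulAction.mem_stabilizer_iff.mpr h) n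
  rw [h2] at h1
  exact h1.symm

theorem fx_eq_zero (S : Sylow p G) {u : G} (hu : ¬ ∃ j : ℕ, orderOf u = p ^ j) :
    fx (S : Subgroup G) u = 0 := by
  unfold fx
  rw [Nat.card_eq_zero]
  left
  constructor
  rintro ⟨q, hq⟩
  induction q using QuotientGroup.induction_on with
  | H x =>
    rw [smul_mk_eq_iff] at hq
    apply hu
    obtain ⟨j, hj⟩ := (IsPGroup.iff_orderOf.mp S.2) ⟨_, hq⟩
    refine ⟨j, ?_⟩
    rw [Subgroup.orderOf_mk] at hj
    rw [← hj]
    have : x⁻¹ * u * x = MulAut.conj x⁻¹ u := by simp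
    rw [this, MulEquiv.orderOf_eq]

theorem cast_fx (k : Type*) [Field k] [CharP k p] (S : Sylow p G) (u : G) :
    (fx (S : Subgroup G) u : k) = ((S : Subgroup G).index : k) * gp k p G u := by
  classical
  rw [gp_apply]
  split_ifs with h
  · rw [mul_one]
    exact (CharP.natCast_eq_natCast k p).mpr (fx_modEq S h)
  · rw [fx_eq_zero S h]; simp

theorem index_ne_zero (k : Type*) [Field k] [CharP k p] (S : Sylow p G) :
    ((S : Subgroup G).index : k) ≠ 0 := by
  intro h
  exact S.not_dvd_index ((CharP.cast_eq_zero_iff k p _).mp h)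

end Cfsg.Agent.H6.SylowCount
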