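import Mathlib
import Cfsg.Agent.H6.SylowCount
import Cfsg.Agent.BlockLib.KG.PSum

/-! A central idempotent of a group algebra in characteristic `p`, supported on `p`-regular
elements, does not vanish at some `z` such that `S ∩ z S z⁻¹` centralizes `z`. -/

set_option autoImplicit false

namespace Cfsg.Agent.H6.GreenLemma

open Cfsg.Agent.BlockLib Cfsg.Agent.H6.PSocle Cfsg.Agent.H6.SylowCount

variable {k : Type*} [Field k] {H : Type*} [Group H] [Fintype H] {p : ℕ} [hp : Fact p.Prime]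
  [CharP k p]

theorem index_mul_apply (S : Sylow p H) {e : CA k H} (he : e ∈ CA.cen (⊤ : Subgroup H))
    (hee : e * e = e) {y : H} (hy : ¬ p ∣ orderOf y) [Fintype (H ⧸ (S : Subgroup H))]
    [DecidableEq (H ⧸ (S : Subgroup H))] :
    ((S : Subgroup H).index : k) * e y
      = ∑ q : H ⧸ (S : Subgroup H), ∑ h : H, if (h⁻¹ * y) • q = q then e h else 0 := by
  have h1 : (gp k p H * e) y = e y := gp_mul_idem_apply he hee hy
  have hcomm : gp k p H * e = e * gp k p H :=
    (CA.commute_of_fix_of_supp he.2 (CA.mem_supp_top _)).symm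
  rw [← h1, hcomm, CA.mul_apply, Finset.mul_sum, Finset.sum_comm]
  refine Finset.sum_congr rfl fun h _ => ?_
  rw [mul_left_comm, ← cast_fx k S, ← Finset.sum_filter, Finset.sum_const, nsmul_eq_mul, mul_comm]
  congr 2
  unfold fx
  rw [Nat.card_eq_fintype_card, Fintype.card_subtype]

theorem exists_sylow_inter (S : Sylow p H) {e : CA k H} (he : e ∈ CA.cen (⊤ : Subgroup H))
    (hee : e * e = e) (hne : e ≠ 0) (hreg : ∀ g, p ∣ orderOf g → e g = 0) :
    ∃ z, e z ≠ 0 ∧ ∀ u ∈ (S : Subgroup H), z⁻¹ * u * z ∈ (S : Subgroup H) → u * z = z * u := by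
  classical
  haveI : Fintype (H ⧸ (S : Subgroup H)) := Fintype.ofFinite _
  obtain ⟨y, hy⟩ : ∃ y, e y ≠ 0 := by
    by_contra hcon
    push Not at hcon
    apply hne
    ext g
    rw [hcon g, CA.zero_apply]
  have hyreg : ¬ p ∣ orderOf y := fun h => hy (hreg y h)
  have h2 := index_mul_apply S he hee hyreg
  have h3 : ((S : Subgroup H).index : k) * e y ≠ 0 := mul_ne_zero (index_ne_zero k S) hy
  rw [h2] at h3
  obtain ⟨q, -, hq⟩ := Finset.exists_ne_zero_of_sum_ne_zero h3
  induction q using QuotientGroup.induction_on with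
  | H x =>
  simp only [smul_mk_eq_iff] at hq
  set y' := x⁻¹ * y * x with hy'
  have h4 : ∑ h : H, (if x⁻¹ * (h⁻¹ * y) * x ∈ (S : Subgroup H) then e h else 0)
      = ∑ h ∈ Finset.univ.filter (fun h : H => h⁻¹ * y' ∈ (S : Subgroup H)), e h := by
    rw [Finset.sum_filter]
    refine Fintype.sum_equiv (MulAut.conj x⁻¹).toEquiv _ _ fun h => ?_
    have e1 : (MulAut.conj x⁻¹).toEquiv h = x⁻¹ * h * x := by simp
    rw [e1]
    have e2 : (x⁻¹ * h * x)⁻¹ * y' = x⁻¹ * (h⁻¹ * y) * x := by rw [hy']; group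
    have e3 : e (x⁻¹ * h * x) = e h := by
      have := CA.mem_fix.mp he.2 x⁻¹ trivial h
      rwa [inv_inv] at this
    rw [e2, e3]
  rw [h4] at hq
  set Q : Subgroup H := (S : Subgroup H) ⊓ CA.cjs y' (S : Subgroup H) with hQ
  have hQp : IsPGroup p Q := S.2.to_le inf_le_left
  letI : MulAction Q H := MulAction.compHom H ((MulAut.conj : H →* MulAut H).comp Q.subtype)
  have hsm : ∀ (u : Q) (g : H), u • g = (u : H) * g * (u : H)⁻¹ := fun u g => rfl
  have hV : ∀ v : k, p • v = 0 := fun v => by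
    rw [nsmul_eq_mul, CharP.cast_eq_zero, zero_mul]
  have key := sum_eq_sum_fixed hQp hV
    (Finset.univ.filter (fun h : H => h⁻¹ * y' ∈ (S : Subgroup H)))
    (by
      intro u h hh
      rw [Finset.mem_filter] at hh ⊢
      refine ⟨Finset.mem_univ _, ?_⟩
      rw [hsm]
      have hu1 : (u : H) ∈ (S : Subgroup H) := u.2.1
      have hu2 : y'⁻¹ * (u : H) * y' ∈ (S : Subgroup H) := CA.mem_cjs.mp u.2.2
      have : ((u : H) * h * (u : H)⁻¹)⁻¹ * y' = (u : H) * (h⁻¹ * y') * (y'⁻¹ * (u : H) * y')⁻¹ := by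
        group
      rw [this]
      exact Subgroup.mul_mem _ (Subgroup.mul_mem _ hu1 hh.2) (Subgroup.inv_mem _ hu2))
    (fun h => e h)
    (by
      intro u h _
      simp only [hsm]
      exact CA.mem_fix.mp he.2 u trivial h)
  rw [key] at hq
  obtain ⟨z, hz, hez⟩ := Finset.exists_ne_zero_of_sum_ne_zero hq
  rw [Finset.mem_filter, Finset.mem_filter] at hz
  refine ⟨z, hez, fun u hu huz => ?_⟩
  have huQ : u ∈ Q := by
    refine ⟨hu, CA.mem_cjs.mpr ?_⟩
    have : y'⁻¹ * u * y' = (z⁻¹ * y')⁻¹ * (z⁻¹ * u * z) * (z⁻¹ * y') := by group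
    rw [this]
    exact Subgroup.mul_mem _ (Subgroup.mul_mem _ (Subgroup.inv_mem _ hz.1.2) huz) hz.1.2
  have := hz.2 ⟨u, huQ⟩
  rw [hsm] at this
  exact mul_inv_eq_iff_eq_mul.mp this

end Cfsg.Agent.H6.GreenLemma
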