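import Mathlib
import Cfsg.Agent.H6.HeightBound1
import Cfsg.Agent.H6.KleinBlkA
import Cfsg.Agent.BlockLib.KG.DefSubTr
import Cfsg.Agent.BlockLib.KG.ExtFirstMain

/-!
# Heights and the number of major subsections (Brauer pair side)
-/

set_option autoImplicit false

namespace Cfsg.Agent.H6.HeightBound

open Cfsg Cfsg.Agent.BlockLib Cfsg.Agent.BlockLib.CA Cfsg.Agent.CharLib
open Cfsg.Agent.H6.SubsecCount Cfsg.Agent.H6.SubsecTr Cfsg.Agent.Lib.Helper23.MinMax
open Cfsg.Agent.H6.KleinBlk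

universe u v

local notation "C(" P ")" => Subgroup.centralizer (SetLike.coe P)
local notation "N(" P ")" => Subgroup.normalizer (SetLike.coe P)
local notation "Ce(" g ")" => Subgroup.centralizer (Singleton.singleton g : Set _)

section CAsec

variable {k : Type u} {G : Type v} [Field k] [Group G] [Fintype G]
variable {p : ℕ} [Fact p.Prime] [CharP k p] [Split k G]

theorem control_of_central {b e f : CA k G} {P Q : Subgroup G} (h : IsMaxBP p b P e)
    (hPC : P ≤ C(Q)) (hle : SubLE p (Q, f) (P, e)) {g : G}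
    (hle' : SubLE p (cjs g Q, cj g f) (P, e)) (hPC' : P ≤ C(cjs g Q)) :
    ∃ y ∈ stab P e, ∃ c ∈ C(Q), g = y * c := by
  have hPe : IsBP p P e := h.1.1
  have hQf : IsBP p Q f := hle.isBP hPe
  have hrel : RelData p Q f C(Q) :=
    ⟨hQf, hle.le.trans hPC, le_rfl, centralizer_le_stab hQf.2.mem⟩
  have h1 := hle'.cj g⁻¹
  simp only [cjs_cjs, ← cj_mul, inv_mul_cancel, cjs_one, cj_one] at h1
  have h2 : cjs g⁻¹ P ≤ C(Q) := by
    have := cjs_mono (x := g⁻¹) hPC'
    rwa [← centralizer_cjs, cjs_cjs, inv_mul_cancel, cjs_one] at this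
  obtain ⟨c, hc, h3⟩ := (hrel.main hPC hle (h.isRelMax _)).2 _ _ h2 h1
  rw [cjs_cjs, ← cj_mul] at h3
  have h4 := h3.mem_stab_of_cjs hPe
  exact ⟨(c * g⁻¹)⁻¹, Subgroup.inv_mem _ h4, c, hc, by group⟩

theorem br_ne_zero_of_subLE_central {e f : CA k G} {P Q : Subgroup G} (hPe : IsBP p P e)
    (hle : SubLE p (Q, f) (P, e)) (hPC : P ≤ C(Q)) : br P f ≠ 0 := by
  obtain ⟨f', hf', -⟩ := existsUnique_nsub hPe hle.le (hPC.trans (centralizer_le_normalizer' Q))
  have hff : f = f' := SubLE.unique hPe hle hf'.subLE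
  subst hff
  intro h0
  have := hf'.2.2.2.2.2
  rw [h0, zero_mul] at this
  exact hPe.2.ne_zero this.symm

omit [Fintype G] in
/-- orbits of `T` on elements centralized by `H ≤ T` have at most `[T : H]` elements -/
theorem card_orbit_le [Finite G] {H T : Subgroup G} (z0 : G)
    (hz : ∀ h ∈ H, h * z0 * h⁻¹ = z0) (s : Finset G)
    (hs : ∀ z ∈ s, ∃ t ∈ T, z = t * z0 * t⁻¹) : s.card ≤ H.relIndex T := by
  classical
  haveI : Fintype (T ⧸ H.subgroupOf T) := Fintype.ofFinite _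
  let ρ : (T ⧸ H.subgroupOf T) → G := fun q => Quotient.liftOn' q
    (fun t : T => (t : G) * z0 * (t : G)⁻¹) (by
      intro a b hab
      rw [QuotientGroup.leftRel_apply, Subgroup.mem_subgroupOf] at hab
      have h1 := hz _ hab
      simp only [Subgroup.coe_mul, Subgroup.coe_inv] at h1
      have h2 : (b : G) = (a : G) * ((a : G)⁻¹ * (b : G)) := by group
      show (a : G) * z0 * (a : G)⁻¹ = (b : G) * z0 * (b : G)⁻¹
      rw [h2]
      calc (a : G) * z0 * (a : G)⁻¹
          = (a : G) * (((a : G)⁻¹ * (b : G)) * z0 * ((a : G)⁻¹ * (b : G))⁻¹) * (a : G)⁻¹ := by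
            rw [h1]
        _ = _ := by group)
  have hsub : s ⊆ Finset.univ.image ρ := by
    intro z hzs
    obtain ⟨t, ht, rfl⟩ := hs z hzs
    exact Finset.mem_image.mpr ⟨QuotientGroup.mk (⟨t, ht⟩ : T), Finset.mem_univ _, rfl⟩
  calc s.card ≤ (Finset.univ.image ρ).card := Finset.card_le_card hsub
    _ ≤ (Finset.univ : Finset (T ⧸ H.subgroupOf T)).card := Finset.card_image_le
    _ = H.relIndex T := by
      rw [Finset.card_univ, ← Nat.card_eq_fintype_card]
      rfl

end CAsec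

section Tr

variable {M : Ideal AlgInt} [M.IsPrime] {G : Type u} [Group G] [Fintype G]
variable {p : ℕ} [Fact p.Prime] [CharP (ResField M) p]

theorem blockDefect_eq_of_subLE (hM : IsPModular p M) {B : Set (IrrCharacter G)}
    (hB : IsPBlock M B) {D : Subgroup G} {ε : CA (ResField M) G}
    (hcard : Nat.card D = p ^ blockDefect p B) (hDε : IsBP p D ε) {x : G}
    {β : Set (IrrCharacter Ce(x))} (hβ : IsInducedBlock M Ce(x) β B)
    (hle : SubLE p (Subgroup.zpowers x, epsS M Ce(x) β) (D, ε))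
    (hDC : D ≤ C(Subgroup.zpowers x)) : blockDefect p β = blockDefect p B := by
  obtain ⟨D2, hD2⟩ := exists_isDefectGroup hM hβ.1
  have hΔ := (isDefectGroup_sub_iff hβ.1 D2).mp hD2
  have hbr := br_ne_zero_of_subLE_central hDε hle hDC
  have hDle : D ≤ Ce(x) := by rw [centralizer_singleton_eq]; exact hDC
  obtain ⟨c, -, hc⟩ := (hΔ.br_ne_zero_iff (isBlk_epsS hβ.1) hDε.1 hDle).mp hbr
  have h1 : Nat.card D ≤ Nat.card D2 := by
    have := Subgroup.card_le_of_le hc
    rwa [card_cjs, Subgroup.card_map_of_injective (Subgroup.subtype_injective _)] at this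
  obtain ⟨E, hE, hD2E⟩ := Cfsg.Agent.S0917.result p M hM Ce(x) β hβ.1 B hB hβ D2 hD2
  have h2 : Nat.card D2 ≤ Nat.card E := by
    have := Subgroup.card_le_of_le hD2E
    rwa [Subgroup.card_map_of_injective (Subgroup.subtype_injective _)] at this
  rw [card_of_isDefectGroup hM hB hE, card_of_isDefectGroup hM hβ.1 hD2] at h2
  rw [hcard, card_of_isDefectGroup hM hβ.1 hD2] at h1
  have hp2 := (Fact.out : p.Prime).one_lt
  exact le_antisymm ((Nat.pow_le_pow_iff_right hp2).mp h2) ((Nat.pow_le_pow_iff_right hp2).mp h1)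

open Classical in
theorem card_center_le (hM : IsPModular p M) {B : Set (IrrCharacter G)}
    (hB : IsPBlock M B) {D : Subgroup G} {ε : CA (ResField M) G}
    (hmax : IsMaxBP p (eps M B) D ε) (hcard : Nat.card D = p ^ blockDefect p B)
    [∀ x : G, Fintype Ce(x)] (X : Finset G)
    (hX : ∀ x ∈ X, ∃ k : ℕ, orderOf x = p ^ k)
    (hXrep : ∀ g : G, (∃ k : ℕ, orderOf g = p ^ k) → ∃! x, x ∈ X ∧ IsConj g x) :
    Nat.card (D ⊓ C(D) : Subgroup G) ≤ (D ⊔ C(D)).relIndex (stab D ε) *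
      ∑ x ∈ X, ((pblocks M Ce(x)).filter (fun β =>
        IsInducedBlock M Ce(x) β B ∧ blockDefect p β = blockDefect p B)).card := by
  have hPe : IsBP p D ε := hmax.1.1
  have hpel : ∀ u ∈ D, ∃ k : ℕ, orderOf u = p ^ k := by
    intro u hu
    obtain ⟨j, hj⟩ := hPe.1 ⟨u, hu⟩
    have h2 : u ^ p ^ j = 1 := congrArg Subtype.val hj
    obtain ⟨i, -, hi⟩ := (Nat.dvd_prime_pow (Fact.out : p.Prime)).mp
      (orderOf_dvd_of_pow_eq_one h2)
    exact ⟨i, hi⟩
  have hex : ∀ z : (D ⊓ C(D) : Subgroup G), ∃ (x g : G) (f : CA (ResField M) G), x ∈ X ∧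
      g * (z : G) * g⁻¹ = x ∧ SubLE p (Subgroup.zpowers (z : G), f) (D, ε) := by
    intro z
    have hzD : (z : G) ∈ D := z.2.1
    have hle : Subgroup.zpowers (z : G) ≤ D := (Subgroup.zpowers_le).mpr hzD
    obtain ⟨x, ⟨hx, hc⟩, -⟩ := hXrep z (hpel z hzD)
    obtain ⟨g, hg⟩ := isConj_iff.mp hc
    obtain ⟨f, hf⟩ := exists_subLE hPe _ hle
    exact ⟨x, g, f, hx, hg, hf⟩
  choose x g f hxX hgx hf using hex
  have hxp : ∀ z, IsPGroup p (Subgroup.zpowers (x z)) := fun z =>
    InvSyl.isPGroup_zpowers (hX _ (hxX z))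
  have hbel : ∀ z, cj (g z) (f z) ∈ bel (eps M B) (x z) := by
    intro z
    rw [mem_bel hmax.1.2.1 (hxp z)]
    have h1 := (((hf z).isBPOf_iff).mpr hmax.1).cj (g z)
    rwa [cjs_zpowers, hgx z] at h1
  have hβex : ∀ z, ∃ β : Set (IrrCharacter Ce(x z)), IsPBlock M β ∧
      epsS M Ce(x z) β = cj (g z) (f z) := by
    intro z
    have hf' := (mem_bel (isBlk_eps hB) (hxp z)).mp (hbel z)
    exact exists_epsS_eq (M := M) (H := Ce(x z)) ((centralizer_singleton_eq (x z)) ▸ hf'.1.2)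
  choose β hβ1 hβ2 using hβex
  have hβind : ∀ z, IsInducedBlock M Ce(x z) (β z) B := fun z =>
    (isInducedBlock_singleton_iff (hxp z) (hβ1 z) hB).mpr (by rw [hβ2]; exact hbel z)
  have hDCz : ∀ z : (D ⊓ C(D) : Subgroup G), D ≤ C(Subgroup.zpowers (z : G)) := by
    intro z d hd
    rw [mem_centralizer_zpowers]
    exact (Subgroup.mem_centralizer_iff.mp z.2.2 d hd)
  have hβmaj : ∀ z, blockDefect p (β z) = blockDefect p B := by
    intro z
    have h1 := (hf z).cj (g z)
    simp only [cjs_zpowers, hgx z] at h1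
    rw [← hβ2 z] at h1
    refine blockDefect_eq_of_subLE hM hB (by rw [card_cjs, hcard]) (hPe.cj (g z)) (hβind z) h1 ?_
    have := cjs_mono (x := g z) (hDCz z)
    rwa [← centralizer_cjs, cjs_zpowers, hgx z] at this
  let Φ : (D ⊓ C(D) : Subgroup G) → (y : G) × Set (IrrCharacter Ce(y)) := fun z => ⟨x z, β z⟩
  let E : ((y : G) × Set (IrrCharacter Ce(y))) → CA (ResField M) G := fun t => epsS M Ce(t.1) t.2
  have hHT : D ⊔ C(D) ≤ stab D ε :=
    sup_le (le_stab_self hPe.2.mem.1) (centralizer_le_stab hPe.2.mem)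
  have hfib : ∀ a ∈ (Finset.univ : Finset (D ⊓ C(D) : Subgroup G)).image Φ,
      ((Finset.univ : Finset (D ⊓ C(D) : Subgroup G)).filter (fun z => Φ z = a)).card ≤
        (D ⊔ C(D)).relIndex (stab D ε) := by
    intro a ha
    obtain ⟨z0, -, rfl⟩ := Finset.mem_image.mp ha
    rw [← Finset.card_image_of_injective _ Subtype.val_injective]
    apply card_orbit_le (z0 : G)
    · intro h hh
      have hcz : h ∈ C(Subgroup.zpowers (z0 : G)) := by
        refine (sup_le (hDCz z0) ?_) hh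
        exact Subgroup.centralizer_le (Subgroup.zpowers_le.mpr z0.2.1)
      rw [mem_centralizer_zpowers] at hcz
      rw [hcz, mul_inv_cancel_right]
    · intro w hw
      obtain ⟨z, hz, rfl⟩ := Finset.mem_image.mp hw
      have hΦ : Φ z = Φ z0 := (Finset.mem_filter.mp hz).2
      have hxx : x z = x z0 := congrArg Sigma.fst hΦ
      have hee : cj (g z) (f z) = cj (g z0) (f z0) := by
        rw [← hβ2 z, ← hβ2 z0]
        exact congrArg E hΦ
      have hconj : ((g z)⁻¹ * g z0) * (z0 : G) * ((g z)⁻¹ * g z0)⁻¹ = (z : G) := by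
        have h1 : (g z)⁻¹ * (g z0 * (z0 : G) * (g z0)⁻¹) * g z = (z : G) := by
          rw [hgx z0, ← hxx, ← hgx z]; group
        refine Eq.trans ?_ h1
        group
      have hle' : SubLE p (cjs ((g z)⁻¹ * g z0) (Subgroup.zpowers (z0 : G)),
          cj ((g z)⁻¹ * g z0) (f z0)) (D, ε) := by
        rw [cjs_zpowers, hconj, cj_mul, ← hee, cj_inv_cj]
        exact hf z
      obtain ⟨y, hy, c, hc, hyc⟩ := control_of_central hmax (hDCz z0) (hf z0) hle' (by
        rw [cjs_zpowers, hconj]; exact hDCz z)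
      rw [mem_centralizer_zpowers] at hc
      refine ⟨y, hy, ?_⟩
      rw [← hconj, hyc]
      calc y * c * (z0 : G) * (y * c)⁻¹ = y * (c * (z0 : G)) * c⁻¹ * y⁻¹ := by group
        _ = y * ((z0 : G) * c) * c⁻¹ * y⁻¹ := by rw [hc]
        _ = _ := by group
  have h1 := Finset.card_le_mul_card_image (f := Φ) Finset.univ _ hfib
  rw [Finset.card_univ, ← Nat.card_eq_fintype_card] at h1
  refine h1.trans (Nat.mul_le_mul_left _ ?_)
  rw [← Finset.card_sigma]
  apply Finset.card_le_card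
  intro a ha
  obtain ⟨z, -, rfl⟩ := Finset.mem_image.mp ha
  rw [Finset.mem_sigma]
  exact ⟨hxX z, Finset.mem_filter.mpr ⟨mem_pblocks.mpr (hβ1 z), hβind z, hβmaj z⟩⟩

end Tr

end Cfsg.Agent.H6.HeightBound
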