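import Mathlib
import Cfsg.Prelude.Def_Solvable
import Cfsg.Agent.H6.PPart

/-! Groups with a Klein four Sylow 2-subgroup: centralizers of involutions have normal
2-complements. -/

set_option autoImplicit false

namespace Cfsg.Agent.H6.KleinFour

open Cfsg Subgroup

theorem isKleinFour_of {Q : Type*} [Group Q] (hcard : Nat.card Q = 4) (hexp : ∀ x : Q, x * x = 1) :
    IsKleinFour Q where
  card_four := hcard
  exponent_two := by
    have h1 : Monoid.exponent Q ∣ 2 :=
      Monoid.exponent_dvd_of_forall_pow_eq_one fun x => by rw [pow_two, hexp]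
    rcases (Nat.dvd_prime Nat.prime_two).mp h1 with h | h
    · have := Monoid.exp_eq_one_iff.mp h
      have h2 : Nat.card Q = 1 := Nat.card_unique
      omega
    · exact h

/-- an element of odd order normalizing a four-group and fixing an involution of it acts
trivially -/
theorem commute_of_odd {H : Type*} [Group H] (Q : Subgroup H) (hcard : Nat.card Q = 4)
    (hexp : ∀ x : Q, x * x = 1) {z : H} (hzQ : z ∈ Q) (hz1 : z ≠ 1) {y : H}
    (hyz : y * z = z * y) (hyN : ∀ a ∈ Q, y * a * y⁻¹ ∈ Q) (hy : ¬ 2 ∣ orderOf y) {a : H}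
    (ha : a ∈ Q) : y * a * y⁻¹ = a := by
  haveI := isKleinFour_of hcard hexp
  by_contra hne
  have hzz : z * z = 1 := congrArg Subtype.val (hexp ⟨z, hzQ⟩)
  have hconjz : y * z * y⁻¹ = z := by rw [hyz, mul_inv_cancel_right]
  have ha1 : a ≠ 1 := by
    rintro rfl; apply hne; group
  have haz : a ≠ z := by
    rintro rfl; exact hne hconjz
  have hc1 : y * a * y⁻¹ ≠ 1 := by
    intro h
    apply ha1
    calc a = y⁻¹ * (y * a * y⁻¹) * y := by group
      _ = 1 := by rw [h]; group
  have hcz : y * a * y⁻¹ ≠ z := by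
    intro h
    apply haz
    calc a = y⁻¹ * (y * a * y⁻¹) * y := by group
      _ = y⁻¹ * (y * z * y⁻¹) * y := by rw [h, hconjz]
      _ = z := by group
  have key : (⟨y * a * y⁻¹, hyN a ha⟩ : Q) = ⟨z, hzQ⟩ * ⟨a, ha⟩ := by
    apply IsKleinFour.eq_mul_of_ne_all
    · intro h; exact hz1 (congrArg Subtype.val h)
    · intro h; exact ha1 (congrArg Subtype.val h)
    · intro h; exact haz (congrArg Subtype.val h).symm
    · intro h; exact hc1 (congrArg Subtype.val h)
    · intro h; exact hcz (congrArg Subtype.val h)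
    · intro h; exact hne (congrArg Subtype.val h)
  have key' : y * a * y⁻¹ = z * a := congrArg Subtype.val key
  have h2 : Commute (y ^ 2) a := by
    show y ^ 2 * a = a * y ^ 2
    have : y ^ 2 * a * (y ^ 2)⁻¹ = a := by
      calc y ^ 2 * a * (y ^ 2)⁻¹ = y * (y * a * y⁻¹) * y⁻¹ := by
            rw [pow_two, mul_inv_rev]; simp only [mul_assoc]
        _ = y * (z * a) * y⁻¹ := by rw [key']
        _ = (y * z * y⁻¹) * (y * a * y⁻¹) := by group
        _ = z * (z * a) := by rw [hconjz, key']
        _ = a := by rw [← mul_assoc, hzz, one_mul]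
    calc y ^ 2 * a = (y ^ 2 * a * (y ^ 2)⁻¹) * y ^ 2 := by group
      _ = a * y ^ 2 := by rw [this]
  obtain ⟨m, hm⟩ : Odd (orderOf y) := Nat.odd_iff.mpr (by omega)
  have h3 : y = (y ^ 2) ^ (m + 1) := by
    rw [← pow_mul]
    have : 2 * (m + 1) = orderOf y + 1 := by omega
    rw [this, pow_succ, pow_orderOf_eq_one, one_mul]
  have h4 : Commute y a := by
    rw [h3]; exact h2.pow_left _
  apply hne
  rw [h4.eq, mul_inv_cancel_right]

theorem index_pPrimeCore_of_klein {H : Type*} [Group H] [Finite H] (Q : Sylow 2 H)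
    (hcard : Nat.card Q = 4) (hexp : ∀ x : Q, x * x = 1) {z : H} (hzQ : z ∈ Q) (hz1 : z ≠ 1)
    (hzc : ∀ h : H, h * z = z * h) : ∃ k : ℕ, (pPrimeCore 2 H).index = 2 ^ k := by
  haveI : Fact (Nat.Prime 2) := ⟨Nat.prime_two⟩
  haveI := isKleinFour_of hcard hexp
  have hQcomm : ∀ a ∈ Q, ∀ b ∈ Q, a * b = b * a := by
    intro a ha b hb
    have := (IsKleinFour.isMulCommutative (G := Q)).is_comm.comm ⟨a, ha⟩ ⟨b, hb⟩
    exact congrArg Subtype.val this
  have hN : normalizer (Q : Set H) ≤ centralizer (Q : Set H) := by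
    intro n hn
    rw [mem_centralizer_iff]
    intro a ha
    obtain ⟨e, he⟩ := exists_pPart_exp H Nat.prime_two
    obtain ⟨y, hxy, -, ⟨k, hk⟩, hy⟩ := (he n).1
    have hxN : n ^ e ∈ normalizer (Q : Set H) := zpow_mem hn e
    have hyN : y ∈ normalizer (Q : Set H) := by
      have : y = (n ^ e)⁻¹ * n := eq_inv_mul_of_mul_eq hxy
      rw [this]
      exact mul_mem (inv_mem hxN) hn
    have hxQ : n ^ e ∈ Q := by
      have hp : IsPGroup 2 (zpowers (n ^ e)) := by
        rw [IsPGroup.iff_card, Nat.card_zpowers, hk]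
        exact ⟨k, rfl⟩
      have h1 := hp.inf_normalizer_sylow Q
      have h2 : n ^ e ∈ zpowers (n ^ e) ⊓ normalizer (Q : Set H) := ⟨mem_zpowers _, hxN⟩
      rw [h1] at h2
      exact h2.2
    have hya : y * a * y⁻¹ = a := by
      apply commute_of_odd (Q : Subgroup H) hcard hexp hzQ hz1 (hzc y) _ hy ha
      intro b hb
      exact (mem_normalizer_iff.mp hyN b).mp hb
    have hya' : y * a = a * y := by
      calc y * a = (y * a * y⁻¹) * y := by group
        _ = a * y := by rw [hya]
    rw [← hxy, ← mul_assoc, hQcomm a ha _ hxQ, mul_assoc, mul_assoc, hya']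
  have hcompl := MonoidHom.ker_transferSylow_isComplement' Q hN
  have h1 : (MonoidHom.transferSylow Q hN).ker ≤ pPrimeCore 2 H := by
    apply le_sSup
    refine ⟨inferInstance, ?_⟩
    rw [← hcompl.index_eq_card]
    exact (Nat.Prime.coprime_iff_not_dvd Nat.prime_two).mpr Q.not_dvd_index |>.symm
  have h2 := index_dvd_of_le h1
  rw [hcompl.symm.index_eq_card, hcard] at h2
  have h3 : (pPrimeCore 2 H).index ∣ 2 ^ 2 := h2
  obtain ⟨k, -, hk⟩ := (Nat.dvd_prime_pow Nat.prime_two).mp h3
  exact ⟨k, hk⟩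

/-- the centralizer of an involution in a group with Klein four Sylow 2-subgroups -/
theorem centralizer_involution {G : Type*} [Group G] [Finite G] (P : Sylow 2 G)
    (hcard : Nat.card P = 4) (hexp : ∀ x : P, x * x = 1) {z : G} (hzP : z ∈ P) (hz1 : z ≠ 1) :
    (∃ k : ℕ, (pPrimeCore 2 (centralizer ({z} : Set G))).index = 2 ^ k) ∧
      (Nat.card (centralizer ({z} : Set G))).factorization 2 = 2 := by
  haveI : Fact (Nat.Prime 2) := ⟨Nat.prime_two⟩
  haveI := isKleinFour_of hcard hexp
  have hle : (P : Subgroup G) ≤ centralizer ({z} : Set G) := by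
    intro a ha
    rw [mem_centralizer_singleton_iff]
    have := (IsKleinFour.isMulCommutative (G := P)).is_comm.comm ⟨a, ha⟩ ⟨z, hzP⟩
    exact congrArg Subtype.val this
  have hzC : z ∈ centralizer ({z} : Set G) := hle hzP
  have hcardQ : Nat.card (P.subtype hle) = 4 := by
    rw [← hcard]
    exact Nat.card_congr (subgroupOfEquivOfLe hle).toEquiv
  have hexpQ : ∀ x : P.subtype hle, x * x = 1 := by
    intro x
    have hx : ((x : centralizer ({z} : Set G)) : G) ∈ P := x.2
    have := congrArg Subtype.val (hexp ⟨_, hx⟩)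
    apply Subtype.ext
    apply Subtype.ext
    exact this
  refine ⟨index_pPrimeCore_of_klein (P.subtype hle) hcardQ hexpQ (z := ⟨z, hzC⟩) hzP
    (fun h => hz1 (congrArg Subtype.val h))
    (fun h => Subtype.ext (mem_centralizer_singleton_iff.mp h.2)), ?_⟩
  have h1 := (P.subtype hle).card_eq_multiplicity
  rw [hcardQ] at h1
  exact (Nat.pow_right_injective (le_refl 2) (h1.symm.trans (by norm_num : 4 = 2 ^ 2)))

end Cfsg.Agent.H6.KleinFour
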