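import Mathlib
import Cfsg.Agent.H6.KleinFour
import Cfsg.Agent.S0947
import Cfsg.Agent.S0944
import Cfsg.Agent.S0914
import Cfsg.Agent.Lib.Helper23.CharDeg2

/-! The principal 2-block of a group with Klein four Sylow 2-subgroups and one class of
involutions. -/

set_option autoImplicit false

namespace Cfsg.Agent.H6.KleinFour

open Cfsg Cfsg.Agent.BlockLib Cfsg.Agent.CharLib Cfsg.Agent.H6 Cfsg.Agent.H6.BlockSection
open scoped ComplexConjugate

universe u

variable {M : Ideal AlgInt} {G : Type u} [Group G] [Fintype G]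

omit [Fintype G] in
theorem exists_involution (P : Sylow 2 G) (hcard : Nat.card P = 4) (hexp : ∀ x : P, x * x = 1) :
    ∃ z : G, z ∈ P ∧ orderOf z = 2 := by
  haveI : Nontrivial P := by
    haveI : Finite P := Nat.finite_of_card_ne_zero (by omega)
    exact Finite.one_lt_card_iff_nontrivial.mp (by omega)
  obtain ⟨x, hx⟩ := exists_ne (1 : P)
  refine ⟨x, x.2, ?_⟩
  rw [Subgroup.orderOf_coe]
  haveI : Fact (Nat.Prime 2) := ⟨Nat.prime_two⟩
  exact orderOf_eq_prime (by rw [pow_two, hexp]) hx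

theorem sum_sq_eq_four (hM : IsPModular 2 M) (P : Sylow 2 G) (hcard : Nat.card P = 4)
    (hexp : ∀ x : P, x * x = 1) {z : G} (hzP : z ∈ P) (hz : orderOf z = 2)
    [DecidablePred (· ∈ principalBlock M G)] :
    ∑ ζ ∈ Finset.univ.filter (· ∈ principalBlock M G), ‖(ζ : G → ℂ) z‖ ^ 2 = 4 := by
  haveI : Fact (Nat.Prime 2) := ⟨Nat.prime_two⟩
  have hz1 : z ≠ 1 := by
    rintro rfl
    rw [orderOf_one] at hz
    omega
  obtain ⟨hk, hf⟩ := centralizer_involution P hcard hexp hzP hz1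
  have h1 := (Cfsg.Agent.S0947.result 2 M hM z ⟨1, by rw [hz, pow_one]⟩ hz1
    (1 : Subgroup.centralizer ({z} : Set G)) (by rw [orderOf_one]; norm_num)).2 hk
  rw [hf, finsum_mem_eq_finite_toFinset_sum _ (Set.toFinite _)] at h1
  have t1 : (Set.toFinite (principalBlock M G)).toFinset
      = Finset.univ.filter (· ∈ principalBlock M G) := by ext; simp
  rw [t1] at h1
  simp only [Subgroup.coe_one, mul_one] at h1
  rw [h1]
  norm_num

/-- `ζ 1 ≡ ζ z (mod 4)` -/
theorem deg_congr (P : Sylow 2 G) (hcard : Nat.card P = 4) (hexp : ∀ x : P, x * x = 1)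
    (hone : ∀ s t : G, orderOf s = 2 → orderOf t = 2 → IsConj s t) {z : G} (hz : orderOf z = 2)
    (ζ : IrrCharacter G) {n : ℤ} (hn : (ζ : G → ℂ) z = n) :
    (4 : ℤ) ∣ (charDegree (ζ : G → ℂ) : ℤ) - n := by
  classical
  haveI : Fact (Nat.Prime 2) := ⟨Nat.prime_two⟩
  haveI : Fintype (P : Subgroup G) := Fintype.ofFinite _
  have hval : ∀ u : (P : Subgroup G), u ≠ 1 → (ζ : G → ℂ) u = n := by
    intro u hu
    have h2 : orderOf (u : G) = 2 := by
      rw [Subgroup.orderOf_coe]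
      exact orderOf_eq_prime (by rw [pow_two]; exact hexp u) hu
    rw [← hn]
    exact isClassFunction_apply_of_isConj (isClassFunction_of_irr ζ.2) (hone _ _ h2 hz)
  obtain ⟨m, hm⟩ := classInner_char_nat
    (isCharacter_restrict (isCharacter_of_irr ζ.2) (P : Subgroup G))
    (isCharacter_of_irr (isIrrCharacter_one (G := (P : Subgroup G))))
  rw [classInner, hcard] at hm
  have hsum : ∑ u : (P : Subgroup G), (ζ : G → ℂ) u * conj (1 : ℂ)
      = (charDegree (ζ : G → ℂ) : ℂ) + 3 * n := by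
    rw [← Finset.add_sum_erase _ _ (Finset.mem_univ (1 : (P : Subgroup G)))]
    congr 1
    · rw [map_one, mul_one, Cfsg.Agent.Lib.Helper23.charDegree_cast_irr]; rfl
    · rw [Finset.sum_congr rfl (fun u hu => by
        rw [hval u (Finset.ne_of_mem_erase hu), map_one, mul_one]), Finset.sum_const,
        Finset.card_erase_of_mem (Finset.mem_univ _), Finset.card_univ, ← Nat.card_eq_fintype_card,
        hcard]
      simp
  have hm' : (4 : ℂ)⁻¹ * ((charDegree (ζ : G → ℂ) : ℂ) + 3 * n) = m := by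
    rw [← hsum, ← hm]
    norm_num
  have h4 : ((charDegree (ζ : G → ℂ) : ℤ) + 3 * n : ℤ) = 4 * (m : ℤ) := by
    have : ((charDegree (ζ : G → ℂ) : ℂ) + 3 * n) = 4 * m := by
      rw [← hm']; ring
    exact_mod_cast this
  exact ⟨(m : ℤ) - n, by linarith⟩

/-- the trivial character -/
noncomputable def triv (G : Type u) [Group G] : IrrCharacter G := ⟨fun _ => 1, isIrrCharacter_one⟩

omit [Fintype G] in
theorem triv_mem [Finite G] [M.IsPrime] : triv G ∈ principalBlock M G := by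
  cases nonempty_fintype G
  exact mem_blockOf_self (triv G)

theorem ne_zero_of_mem (hM : IsPModular 2 M) (P : Sylow 2 G) (hcard : Nat.card P = 4)
    (hexp : ∀ x : P, x * x = 1)
    (hone : ∀ s t : G, orderOf s = 2 → orderOf t = 2 → IsConj s t) {z : G} (hz : orderOf z = 2)
    {ζ : IrrCharacter G} (hζ : ζ ∈ principalBlock M G) : (ζ : G → ℂ) z ≠ 0 := by
  haveI : Fact (Nat.Prime 2) := ⟨Nat.prime_two⟩
  haveI := isPrime_of_isPModular hM
  intro h0
  have h4 := deg_congr P hcard hexp hone hz ζ (n := 0) (by rw [h0]; simp)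
  rw [sub_zero] at h4
  obtain ⟨d', hd'⟩ : 4 ∣ charDegree (ζ : G → ℂ) := by exact_mod_cast h4
  have hdvd := Cfsg.Agent.Lib.Helper23.charDegree_dvd_card ζ
  have hG : Nat.card G = 4 * (P : Subgroup G).index := by
    rw [← hcard]; exact ((P : Subgroup G).card_mul_index).symm
  have hodd : ¬ 2 ∣ (P : Subgroup G).index := P.not_dvd_index
  have hpos := Cfsg.Agent.Lib.Helper23.charDegree_pos_irr ζ
  have hd'pos : 0 < d' := by omega
  have h5 : d' ∣ (P : Subgroup G).index := by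
    rw [hG, hd'] at hdvd
    exact Nat.dvd_of_mul_dvd_mul_left (by norm_num) hdvd
  have h6 : ¬ 2 ∣ Nat.card G / charDegree (ζ : G → ℂ) := by
    rw [hG, hd', Nat.mul_div_mul_left _ _ (by norm_num : 0 < 4)]
    intro h
    exact hodd (h.trans (Nat.div_dvd_of_dvd h5))
  have h7 := (Cfsg.Agent.S0914.result 2 M hM ζ).mp h6
  have h8 : blockOf M (ζ : G → ℂ) = principalBlock M G := blockOf_eq_of_mem hζ
  have h9 : triv G ∈ ({ζ} : Set (IrrCharacter G)) := by
    rw [← h7, h8]; exact triv_mem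
  have h10 : triv G = ζ := h9
  rw [← h10] at h0
  exact one_ne_zero h0

theorem klein_structure (hM : IsPModular 2 M) (P : Sylow 2 G) (hcard : Nat.card P = 4)
    (hexp : ∀ x : P, x * x = 1)
    (hone : ∀ s t : G, orderOf s = 2 → orderOf t = 2 → IsConj s t) {z : G} (hzP : z ∈ P)
    (hz : orderOf z = 2) [DecidablePred (· ∈ principalBlock M G)] :
    ∃ n : IrrCharacter G → ℤ, (∀ ζ : IrrCharacter G, (ζ : G → ℂ) z = n ζ) ∧
      (∀ ζ ∈ principalBlock M G, n ζ = 1 ∨ n ζ = -1) ∧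
      (Finset.univ.filter (· ∈ principalBlock M G)).card = 4 ∧
      ∀ y : G, ¬ 2 ∣ orderOf y →
        ∑ ζ ∈ Finset.univ.filter (· ∈ principalBlock M G), (n ζ : ℂ) * (ζ : G → ℂ) y = 0 := by
  classical
  haveI : Fact (Nat.Prime 2) := ⟨Nat.prime_two⟩
  haveI := isPrime_of_isPModular hM
  have hex : ∀ ζ : IrrCharacter G, ∃ n : ℤ, (ζ : G → ℂ) z = n := fun ζ => by
    obtain ⟨n, hn, -⟩ := Cfsg.Agent.S0944.result ζ z hz
    exact ⟨n, hn⟩
  choose n hn using hex
  obtain ⟨S, hS⟩ : ∃ S : Finset (IrrCharacter G), S = Finset.univ.filter (· ∈ principalBlock M G) :=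
    ⟨_, rfl⟩
  have hmem : ∀ ζ, ζ ∈ S ↔ ζ ∈ principalBlock M G := fun ζ => by rw [hS]; simp
  have hsq : ∑ ζ ∈ S, (n ζ) ^ 2 = 4 := by
    have h1 := sum_sq_eq_four hM P hcard hexp hzP hz
    rw [← hS] at h1
    have h2 : ∀ ζ : IrrCharacter G, ‖(ζ : G → ℂ) z‖ ^ 2 = (((n ζ) ^ 2 : ℤ) : ℝ) := by
      intro ζ
      rw [hn ζ]
      simp
    simp only [h2] at h1
    exact_mod_cast h1
  have hn0 : ∀ ζ ∈ S, n ζ ≠ 0 := by
    intro ζ hζ h0
    apply ne_zero_of_mem hM P hcard hexp hone hz ((hmem ζ).mp hζ)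
    rw [hn ζ, h0]; simp
  have htS : triv G ∈ S := (hmem _).mpr triv_mem
  have hnt : n (triv G) = 1 := by
    have : ((n (triv G) : ℤ) : ℂ) = 1 := by rw [← hn]; rfl
    exact_mod_cast this
  have hpm : ∀ ζ ∈ S, n ζ = 1 ∨ n ζ = -1 := by
    intro ζ hζ
    by_contra hcon
    push Not at hcon
    have h0 := hn0 ζ hζ
    have h4 : 4 ≤ (n ζ) ^ 2 := by
      rcases lt_or_gt_of_ne h0 with h | h
      · have : n ζ ≤ -2 := by omega
        nlinarith
      · have : 2 ≤ n ζ := by omega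
        nlinarith
    have hne : triv G ≠ ζ := by
      rintro rfl
      exact hcon.1 hnt
    have h5 : (n (triv G)) ^ 2 ≤ ∑ ξ ∈ S.erase ζ, (n ξ) ^ 2 :=
      Finset.single_le_sum (f := fun ξ => (n ξ) ^ 2) (fun ξ _ => sq_nonneg _)
        (Finset.mem_erase.mpr ⟨hne, htS⟩)
    rw [← Finset.add_sum_erase _ _ hζ] at hsq
    rw [hnt] at h5
    linarith
  refine ⟨n, hn, fun ζ hζ => hpm ζ ((hmem ζ).mpr hζ), ?_, ?_⟩
  · rw [← hS]
    have h1 : ∑ ζ ∈ S, (n ζ) ^ 2 = ∑ ζ ∈ S, (1 : ℤ) :=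
      Finset.sum_congr rfl fun ζ hζ => by
        rcases hpm ζ hζ with h | h <;> rw [h] <;> norm_num
    rw [h1, Finset.sum_const, nsmul_eq_mul, mul_one] at hsq
    exact_mod_cast hsq
  · intro y hy
    have hB : IsPBlock M (principalBlock M G) := ⟨triv G, rfl⟩
    have h1 := Cfsg.Agent.Lib.Helper23.weak_orth hM (principalBlock M G) hB y z hy
      (by rw [hz])
    rw [← h1]
    refine Finset.sum_congr rfl fun ζ _ => ?_
    rw [hn ζ, map_intCast, mul_comm]

end Cfsg.Agent.H6.KleinFour
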