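import Mathlib
import Cfsg.Agent.H6.KleinFour
import Cfsg.Agent.H12.Cores
import Cfsg.Agent.CharLib.Integral
import Cfsg.Agent.Lib.Helper2.KleinSylow
import Cfsg.Agent.Lib.Helper2.CycSylowTwo
import Cfsg.Agent.Lib.Helper8.Klein

/-! Counting pairs of involutions in a group with a central involution and Klein four Sylow
2-subgroups. -/

set_option autoImplicit false

namespace Cfsg.Agent.H6.KleinCount

open Cfsg Cfsg.Agent.CharLib Cfsg.Agent.H6.KleinFour Subgroup

section
variable {H : Type*} [Group H] [Finite H] (Q : Sylow 2 H) (hcard : Nat.card Q = 4)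
  (hexp : ∀ x : Q, x * x = 1)

include hcard in
theorem index_core_eq_four (hk : ∃ k : ℕ, (pPrimeCore 2 H).index = 2 ^ k) :
    (pPrimeCore 2 H).index = 4 := by
  haveI : Fact (Nat.Prime 2) := ⟨Nat.prime_two⟩
  obtain ⟨k, hk⟩ := hk
  have h1 := Q.card_eq_multiplicity
  rw [hcard] at h1
  have h2 : (Nat.card H).factorization 2 = k := by
    rw [← Subgroup.card_mul_index (pPrimeCore 2 H), hk,
      Nat.factorization_mul Nat.card_pos.ne' (pow_pos Nat.prime_two.pos _).ne', Finsupp.add_apply,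
      Nat.factorization_eq_zero_of_not_dvd (H12.not_dvd_card_pPrimeCore 2), zero_add,
      Nat.prime_two.factorization_pow, Finsupp.single_eq_same]
  rw [hk, ← h2, ← h1]

theorem eq_one_of_mem_core {s : H} (hs : s ∈ pPrimeCore 2 H) (h2 : s * s = 1) : s = 1 := by
  haveI : Fact (Nat.Prime 2) := ⟨Nat.prime_two⟩
  have h1 : orderOf s ∣ 2 := orderOf_dvd_of_pow_eq_one (by rw [pow_two, h2])
  have h3 : orderOf s ∣ Nat.card (pPrimeCore 2 H) := by
    have := orderOf_dvd_natCard (⟨s, hs⟩ : pPrimeCore 2 H)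
    rwa [Subgroup.orderOf_mk] at this
  have h4 : ¬ 2 ∣ Nat.card (pPrimeCore 2 H) := H12.not_dvd_card_pPrimeCore 2
  rcases (Nat.dvd_prime Nat.prime_two).mp h1 with h | h
  · exact orderOf_eq_one_iff.mp h
  · exact absurd (h ▸ h3) h4

theorem not_mem_core_of_involution {s : H} (hs : orderOf s = 2) : s ∉ pPrimeCore 2 H := by
  intro h
  have h1 : s * s = 1 := by rw [← pow_two, ← hs, pow_orderOf_eq_one]
  have := eq_one_of_mem_core h h1
  rw [this, orderOf_one] at hs
  omega

include hcard hexp in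
/-- every element is congruent modulo the core to an element of the Sylow subgroup -/
theorem exists_mem_sylow (hidx : (pPrimeCore 2 H).index = 4) (h : H) :
    ∃ x ∈ Q, x⁻¹ * h ∈ pPrimeCore 2 H := by
  classical
  haveI hchar : (pPrimeCore 2 H).Characteristic := H12.pPrimeCore_characteristic 2 _
  haveI hn : (pPrimeCore 2 H).Normal := inferInstance
  let f : Q → H ⧸ pPrimeCore 2 H := fun x => QuotientGroup.mk' _ (x : H)
  have hinj : Function.Injective f := by
    intro x y hxy
    have h1 : (x : H)⁻¹ * (y : H) ∈ pPrimeCore 2 H := QuotientGroup.eq.mp hxy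
    have h2 := hexp (x⁻¹ * y)
    have h3 := eq_one_of_mem_core h1 (congrArg Subtype.val h2)
    apply Subtype.ext
    exact (inv_mul_eq_one.mp h3)
  have hbij : Function.Bijective f := by
    haveI : Fintype Q := Fintype.ofFinite _
    haveI : Fintype (H ⧸ pPrimeCore 2 H) := Fintype.ofFinite _
    rw [Fintype.bijective_iff_injective_and_card]
    refine ⟨hinj, ?_⟩
    rw [← Nat.card_eq_fintype_card, ← Nat.card_eq_fintype_card, ← Subgroup.index_eq_card, hidx]
    exact hcard
  obtain ⟨x, hx⟩ := hbij.2 (QuotientGroup.mk' _ h)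
  exact ⟨x, x.2, QuotientGroup.eq.mp hx⟩

include hcard hexp in
theorem comm_mod (hidx : (pPrimeCore 2 H).index = 4) (h k : H) :
    (QuotientGroup.mk h : H ⧸ pPrimeCore 2 H) * QuotientGroup.mk k
      = QuotientGroup.mk k * QuotientGroup.mk h := by
  haveI hchar : (pPrimeCore 2 H).Characteristic := H12.pPrimeCore_characteristic 2 _
  haveI := isKleinFour_of hcard hexp
  obtain ⟨x, hx, hxh⟩ := exists_mem_sylow Q hcard hexp hidx h
  obtain ⟨y, hy, hyk⟩ := exists_mem_sylow Q hcard hexp hidx k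
  rw [← QuotientGroup.eq.mpr hxh, ← QuotientGroup.eq.mpr hyk, ← QuotientGroup.mk_mul,
    ← QuotientGroup.mk_mul]
  have := (IsKleinFour.isMulCommutative (G := Q)).is_comm.comm ⟨x, hx⟩ ⟨y, hy⟩
  rw [show x * y = y * x from congrArg Subtype.val this]

include hcard hexp in
theorem isConj_iff_of_mem (hidx : (pPrimeCore 2 H).index = 4) {b : H} (hb : b ∈ Q) (hb1 : b ≠ 1)
    (s : H) : IsConj b s ↔ orderOf s = 2 ∧ b⁻¹ * s ∈ pPrimeCore 2 H := by
  haveI : Fact (Nat.Prime 2) := ⟨Nat.prime_two⟩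
  haveI hchar : (pPrimeCore 2 H).Characteristic := H12.pPrimeCore_characteristic 2 _
  have hb2 : orderOf b = 2 := by
    apply orderOf_eq_prime _ hb1
    rw [pow_two]
    exact congrArg Subtype.val (hexp ⟨b, hb⟩)
  constructor
  · intro h
    obtain ⟨g, rfl⟩ := isConj_iff.mp h
    refine ⟨by rw [← hb2]; exact (MulAut.conj g).orderOf_eq b, ?_⟩
    rw [← QuotientGroup.eq, QuotientGroup.mk_mul, QuotientGroup.mk_mul,
      comm_mod Q hcard hexp hidx g b, mul_assoc, ← QuotientGroup.mk_mul, mul_inv_cancel,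
      QuotientGroup.mk_one, mul_one]
  · rintro ⟨hs, hbs⟩
    obtain ⟨g, hg⟩ := Cfsg.Agent.Lib.Helper2.exists_conj_mem_sylow Q hs
    have h1 : b⁻¹ * (g⁻¹ * s * g) ∈ pPrimeCore 2 H := by
      rw [← QuotientGroup.eq, QuotientGroup.mk_mul, QuotientGroup.mk_mul,
        comm_mod Q hcard hexp hidx g⁻¹ s, mul_assoc, ← QuotientGroup.mk_mul, inv_mul_cancel,
        QuotientGroup.mk_one, mul_one]
      exact QuotientGroup.eq.mpr hbs
    have h2 := hexp (⟨b, hb⟩⁻¹ * ⟨_, hg⟩)
    have h3 := eq_one_of_mem_core h1 (congrArg Subtype.val h2)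
    have h4 : b = g⁻¹ * s * g := inv_mul_eq_one.mp h3
    rw [isConj_iff]
    exact ⟨g, by rw [h4]; group⟩

include hcard hexp in
theorem centralizer_singleton_eq {z : H} (hzQ : z ∈ Q) (hz1 : z ≠ 1) (hzc : ∀ h : H, h * z = z * h)
    {b : H} (hb : b ∈ Q) (hb1 : b ≠ 1) (hbz : b ≠ z) :
    centralizer ({b} : Set H) = centralizer (Q : Set H) := by
  have hK := isKleinFour_of hcard hexp
  apply le_antisymm
  · intro h hh
    rw [mem_centralizer_singleton_iff] at hh
    rw [mem_centralizer_iff]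
    intro x hx
    by_cases hx1 : x = 1
    · rw [hx1]; simp
    by_cases hxz : x = z
    · rw [hxz]; exact (hzc h).symm
    by_cases hxb : x = b
    · rw [hxb]; exact hh.symm
    have := Cfsg.Agent.Lib.Helper2.klein_third (P := (Q : Subgroup H)) hK hb hzQ hx hb1 hz1 hbz hx1
      hxb hxz
    rw [this, mul_assoc, ← hzc h, ← mul_assoc, ← hh, mul_assoc]
  · apply centralizer_le
    rw [Set.singleton_subset_iff]
    exact hb

include hcard hexp in
theorem pair_iff (hidx : (pPrimeCore 2 H).index = 4) {z : H} (hzQ : z ∈ Q) (hz1 : z ≠ 1)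
    (hzc : ∀ h : H, h * z = z * h) {a : H} (ha : a ∈ Q) (ha1 : a ≠ 1) (haz : a ≠ z) (s t : H) :
    (orderOf s = 2 ∧ orderOf t = 2 ∧ z⁻¹ * (s * t) ∈ pPrimeCore 2 H) ↔
      (IsConj a s ∧ IsConj (a * z) t) ∨ (IsConj (a * z) s ∧ IsConj a t) := by
  haveI hchar : (pPrimeCore 2 H).Characteristic := H12.pPrimeCore_characteristic 2 _
  have hK := isKleinFour_of hcard hexp
  let q : H →* H ⧸ pPrimeCore 2 H := QuotientGroup.mk' _
  have hq : ∀ x y : H, x⁻¹ * y ∈ pPrimeCore 2 H ↔ q x = q y := fun x y => QuotientGroup.eq.symm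
  have hq1 : ∀ x : H, x ∈ pPrimeCore 2 H ↔ q x = 1 := fun x => (QuotientGroup.eq_one_iff x).symm
  have haa : a * a = 1 := congrArg Subtype.val (hexp ⟨a, ha⟩)
  have hzz : z * z = 1 := congrArg Subtype.val (hexp ⟨z, hzQ⟩)
  have hb : a * z ∈ Q := mul_mem ha hzQ
  have hb1 : a * z ≠ 1 := by
    intro h
    apply haz
    calc a = a * (z * z) := by rw [hzz, mul_one]
      _ = z := by rw [← mul_assoc, h, one_mul]
  have hqaa : q a * q a = 1 := by rw [← map_mul, haa, map_one]
  have hqzz : q z * q z = 1 := by rw [← map_mul, hzz, map_one]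
  rw [isConj_iff_of_mem Q hcard hexp hidx ha ha1, isConj_iff_of_mem Q hcard hexp hidx ha ha1,
    isConj_iff_of_mem Q hcard hexp hidx hb hb1, isConj_iff_of_mem Q hcard hexp hidx hb hb1]
  simp only [hq]
  constructor
  · rintro ⟨hs, ht, hst⟩
    obtain ⟨x, hx, hxs⟩ := exists_mem_sylow Q hcard hexp hidx s
    rw [hq] at hxs
    rw [map_mul] at hst
    have hx1 : x ≠ 1 := by
      rintro rfl
      apply not_mem_core_of_involution hs
      rw [hq1, ← hxs, map_one]
    have hxz : x ≠ z := by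
      rintro rfl
      apply not_mem_core_of_involution ht
      rw [hq1]
      rw [← hxs] at hst
      exact (mul_eq_left.mp hst.symm)
    by_cases hxa : x = a
    · left
      rw [hxa] at hxs
      refine ⟨⟨hs, hxs⟩, ht, ?_⟩
      rw [map_mul, hst, ← hxs, ← mul_assoc, hqaa, one_mul]
    · right
      have := Cfsg.Agent.Lib.Helper2.klein_third (P := (Q : Subgroup H)) hK ha hzQ hx ha1 hz1 haz hx1
        hxa hxz
      rw [this] at hxs
      refine ⟨⟨hs, hxs⟩, ht, ?_⟩
      have h1 : q z * q a = q a * q z := by rw [← map_mul, ← map_mul, ← hzc a]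
      rw [← hxs, map_mul] at hst
      calc q a = q a * q z * q z := by rw [mul_assoc, hqzz, mul_one]
        _ = q a * q z * (q a * q z * q t) := by rw [← hst]
        _ = (q a * q a) * (q z * q z) * q t := by
            rw [mul_assoc (q a) (q z), ← mul_assoc (q z), ← mul_assoc (q z), h1]
            simp only [mul_assoc]
        _ = q t := by rw [hqaa, hqzz, one_mul, one_mul]
  · rintro (⟨⟨hs, h1⟩, ht, h2⟩ | ⟨⟨hs, h1⟩, ht, h2⟩)
    · refine ⟨hs, ht, ?_⟩
      rw [map_mul, ← h1, ← h2, map_mul, ← mul_assoc, hqaa, one_mul]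
    · refine ⟨hs, ht, ?_⟩
      have h3 : q z * q a = q a * q z := by rw [← map_mul, ← map_mul, ← hzc a]
      rw [map_mul, ← h1, ← h2, map_mul, mul_assoc, h3, ← mul_assoc, hqaa, one_mul]

include hcard hexp in
theorem card_pairs [Fintype H] (hidx : (pPrimeCore 2 H).index = 4) {z : H} (hzQ : z ∈ Q)
    (hz1 : z ≠ 1) (hzc : ∀ h : H, h * z = z * h)
    [DecidablePred fun st : H × H => orderOf st.1 = 2 ∧ orderOf st.2 = 2 ∧
      z⁻¹ * (st.1 * st.2) ∈ pPrimeCore 2 H] :
    (Finset.univ.filter (fun st : H × H => orderOf st.1 = 2 ∧ orderOf st.2 = 2 ∧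
      z⁻¹ * (st.1 * st.2) ∈ pPrimeCore 2 H)).card = 2 * (centralizer (Q : Set H)).index ^ 2 := by
  classical
  have hK := isKleinFour_of hcard hexp
  obtain ⟨a, ha, ha1, haz⟩ := Cfsg.Agent.Lib.Helper8.klein_exists_ne (T := (Q : Subgroup H)) hK z
  have hzz : z * z = 1 := congrArg Subtype.val (hexp ⟨z, hzQ⟩)
  have hb : a * z ∈ Q := mul_mem ha hzQ
  have hb1 : a * z ≠ 1 := by
    intro h
    apply haz
    calc a = a * (z * z) := by rw [hzz, mul_one]
      _ = z := by rw [← mul_assoc, h, one_mul]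
  have hbz : a * z ≠ z := by
    intro h
    exact ha1 (mul_eq_right.mp h)
  have hset : Finset.univ.filter (fun st : H × H => orderOf st.1 = 2 ∧ orderOf st.2 = 2 ∧
      z⁻¹ * (st.1 * st.2) ∈ pPrimeCore 2 H) =
      (classFinset a ×ˢ classFinset (a * z)) ∪ (classFinset (a * z) ×ˢ classFinset a) := by
    ext ⟨s, t⟩
    rw [Finset.mem_filter, Finset.mem_union, Finset.mem_product, Finset.mem_product]
    simp only [mem_classFinset, Finset.mem_univ, true_and]
    exact pair_iff Q hcard hexp hidx hzQ hz1 hzc ha ha1 haz s t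
  have hdisj : Disjoint (classFinset a ×ˢ classFinset (a * z))
      (classFinset (a * z) ×ˢ classFinset a) := by
    rw [Finset.disjoint_left]
    rintro ⟨s, t⟩ h1 h2
    rw [Finset.mem_product] at h1 h2
    simp only [mem_classFinset] at h1 h2
    have e1 := ((isConj_iff_of_mem Q hcard hexp hidx ha ha1 s).mp h1.1).2
    have e2 := ((isConj_iff_of_mem Q hcard hexp hidx hb hb1 s).mp h2.1).2
    have e3 : z ∈ pPrimeCore 2 H := by
      have := mul_mem e1 (inv_mem e2)
      have e4 : a⁻¹ * s * ((a * z)⁻¹ * s)⁻¹ = z := by group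
      rwa [e4] at this
    exact hz1 (eq_one_of_mem_core e3 hzz)
  rw [hset, Finset.card_union_of_disjoint hdisj, Finset.card_product, Finset.card_product,
    card_classFinset, card_classFinset,
    centralizer_singleton_eq Q hcard hexp hzQ hz1 hzc ha ha1 haz,
    centralizer_singleton_eq Q hcard hexp hzQ hz1 hzc hb hb1 hbz]
  ring

end

/-- order `4 g₀` with `g₀` odd and no normal 2-complement: Klein four Sylow subgroups and one class
of involutions -/
theorem klein_of_no_complement {G : Type*} [Group G] [Finite G] {g₀ : ℕ} (hg₀ : Odd g₀)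
    (hG : Nat.card G = 4 * g₀) (hnc : ¬ ∃ N : Subgroup G, N.Normal ∧ Nat.card N = g₀)
    (P : Sylow 2 G) :
    Nat.card P = 4 ∧ (∀ x : P, x * x = 1) ∧
      ∀ s t : G, orderOf s = 2 → orderOf t = 2 → IsConj s t := by
  haveI : Fact (Nat.Prime 2) := ⟨Nat.prime_two⟩
  have hg0 : g₀ ≠ 0 := by rintro rfl; simp at hg₀
  have hcard : Nat.card P = 4 := by
    have h1 := P.card_eq_multiplicity
    have h2 : (Nat.card G).factorization 2 = 2 := by
      rw [hG, Nat.factorization_mul (by norm_num) hg0, Finsupp.add_apply,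
        Nat.factorization_eq_zero_of_not_dvd (fun h => (Nat.not_even_iff_odd.mpr hg₀) (even_iff_two_dvd.mpr h)), add_zero,
        show (4 : ℕ) = 2 ^ 2 by norm_num, Nat.prime_two.factorization_pow, Finsupp.single_eq_same]
    rw [h2] at h1
    exact h1
  have hcompl : ∀ K : Subgroup G, K.Normal → K.IsComplement' P → False := by
    intro K hK hc
    apply hnc
    refine ⟨K, hK, ?_⟩
    have h1 := hc.card_mul
    have h2 : Nat.card (P : Subgroup G) = 4 := hcard
    rw [h2, hG] at h1
    omega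
  have hncyc : ¬ IsCyclic P := by
    intro hc
    obtain ⟨K, hK, -, hKc, -⟩ := Cfsg.Agent.Lib.Helper2.cyclic_sylow_two P hc
      (by rw [hG]; exact ⟨2 * g₀, by ring⟩)
    exact hcompl K hK hKc
  have hexp : ∀ x : P, x * x = 1 := by
    intro x
    have h1 : orderOf x ∣ 2 ^ 2 := by
      have := orderOf_dvd_natCard x
      have h2 : Nat.card (P : Sylow 2 G) = 2 ^ 2 := hcard
      exact h2 ▸ this
    obtain ⟨k, hk, hk'⟩ := (Nat.dvd_prime_pow Nat.prime_two).mp h1
    have hk2 : k ≠ 2 := by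
      rintro rfl
      apply hncyc
      apply isCyclic_of_orderOf_eq_card x
      rw [hk']
      exact hcard.symm
    have h3 : orderOf x ∣ 2 := by
      rw [hk']
      interval_cases k
      · norm_num
      · norm_num
      · exact absurd rfl hk2
    rw [← pow_two]
    exact orderOf_dvd_iff_pow_eq_one.mp h3
  refine ⟨hcard, hexp, ?_⟩
  have hK : IsKleinFour (P : Subgroup G) := isKleinFour_of hcard hexp
  rcases Cfsg.Agent.Lib.Helper2.klein_classes P hK with ⟨-, h1⟩ | ⟨h1, -⟩
  · intro s t hs ht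
    have hsub := (Nat.card_eq_one_iff_unique.mp h1).1
    have := hsub.elim (⟨ConjClasses.mk s, s, hs, rfl⟩ :
      {C : ConjClasses G // ∃ t : G, orderOf t = 2 ∧ ConjClasses.mk t = C})
      ⟨ConjClasses.mk t, t, ht, rfl⟩
    exact ConjClasses.mk_eq_mk_iff_isConj.mp (congrArg Subtype.val this)
  · exfalso
    have hN : normalizer (P : Set G) ≤ centralizer (P : Set G) := by
      intro n hn
      rw [mem_centralizer_iff]
      intro a ha
      have h2 : n * a * n⁻¹ ∈ P := (mem_normalizer_iff.mp hn a).mp ha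
      have h3 := h1 a ha _ h2 (isConj_iff.mpr ⟨n, rfl⟩)
      calc a * n = (n * a * n⁻¹) * n := by rw [← h3]
        _ = n * a := by group
    exact hcompl _ inferInstance (MonoidHom.ker_transferSylow_isComplement' P hN)

end Cfsg.Agent.H6.KleinCount
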