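import Mathlib
import Cfsg.Agent.H6.KleinCount
import Cfsg.Agent.H6.KleinBlock
import Cfsg.Agent.H6.SectionFormula
import Cfsg.Agent.H25.NormalSum
import Cfsg.Agent.S0939

/-! The principal block part of a class function at an involution (Klein four Sylow subgroups)
and Brauer's order formula. -/

set_option autoImplicit false

namespace Cfsg.Agent.H6.KleinOrder

open Cfsg Cfsg.Agent.BlockLib Cfsg.Agent.CharLib Cfsg.Agent.H6 Cfsg.Agent.H6.BlockSection
  Cfsg.Agent.H6.KleinFour Cfsg.Agent.H6.KleinCount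
open scoped ComplexConjugate

/-- the part of a class function belonging to the characters with `N` in the kernel is the average
over the cosets of `N` -/
theorem blockPart_ker_avg {K : Type*} [Group K] [Fintype K] (N : Subgroup K) [N.Normal] {f : K → ℂ}
    (hf : IsClassFunction K f) (w : K) [DecidablePred (· ∈ N)] :
    blockPart {χ : IrrCharacter K | ∀ n ∈ N, (χ : K → ℂ) n = (χ : K → ℂ) 1} f w =
      (Nat.card N : ℂ)⁻¹ * ∑ x : K, if x ∈ N then f (w * x) else 0 := by
  classical
  rw [blockPart_eq_filter]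
  have h1 : ∀ y : K, f y = ∑ χ : IrrCharacter K, classInner f χ * (χ : K → ℂ) y := by
    intro y
    conv_lhs => rw [classFunction_eq_sum hf]
    simp [Finset.sum_apply]
  have h2 : ∀ x : K, (if x ∈ N then f (w * x) else 0) =
      ∑ χ : IrrCharacter K, classInner f χ * (if x ∈ N then (χ : K → ℂ) (w * x) else 0) := by
    intro x
    split_ifs
    · exact h1 _
    · simp
  simp only [h2]
  rw [Finset.sum_comm, Finset.mul_sum, Finset.sum_filter]
  refine Finset.sum_congr rfl fun χ _ => ?_
  rw [← Finset.mul_sum]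
  have hN0 : (Nat.card N : ℂ) ≠ 0 := by exact_mod_cast Nat.card_pos.ne'
  split_ifs with hχ
  · have h3 : ∑ x : K, (if x ∈ N then (χ : K → ℂ) (w * x) else 0) =
        (Nat.card N : ℂ) * (χ : K → ℂ) w := by
      have : ∀ x : K, (if x ∈ N then (χ : K → ℂ) (w * x) else 0) =
          (if x ∈ N then (χ : K → ℂ) w else 0) := by
        intro x
        split_ifs with hx
        · exact H25.irr_mul_of_mem_ker χ (hχ x hx) w
        · rfl
      simp only [this]
      rw [← Finset.sum_filter, Finset.sum_const, nsmul_eq_mul]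
      congr 2
      rw [Nat.card_eq_fintype_card, Fintype.card_subtype]
    rw [h3]
    field_simp
  · have hχ' : ∃ x ∈ N, (χ : K → ℂ) x ≠ (χ : K → ℂ) 1 := by
      by_contra hcon
      push Not at hcon
      exact hχ hcon
    have := H25.sum_coset_eq_zero N χ hχ' w
    have h4 : ∑ x : K, (if x ∈ N then (χ : K → ℂ) (w * x) else 0) = 0 := by
      convert this
    rw [h4, mul_zero, mul_zero]

universe u

variable {M : Ideal AlgInt} {G : Type u} [Group G] [Fintype G]

/-- the principal block part of a class function at an involution -/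
theorem blockPart_at_involution (hM : IsPModular 2 M) (P : Sylow 2 G) (hcard : Nat.card P = 4)
    (hexp : ∀ x : P, x * x = 1) {J : G} (hJP : J ∈ P) (hJ : orderOf J = 2) {ϑ : G → ℂ}
    (hϑ : IsClassFunction G ϑ) [Fintype (Subgroup.centralizer ({J} : Set G))]
    [DecidablePred (· ∈ pPrimeCore 2 (Subgroup.centralizer ({J} : Set G)))] :
    blockPart (principalBlock M G) ϑ J =
      (Nat.card (pPrimeCore 2 (Subgroup.centralizer ({J} : Set G))) : ℂ)⁻¹ *
        ∑ x : Subgroup.centralizer ({J} : Set G),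
          if x ∈ pPrimeCore 2 (Subgroup.centralizer ({J} : Set G)) then ϑ (J * (x : G)) else 0 := by
  haveI : Fact (Nat.Prime 2) := ⟨Nat.prime_two⟩
  have hJ1 : J ≠ 1 := by
    rintro rfl
    rw [orderOf_one] at hJ
    omega
  have h1 := blockPart_section_principal hM hϑ (z := J) (k := 1) (by rw [hJ, pow_one]) 1
    (by rw [orderOf_one]; norm_num)
  rw [Subgroup.coe_one, mul_one] at h1
  rw [h1, Cfsg.Agent.S0939.result 2 M hM (G := Subgroup.centralizer ({J} : Set G))
    (centralizer_involution P hcard hexp hJP hJ1).1]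
  haveI hchar : (pPrimeCore 2 (Subgroup.centralizer ({J} : Set G))).Characteristic :=
    H12.pPrimeCore_characteristic 2 _
  have h2 := blockPart_ker_avg (pPrimeCore 2 (Subgroup.centralizer ({J} : Set G)))
    (isClassFunction_shift hϑ J) 1
  rw [h2]
  simp only [one_mul]

omit [Fintype G] in
theorem mem_centralizer_of_pair {J x s : G} (hJ : orderOf J = 2) (hx : x * J = J * x)
    (hodd : ¬ 2 ∣ orderOf x) (hs : orderOf s = 2) (ht : orderOf (s⁻¹ * (J * x)) = 2) :
    s * J = J * s := by
  have hJJ : J ^ 2 = 1 := by rw [← hJ, pow_orderOf_eq_one]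
  have hss : s * s = 1 := by rw [← pow_two, ← hs, pow_orderOf_eq_one]
  have htt : (s⁻¹ * (J * x)) * (s⁻¹ * (J * x)) = 1 := by rw [← pow_two, ← ht, pow_orderOf_eq_one]
  have hsinv : s⁻¹ = s := inv_eq_of_mul_eq_one_left hss
  obtain ⟨k, hk⟩ : Odd (orderOf x) := by
    rw [← Nat.not_even_iff_odd, even_iff_two_dvd]; exact hodd
  have hum : (J * x) ^ orderOf x = J := by
    rw [(show Commute J x from hx.symm).mul_pow, pow_orderOf_eq_one, mul_one, hk, pow_succ, pow_mul,
      hJJ, one_pow, one_mul]
  have hconj : s * (J * x) * s⁻¹ = (J * x)⁻¹ := by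
    rw [eq_inv_iff_mul_eq_one]
    rw [hsinv] at htt ⊢
    calc s * (J * x) * s * (J * x) = (s * (J * x)) * (s * (J * x)) := by group
      _ = 1 := htt
  have h1 : s * J * s⁻¹ = J⁻¹ := by
    calc s * J * s⁻¹ = s * (J * x) ^ orderOf x * s⁻¹ := by rw [hum]
      _ = (s * (J * x) * s⁻¹) ^ orderOf x := (conj_pow).symm
      _ = J⁻¹ := by rw [hconj, inv_pow, hum]
  have hJinv : J⁻¹ = J := inv_eq_of_mul_eq_one_left (by rw [← pow_two, hJJ])
  rw [hJinv] at h1
  calc s * J = (s * J * s⁻¹) * s := by group
    _ = J * s := by rw [h1]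

theorem sum_eq_sum_subgroup (H : Subgroup G) [Fintype H] (F : G → ℂ) (h : ∀ s, s ∉ H → F s = 0) :
    ∑ s : G, F s = ∑ s : H, F s := by
  classical
  rw [← Finset.sum_subtype (Finset.univ.filter (· ∈ H)) (by simp) F, Finset.sum_filter]
  refine Finset.sum_congr rfl fun s _ => ?_
  split_ifs with hs
  · rfl
  · exact h s hs

/-- the number of pairs of involutions with product in `J O(C(J))` -/
theorem sum_conv_core (P : Sylow 2 G) (hcard : Nat.card P = 4)
    (hexp : ∀ x : P, x * x = 1)
    (hone : ∀ s t : G, orderOf s = 2 → orderOf t = 2 → IsConj s t) {J : G} (hJP : J ∈ P)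
    (hJ : orderOf J = 2) [Fintype (Subgroup.centralizer ({J} : Set G))]
    [DecidablePred (· ∈ pPrimeCore 2 (Subgroup.centralizer ({J} : Set G)))] :
    (∑ x : Subgroup.centralizer ({J} : Set G),
      if x ∈ pPrimeCore 2 (Subgroup.centralizer ({J} : Set G)) then
        conv (classInd J) (classInd J) (J * (x : G)) else 0) *
      (Nat.card (Subgroup.centralizer ((P : Subgroup G) : Set G)) : ℂ) ^ 2 =
      2 * (Nat.card (Subgroup.centralizer ({J} : Set G)) : ℂ) ^ 2 := by
  classical
  haveI : Fact (Nat.Prime 2) := ⟨Nat.prime_two⟩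
  haveI := isKleinFour_of hcard hexp
  have hJ1 : J ≠ 1 := by
    rintro rfl
    rw [orderOf_one] at hJ
    omega
  have hle : (P : Subgroup G) ≤ Subgroup.centralizer ({J} : Set G) := by
    intro a ha
    rw [Subgroup.mem_centralizer_singleton_iff]
    have := (IsKleinFour.isMulCommutative (G := P)).is_comm.comm ⟨a, ha⟩ ⟨J, hJP⟩
    exact congrArg Subtype.val this
  have hzC : J ∈ Subgroup.centralizer ({J} : Set G) := hle hJP
  have hcardQ : Nat.card (P.subtype hle) = 4 := by
    rw [← hcard]
    exact Nat.card_congr (Subgroup.subgroupOfEquivOfLe hle).toEquiv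
  have hexpQ : ∀ x : P.subtype hle, x * x = 1 := by
    intro x
    have hx : ((x : Subgroup.centralizer ({J} : Set G)) : G) ∈ P := x.2
    have := congrArg Subtype.val (hexp ⟨_, hx⟩)
    apply Subtype.ext
    apply Subtype.ext
    exact this
  have hidx := index_core_eq_four (P.subtype hle) hcardQ
    (centralizer_involution P hcard hexp hJP hJ1).1
  have hcp := card_pairs (P.subtype hle) hcardQ hexpQ hidx (z := ⟨J, hzC⟩) hJP
    (fun h => hJ1 (congrArg Subtype.val h))
    (fun h => Subtype.ext (Subgroup.mem_centralizer_singleton_iff.mp h.2))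
  -- the indicator of the involutions
  have hind : ∀ s : G, classInd J s = if orderOf s = 2 then 1 else 0 := by
    intro s
    rw [classInd_apply]
    have : IsConj J s ↔ orderOf s = 2 := by
      constructor
      · intro h
        obtain ⟨g, rfl⟩ := isConj_iff.mp h
        rw [← hJ]; exact (MulAut.conj g).orderOf_eq J
      · intro h
        exact hone J s hJ h
    simp only [this]
  have hA : ∀ x : Subgroup.centralizer ({J} : Set G),
      x ∈ pPrimeCore 2 (Subgroup.centralizer ({J} : Set G)) →
      conv (classInd J) (classInd J) (J * (x : G)) =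
        ∑ s : Subgroup.centralizer ({J} : Set G),
          (if orderOf s = 2 ∧ orderOf (s⁻¹ * (⟨J, hzC⟩ * x)) = 2 then (1 : ℂ) else 0) := by
    intro x hx
    have hxodd : ¬ 2 ∣ orderOf (x : G) := by
      rw [Subgroup.orderOf_coe]
      intro h2
      have h3 : orderOf x ∣ Nat.card (pPrimeCore 2 (Subgroup.centralizer ({J} : Set G))) := by
        have := orderOf_dvd_natCard
          (⟨x, hx⟩ : pPrimeCore 2 (Subgroup.centralizer ({J} : Set G)))
        rwa [Subgroup.orderOf_mk] at this
      exact H12.not_dvd_card_pPrimeCore 2 (h2.trans h3)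
    rw [conv_apply, sum_eq_sum_subgroup (Subgroup.centralizer ({J} : Set G))]
    · refine Finset.sum_congr rfl fun s _ => ?_
      rw [hind, hind, Subgroup.orderOf_coe]
      have : orderOf ((s : G)⁻¹ * (J * (x : G))) = orderOf (s⁻¹ * (⟨J, hzC⟩ * x)) := by
        rw [← Subgroup.orderOf_coe]
        rfl
      rw [this]
      split_ifs with h1 h2 h3 h3 h3 <;> simp_all
    · intro s hs
      rw [hind, hind]
      split_ifs with h1 h2
      · exfalso
        apply hs
        rw [Subgroup.mem_centralizer_singleton_iff]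
        exact mem_centralizer_of_pair hJ (Subgroup.mem_centralizer_singleton_iff.mp x.2) hxodd h1 h2
      · simp
      · simp
      · simp
  have hB : (∑ x : Subgroup.centralizer ({J} : Set G),
      if x ∈ pPrimeCore 2 (Subgroup.centralizer ({J} : Set G)) then
        conv (classInd J) (classInd J) (J * (x : G)) else 0) =
      ((Finset.univ.filter (fun st : Subgroup.centralizer ({J} : Set G) ×
        Subgroup.centralizer ({J} : Set G) => orderOf st.1 = 2 ∧ orderOf st.2 = 2 ∧
        (⟨J, hzC⟩ : Subgroup.centralizer ({J} : Set G))⁻¹ * (st.1 * st.2) ∈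
          pPrimeCore 2 (Subgroup.centralizer ({J} : Set G)))).card : ℂ) := by
    rw [Finset.card_filter, Nat.cast_sum, Fintype.sum_prod_type]
    have h1 : ∀ x : Subgroup.centralizer ({J} : Set G),
        (if x ∈ pPrimeCore 2 (Subgroup.centralizer ({J} : Set G)) then
        conv (classInd J) (classInd J) (J * (x : G)) else 0) =
        ∑ s : Subgroup.centralizer ({J} : Set G),
          (if x ∈ pPrimeCore 2 (Subgroup.centralizer ({J} : Set G)) ∧
            orderOf s = 2 ∧ orderOf (s⁻¹ * (⟨J, hzC⟩ * x)) = 2 then (1 : ℂ) else 0) := by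
      intro x
      split_ifs with hx
      · rw [hA x hx]
        refine Finset.sum_congr rfl fun s _ => ?_
        simp only [hx, true_and]
      · simp [hx]
    simp only [h1]
    rw [Finset.sum_comm]
    refine Finset.sum_congr rfl fun s _ => ?_
    refine Fintype.sum_equiv (Equiv.mulLeft (s⁻¹ * ⟨J, hzC⟩)) _ _ fun x => ?_
    have e1 : (⟨J, hzC⟩ : Subgroup.centralizer ({J} : Set G))⁻¹ * (s * (s⁻¹ * ⟨J, hzC⟩ * x)) = x := by
      group
    have hiff : (x ∈ pPrimeCore 2 (Subgroup.centralizer ({J} : Set G)) ∧ orderOf s = 2 ∧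
        orderOf (s⁻¹ * (⟨J, hzC⟩ * x)) = 2) ↔ (orderOf s = 2 ∧ orderOf (s⁻¹ * ⟨J, hzC⟩ * x) = 2 ∧
        (⟨J, hzC⟩ : Subgroup.centralizer ({J} : Set G))⁻¹ * (s * (s⁻¹ * ⟨J, hzC⟩ * x)) ∈
          pPrimeCore 2 (Subgroup.centralizer ({J} : Set G))) := by
      rw [e1, mul_assoc]; tauto
    split_ifs with h1 h2 h2
    · simp
    · exact absurd (hiff.mp h1) h2
    · exact absurd (hiff.mpr h2) h1
    · simp
  have hcp' : (Finset.univ.filter (fun st : Subgroup.centralizer ({J} : Set G) ×
        Subgroup.centralizer ({J} : Set G) => orderOf st.1 = 2 ∧ orderOf st.2 = 2 ∧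
        (⟨J, hzC⟩ : Subgroup.centralizer ({J} : Set G))⁻¹ * (st.1 * st.2) ∈
          pPrimeCore 2 (Subgroup.centralizer ({J} : Set G)))).card =
      2 * (Subgroup.centralizer ((P.subtype hle : Subgroup
      (Subgroup.centralizer ({J} : Set G))) : Set (Subgroup.centralizer ({J} : Set G)))).index ^ 2 :=
    hcp
  rw [hB, hcp']
  have hC : Nat.card (Subgroup.centralizer ((P.subtype hle : Subgroup
      (Subgroup.centralizer ({J} : Set G))) : Set (Subgroup.centralizer ({J} : Set G)))) =
      Nat.card (Subgroup.centralizer ((P : Subgroup G) : Set G)) := by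
    have hCle : Subgroup.centralizer ((P : Subgroup G) : Set G) ≤
        Subgroup.centralizer ({J} : Set G) := by
      apply Subgroup.centralizer_le
      rw [Set.singleton_subset_iff]
      exact hJP
    rw [← Nat.card_congr (Subgroup.subgroupOfEquivOfLe hCle).toEquiv]
    congr 2
    ext h
    rw [Subgroup.mem_centralizer_iff, Subgroup.mem_subgroupOf, Subgroup.mem_centralizer_iff]
    constructor
    · intro hh a ha
      exact congrArg Subtype.val (hh ⟨a, hle ha⟩ ha)
    · intro hh a ha
      exact Subtype.ext (hh (a : G) ha)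
  have hidx2 := Subgroup.card_mul_index (Subgroup.centralizer ((P.subtype hle : Subgroup
      (Subgroup.centralizer ({J} : Set G))) : Set (Subgroup.centralizer ({J} : Set G))))
  rw [hC] at hidx2
  rw [← hidx2]
  push_cast
  ring

theorem classInner_conv_classInd (J : G) (χ : IrrCharacter G) :
    classInner (conv (classInd J) (classInd J)) χ =
      (Nat.card G : ℂ)⁻¹ * ((Subgroup.centralizer ({J} : Set G)).index : ℂ) ^ 2 *
        conj ((χ : G → ℂ) J) ^ 2 / (χ : G → ℂ) 1 := by
  have hχ' := isIrrCharacter_conj χ.2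
  have h1 := omega_conv hχ' (isClassFunction_classInd J) (isClassFunction_classInd J)
  rw [omega_classInd (isClassFunction_of_irr hχ')] at h1
  have hne : (χ : G → ℂ) 1 ≠ 0 := irr_apply_one_ne_zero χ
  unfold omega centralChar at h1
  simp only [conj_irr_apply_one] at h1
  rw [classInner]
  rw [div_eq_iff hne] at h1
  rw [h1]
  field_simp

omit [Fintype G] in
theorem card_core_mul_four [Finite G] (P : Sylow 2 G) (hcard : Nat.card P = 4)
    (hexp : ∀ x : P, x * x = 1) {J : G} (hJP : J ∈ P) (hJ1 : J ≠ 1) :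
    Nat.card (pPrimeCore 2 (Subgroup.centralizer ({J} : Set G))) * 4 =
      Nat.card (Subgroup.centralizer ({J} : Set G)) := by
  haveI : Fact (Nat.Prime 2) := ⟨Nat.prime_two⟩
  obtain ⟨⟨k, hk⟩, hf⟩ := centralizer_involution P hcard hexp hJP hJ1
  have h2 : (Nat.card (Subgroup.centralizer ({J} : Set G))).factorization 2 = k := by
    rw [← Subgroup.card_mul_index (pPrimeCore 2 (Subgroup.centralizer ({J} : Set G))), hk,
      Nat.factorization_mul Nat.card_pos.ne' (pow_pos Nat.prime_two.pos _).ne', Finsupp.add_apply,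
      Nat.factorization_eq_zero_of_not_dvd (H12.not_dvd_card_pPrimeCore 2), zero_add,
      Nat.prime_two.factorization_pow, Finsupp.single_eq_same]
  rw [← Subgroup.card_mul_index (pPrimeCore 2 (Subgroup.centralizer ({J} : Set G))), hk, ← h2, hf]
  norm_num

/-- Brauer's order formula, raw form -/
theorem order_formula (hM : IsPModular 2 M) (P : Sylow 2 G) (hcard : Nat.card P = 4)
    (hexp : ∀ x : P, x * x = 1)
    (hone : ∀ s t : G, orderOf s = 2 → orderOf t = 2 → IsConj s t) {J : G} (hJP : J ∈ P)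
    (hJ : orderOf J = 2) [DecidablePred (· ∈ principalBlock M G)] :
    (∑ χ ∈ Finset.univ.filter (· ∈ principalBlock M G),
      conj ((χ : G → ℂ) J) ^ 2 * (χ : G → ℂ) J / (χ : G → ℂ) 1) * (Nat.card G : ℂ) *
      (Nat.card (Subgroup.centralizer ((P : Subgroup G) : Set G)) : ℂ) ^ 2 =
      8 * (Nat.card (Subgroup.centralizer ({J} : Set G)) : ℂ) ^ 3 := by
  classical
  haveI : Fintype (Subgroup.centralizer ({J} : Set G)) := Fintype.ofFinite _
  have hJ1 : J ≠ 1 := by
    rintro rfl
    rw [orderOf_one] at hJ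
    omega
  have h1 := blockPart_at_involution hM P hcard hexp hJP hJ
    (isClassFunction_conv (isClassFunction_classInd J) (isClassFunction_classInd J))
  rw [blockPart_eq_filter] at h1
  simp only [classInner_conv_classInd] at h1
  have h2 := sum_conv_core P hcard hexp hone hJP hJ
  have h3 := card_core_mul_four P hcard hexp hJP hJ1
  have h4 := Subgroup.card_mul_index (Subgroup.centralizer ({J} : Set G))
  set S := ∑ x : Subgroup.centralizer ({J} : Set G),
      if x ∈ pPrimeCore 2 (Subgroup.centralizer ({J} : Set G)) then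
        conv (classInd J) (classInd J) (J * (x : G)) else 0 with hS
  have h5 : ∑ χ ∈ Finset.univ.filter (· ∈ principalBlock M G),
      (Nat.card G : ℂ)⁻¹ * ((Subgroup.centralizer ({J} : Set G)).index : ℂ) ^ 2 *
        conj ((χ : G → ℂ) J) ^ 2 / (χ : G → ℂ) 1 * (χ : G → ℂ) J =
      (Nat.card G : ℂ)⁻¹ * ((Subgroup.centralizer ({J} : Set G)).index : ℂ) ^ 2 *
      ∑ χ ∈ Finset.univ.filter (· ∈ principalBlock M G),
      conj ((χ : G → ℂ) J) ^ 2 * (χ : G → ℂ) J / (χ : G → ℂ) 1 := by
    rw [Finset.mul_sum]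
    refine Finset.sum_congr rfl fun χ _ => ?_
    ring
  rw [h5] at h1
  set Sg := ∑ χ ∈ Finset.univ.filter (· ∈ principalBlock M G),
      conj ((χ : G → ℂ) J) ^ 2 * (χ : G → ℂ) J / (χ : G → ℂ) 1 with hSg
  have hG0 : (Nat.card G : ℂ) ≠ 0 := by exact_mod_cast Nat.card_pos.ne'
  have hH0 : (Nat.card (Subgroup.centralizer ({J} : Set G)) : ℂ) ≠ 0 := by
    exact_mod_cast Nat.card_pos.ne'
  have hO0 : (Nat.card (pPrimeCore 2 (Subgroup.centralizer ({J} : Set G))) : ℂ) ≠ 0 := by
    exact_mod_cast Nat.card_pos.ne'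
  have h3' : (Nat.card (pPrimeCore 2 (Subgroup.centralizer ({J} : Set G))) : ℂ) * 4 =
      (Nat.card (Subgroup.centralizer ({J} : Set G)) : ℂ) := by exact_mod_cast h3
  have h4' : (Nat.card (Subgroup.centralizer ({J} : Set G)) : ℂ) *
      ((Subgroup.centralizer ({J} : Set G)).index : ℂ) = (Nat.card G : ℂ) := by exact_mod_cast h4
  set cJ := (Nat.card (Subgroup.centralizer ({J} : Set G)) : ℂ)
  set cP := (Nat.card (Subgroup.centralizer ((P : Subgroup G) : Set G)) : ℂ)
  set o := (Nat.card (pPrimeCore 2 (Subgroup.centralizer ({J} : Set G))) : ℂ)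
  set i := ((Subgroup.centralizer ({J} : Set G)).index : ℂ)
  rw [← h4'] at h1 ⊢
  have hi0 : i ≠ 0 := by
    intro h
    rw [h, mul_zero] at h4'
    exact hG0 h4'.symm
  have h6 : i * Sg * o = cJ * S := by
    field_simp at h1
    linear_combination h1
  have h7 : i * Sg * cJ = 4 * cJ * S := by
    calc i * Sg * cJ = i * Sg * (o * 4) := by rw [h3']
      _ = 4 * (i * Sg * o) := by ring
      _ = 4 * cJ * S := by rw [h6]; ring
  have h8 : i * Sg = 4 * S := by
    apply mul_right_cancel₀ hH0
    linear_combination h7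
  calc Sg * (cJ * i) * cP ^ 2 = cJ * (i * Sg) * cP ^ 2 := by ring
    _ = 4 * cJ * (S * cP ^ 2) := by rw [h8]; ring
    _ = 8 * cJ ^ 3 := by rw [h2]; ring

end Cfsg.Agent.H6.KleinOrder
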