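import Mathlib
import Cfsg.Agent.Lib.Helper23.Contrib4

/-! Parity of the number of characters of a 2-block all of whose characters have height zero
(adapted from `Helper23.Contrib.exists_odd_diag`). -/

set_option autoImplicit false
open Cfsg Cfsg.Agent.CharLib Cfsg.Agent.BlockLib Cfsg.Agent.Lib.Helper23 Cfsg.Agent.Lib.Helper23.MinMax
  Cfsg.Agent.Lib.Helper23.Trunc Cfsg.Agent.H6.BlockSection Cfsg.Agent.Lib.Helper23.Sect
  Cfsg.Agent.Lib.Helper23.Subsect Cfsg.Agent.Lib.Helper23.Contrib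
open scoped ComplexConjugate

namespace Cfsg.Agent.H6.KleinParity

universe u
variable {G : Type u} [Group G] [Fintype G]

open Classical in
theorem exists_odd_diag_eq {M : Ideal AlgInt} (hM : IsPModular 2 M)
    {y : G} {s : ℕ} (hy : orderOf y = 2 ^ s) [Fintype (Subgroup.centralizer ({y} : Set G))]
    {b : Set (IrrCharacter (Subgroup.centralizer ({y} : Set G)))}
    {B : Set (IrrCharacter G)}
    (hind : IsInducedBlock M (Subgroup.centralizer ({y} : Set G)) b B)
    (hall : ∀ χ ∈ B, (charDegree (χ : G → ℂ)).factorization 2 = minExp 2 B) :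
    ∃ a : IrrCharacter G → ℤ,
      (∀ χ ∈ Finset.univ.filter (fun χ : IrrCharacter G => χ ∈ B), Odd (a χ)) ∧
      ∑ χ ∈ Finset.univ.filter (fun χ : IrrCharacter G => χ ∈ B), a χ =
        2 ^ blockDefect 2 b * (blockRank 2 b : ℤ) := by
  have hp : Nat.Prime 2 := hM.1
  have : Fact (Nat.Prime 2) := ⟨hp⟩
  have htop := ne_top_of_isPModular hM
  have hMp := isPrime_of_isPModular hM
  set F := Finset.univ.filter (fun χ : IrrCharacter G => χ ∈ B ∧
      (charDegree (χ : G → ℂ)).factorization 2 = minExp 2 B) with hF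
  set q := blockDefect 2 b with hq
  have hn0 : 2 ^ s ≠ 0 := pow_ne_zero _ hp.ne_zero
  have : NeZero (2 ^ s) := ⟨hn0⟩
  have hyH : y ∈ Subgroup.centralizer ({y} : Set G) := Subgroup.mem_centralizer_singleton_iff.2 rfl
  have hyc : ∀ h ∈ Subgroup.centralizer ({y} : Set G), y * h = h * y := fun h hh =>
    (Subgroup.mem_centralizer_singleton_iff.1 hh).symm
  have hys : y ^ (2 ^ s) = 1 := by rw [← hy, pow_orderOf_eq_one]
  have hsub : F ⊆ Finset.univ.filter (· ∈ B) := by
    intro χ hχ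
    exact Finset.mem_filter.2 ⟨Finset.mem_univ _, (Finset.mem_filter.1 hχ).2.1⟩
  have hord : ∀ v : (ZMod (2 ^ s))ˣ, orderOf (y ^ (v : ZMod (2 ^ s)).val) = 2 ^ s := by
    intro v
    have hcop : ((v : ZMod (2 ^ s)).val).Coprime (orderOf y) := by
      rw [hy]; exact ZMod.val_coe_unit_coprime v
    rw [Nat.Coprime.orderOf_pow hcop.symm, hy]
  have hcen : ∀ v : (ZMod (2 ^ s))ˣ, Subgroup.centralizer ({y} : Set G) =
      Subgroup.centralizer ({y ^ (v : ZMod (2 ^ s)).val} : Set G) := by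
    intro v
    have hcop : ((v : ZMod (2 ^ s)).val).Coprime (orderOf y) := by
      rw [hy]; exact ZMod.val_coe_unit_coprime v
    exact (centralizer_pow_of_coprime y hcop).symm
  set φ : ℝ := (Fintype.card (ZMod (2 ^ s))ˣ : ℝ) with hφ
  have hφ0 : 0 < φ := by
    rw [hφ]; exact_mod_cast Fintype.card_pos
  set R : IrrCharacter G → ℝ := fun χ => ∑ v : (ZMod (2 ^ s))ˣ, ∑ ψ ∈ Finset.univ.filter (· ∈ B),
    Complex.normSq (contrib 2 b (y ^ (v : ZMod (2 ^ s)).val) (χ : G → ℂ) (ψ : G → ℂ)) with hR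
  -- the averages are odd integers
  have hodd : ∀ χ : IrrCharacter G, ∃ a : ℤ, χ ∈ F → (Odd a ∧ (2 : ℝ) ^ q * R χ = φ * a) := by
    intro χ
    by_cases hχ : χ ∈ F
    swap
    · exact ⟨0, fun h => absurd h hχ⟩
    obtain ⟨-, hχB, hχ0⟩ := Finset.mem_filter.1 hχ
    obtain ⟨N, hNsym, hN⟩ := exists_galois_form_self hp b χ hyH hyc
    have hρ : ∀ i : IrrCharacter (Subgroup.centralizer ({y} : Set G)) ×
        IrrCharacter (Subgroup.centralizer ({y} : Set G)),
        (lam (i.1 : Subgroup.centralizer ({y} : Set G) → ℂ) ⟨y, hyH⟩ *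
          conj (lam (i.2 : Subgroup.centralizer ({y} : Set G) → ℂ) ⟨y, hyH⟩)) ^ (2 ^ s) = 1 := by
      intro i
      rw [mul_pow, ← map_pow, lam_pow_eq_one hyH hyc hys, lam_pow_eq_one hyH hyc hys, map_one,
        one_mul]
    have hsumodd : Odd (∑ i, N i) := by
      have h1 := contrib_unit hM hind hχB hχ0 hχB hχ0 (Subgroup.pow_mem _ hyH 1)
        (fun h hh => ((show Commute y h from hyc h hh).pow_left 1).eq) (k := s)
        (by rw [pow_one]; exact hys)
      rw [hN 1] at h1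
      have h2 : MemLocalIdeal M (∑ i : IrrCharacter (Subgroup.centralizer ({y} : Set G)) ×
          IrrCharacter (Subgroup.centralizer ({y} : Set G)), (N i : ℂ) *
          (lam (i.1 : Subgroup.centralizer ({y} : Set G) → ℂ) ⟨y, hyH⟩ *
          conj (lam (i.2 : Subgroup.centralizer ({y} : Set G) → ℂ) ⟨y, hyH⟩)) ^ 1 -
          ((∑ i, N i : ℤ) : ℂ)) := by
        push_cast
        rw [← Finset.sum_sub_distrib]
        apply memLocalIdeal_sum
        intro i _
        rw [pow_one, ← mul_sub_one]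
        exact memLocalIdeal_mul_left (memLocalRing_intCast htop _)
          (memLocalIdeal_sub_one_of_pow_eq_one hM (hρ i))
      rw [← Int.not_even_iff_odd, even_iff_two_dvd]
      intro hd
      apply h1
      have h3 : MemLocalIdeal M ((∑ i, N i : ℤ) : ℂ) :=
        (memLocalIdeal_intCast_iff hM _).2 (by exact_mod_cast hd)
      have := memLocalIdeal_add h2 h3
      rwa [sub_add_cancel] at this
    obtain ⟨a, ha, hsum⟩ := GalAvg.avg_odd s N _ hρ Prod.swap (fun i => Prod.swap_swap i) hNsym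
      (by
        rintro ⟨ξ, ξ'⟩
        simp only [Prod.swap, map_mul, Complex.conj_conj]
        ring) hsumodd
    refine ⟨a, fun _ => ⟨ha, ?_⟩⟩
    have hc : (((2 : ℝ) ^ q * R χ : ℝ) : ℂ) = ((φ * a : ℝ) : ℂ) := by
      rw [hR, hφ]
      push_cast
      rw [← hsum, Finset.mul_sum]
      apply Finset.sum_congr rfl
      intro v _
      rw [← hN, contrib_self_eq hM (hord v) (hcen v) hind χ]
      push_cast
      rfl
    exact_mod_cast hc
  choose a ha using hodd
  have hFB : F = Finset.univ.filter (fun χ : IrrCharacter G => χ ∈ B) := by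
    rw [hF]
    ext χ
    simp only [Finset.mem_filter, Finset.mem_univ, true_and]
    exact ⟨fun h => h.1, fun h => ⟨h, hall χ h⟩⟩
  have hup : ∑ χ ∈ F, R χ = φ * (blockRank 2 b : ℝ) := by
    rw [hFB, hR, Finset.sum_comm]
    have : ∀ v : (ZMod (2 ^ s))ˣ, ∑ χ ∈ Finset.univ.filter (· ∈ B),
        ∑ ψ ∈ Finset.univ.filter (· ∈ B),
        Complex.normSq (contrib 2 b (y ^ (v : ZMod (2 ^ s)).val) (χ : G → ℂ) (ψ : G → ℂ)) =
        (blockRank 2 b : ℝ) := fun v => sum_normSq_contrib hM (hord v) (hcen v) hind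
    simp only [this, Finset.sum_const, Finset.card_univ, nsmul_eq_mul]
    rfl
  rw [← hFB]
  refine ⟨a, fun χ hχ => (ha χ hχ).1, ?_⟩
  have h1 : φ * ((∑ χ ∈ F, a χ : ℤ) : ℝ) = φ * ((2 : ℝ) ^ q * (blockRank 2 b : ℝ)) := by
    push_cast
    rw [Finset.mul_sum]
    calc ∑ χ ∈ F, φ * (a χ : ℝ) = ∑ χ ∈ F, (2 : ℝ) ^ q * R χ :=
          Finset.sum_congr rfl fun χ hχ => ((ha χ hχ).2).symm
      _ = (2 : ℝ) ^ q * ∑ χ ∈ F, R χ := by rw [Finset.mul_sum]
      _ = (2 : ℝ) ^ q * (φ * (blockRank 2 b : ℝ)) := by rw [hup]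
      _ = _ := by ring
  have h2 := mul_left_cancel₀ hφ0.ne' h1
  exact_mod_cast h2

theorem even_sum_iff_of_odd {ι : Type*} (s : Finset ι) (a : ι → ℤ) (h : ∀ i ∈ s, Odd (a i)) :
    Even (∑ i ∈ s, a i) ↔ Even s.card := by
  classical
  induction s using Finset.induction_on with
  | empty => simp
  | insert i s hi ih =>
    have h1 := h i (Finset.mem_insert_self i s)
    have h2 := ih (fun j hj => h j (Finset.mem_insert_of_mem hj))
    rw [Finset.sum_insert hi, Finset.card_insert_of_notMem hi, Int.even_add', Nat.even_add_one,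
      ← h2, Int.not_even_iff_odd]
    exact ⟨fun h3 => h3.mp h1, fun h3 => ⟨fun _ => h3, fun _ => h1⟩⟩

theorem even_card {M : Ideal AlgInt} (hM : IsPModular 2 M)
    {y : G} {s : ℕ} (hy : orderOf y = 2 ^ s)
    {b : Set (IrrCharacter (Subgroup.centralizer ({y} : Set G)))}
    {B : Set (IrrCharacter G)}
    (hind : IsInducedBlock M (Subgroup.centralizer ({y} : Set G)) b B)
    (hall : ∀ χ ∈ B, (charDegree (χ : G → ℂ)).factorization 2 = minExp 2 B)
    (hq : 1 ≤ blockDefect 2 b) : Even (Nat.card B) := by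
  classical
  obtain ⟨a, ha, hsum⟩ := exists_odd_diag_eq hM hy hind hall
  have h1 : Even (∑ χ ∈ Finset.univ.filter (fun χ : IrrCharacter G => χ ∈ B), a χ) := by
    rw [hsum]
    apply Even.mul_right
    exact (even_two).pow_of_ne_zero (by omega)
  rw [even_sum_iff_of_odd _ a ha] at h1
  rwa [Nat.card_eq_fintype_card, Fintype.card_subtype]

end Cfsg.Agent.H6.KleinParity
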