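import Mathlib
import Cfsg.Prelude.Def_Blocks
import Cfsg.Prelude.Def_BlockLocal
import Cfsg.Agent.BlockLib.LocalRing

/-!
# Perfect isometries between blocks with four characters: the abstract part
-/

set_option autoImplicit false
open Cfsg Cfsg.Agent.BlockLib

namespace Cfsg.Agent.H6.PerfK

variable {M : Ideal AlgInt} [M.IsPrime]

/-- pointwise data of type I -/
structure T1 (M : Ideal AlgInt) (a0 a1 a2 a3 n : ℂ) (reg : Prop) : Prop where
  q0 : MemLocalRing M ((a0 + a1 + a2 + a3) / 4)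
  q1 : MemLocalRing M ((a0 + a1 - a2 - a3) / 4)
  q2 : MemLocalRing M ((a0 - a1 + a2 - a3) / 4)
  q3 : MemLocalRing M ((a0 - a1 - a2 + a3) / 4)
  c0 : MemLocalRing M ((a0 + a1 + a2 + a3) / n)
  c1 : MemLocalRing M ((a0 + a1 - a2 - a3) / n)
  c2 : MemLocalRing M ((a0 - a1 + a2 - a3) / n)
  c3 : MemLocalRing M ((a0 - a1 - a2 + a3) / n)
  hreg : reg → a0 + a1 - a2 - a3 = 0 ∧ a0 - a1 + a2 - a3 = 0 ∧ a0 - a1 - a2 + a3 = 0
  hsing : ¬ reg → a0 + a1 + a2 + a3 = 0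

theorem T1.left {a0 a1 a2 a3 n b0 b1 b2 b3 n' : ℂ} {r r' : Prop} (ha : T1 M a0 a1 a2 a3 n r)
    (hb : T1 M b0 b1 b2 b3 n' r') :
    MemLocalRing M ((a0 * b0 + a1 * b1 + a2 * b2 + a3 * b3) / n) := by
  have h : (a0 * b0 + a1 * b1 + a2 * b2 + a3 * b3) / n =
      (a0 + a1 + a2 + a3) / n * ((b0 + b1 + b2 + b3) / 4) +
      (a0 + a1 - a2 - a3) / n * ((b0 + b1 - b2 - b3) / 4) +
      (a0 - a1 + a2 - a3) / n * ((b0 - b1 + b2 - b3) / 4) +
      (a0 - a1 - a2 + a3) / n * ((b0 - b1 - b2 + b3) / 4) := by ring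
  rw [h]
  exact memLocalRing_add (memLocalRing_add (memLocalRing_add (memLocalRing_mul ha.c0 hb.q0)
    (memLocalRing_mul ha.c1 hb.q1)) (memLocalRing_mul ha.c2 hb.q2)) (memLocalRing_mul ha.c3 hb.q3)

omit [M.IsPrime] in
theorem T1.sep {a0 a1 a2 a3 n b0 b1 b2 b3 n' : ℂ} {r r' : Prop} (ha : T1 M a0 a1 a2 a3 n r)
    (hb : T1 M b0 b1 b2 b3 n' r') :
    (r ↔ r') ∨ a0 * b0 + a1 * b1 + a2 * b2 + a3 * b3 = 0 := by
  have h : (a0 * b0 + a1 * b1 + a2 * b2 + a3 * b3) =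
      ((a0 + a1 + a2 + a3) * (b0 + b1 + b2 + b3) +
      (a0 + a1 - a2 - a3) * (b0 + b1 - b2 - b3) +
      (a0 - a1 + a2 - a3) * (b0 - b1 + b2 - b3) +
      (a0 - a1 - a2 + a3) * (b0 - b1 - b2 + b3)) / 4 := by ring
  by_cases hr : r <;> by_cases hr' : r'
  · exact Or.inl ⟨fun _ => hr', fun _ => hr⟩
  · right
    obtain ⟨h1, h2, h3⟩ := ha.hreg hr
    rw [h, h1, h2, h3, hb.hsing hr']
    ring
  · right
    obtain ⟨h1, h2, h3⟩ := hb.hreg hr'
    rw [h, h1, h2, h3, ha.hsing hr]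
    ring
  · exact Or.inl ⟨fun h => absurd h hr, fun h => absurd h hr'⟩

/-- pointwise data of type III -/
structure T3 (M : Ideal AlgInt) (a0 a1 a2 a3 n : ℂ) (reg : Prop) : Prop where
  i0 : MemLocalRing M a0
  i1 : MemLocalRing M a1
  i2 : MemLocalRing M a2
  q : MemLocalRing M ((a0 + a1 + a2 + a3) / 4)
  d0 : MemLocalRing M ((a0 - a3) / n)
  d1 : MemLocalRing M ((a1 - a3) / n)
  d2 : MemLocalRing M ((a2 - a3) / n)
  c : MemLocalRing M (4 * a3 / n)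
  hreg : reg → a0 + a1 + a2 + a3 = 0
  hsing : ¬ reg → a0 = a3 ∧ a1 = a3 ∧ a2 = a3

theorem T3.left {a0 a1 a2 a3 n b0 b1 b2 b3 n' : ℂ} {r r' : Prop} (ha : T3 M a0 a1 a2 a3 n r)
    (hb : T3 M b0 b1 b2 b3 n' r') :
    MemLocalRing M ((a0 * b0 + a1 * b1 + a2 * b2 + a3 * b3) / n) := by
  have h : (a0 * b0 + a1 * b1 + a2 * b2 + a3 * b3) / n =
      (a0 - a3) / n * b0 + (a1 - a3) / n * b1 + (a2 - a3) / n * b2 +
      4 * a3 / n * ((b0 + b1 + b2 + b3) / 4) := by ring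
  rw [h]
  exact memLocalRing_add (memLocalRing_add (memLocalRing_add (memLocalRing_mul ha.d0 hb.i0)
    (memLocalRing_mul ha.d1 hb.i1)) (memLocalRing_mul ha.d2 hb.i2)) (memLocalRing_mul ha.c hb.q)

omit [M.IsPrime] in
theorem T3.sep {a0 a1 a2 a3 n b0 b1 b2 b3 n' : ℂ} {r r' : Prop} (ha : T3 M a0 a1 a2 a3 n r)
    (hb : T3 M b0 b1 b2 b3 n' r') :
    (r ↔ r') ∨ a0 * b0 + a1 * b1 + a2 * b2 + a3 * b3 = 0 := by
  by_cases hr : r <;> by_cases hr' : r'
  · exact Or.inl ⟨fun _ => hr', fun _ => hr⟩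
  · right
    obtain ⟨h1, h2, h3⟩ := hb.hsing hr'
    have h0 := ha.hreg hr
    rw [h1, h2, h3]
    linear_combination b3 * h0
  · right
    obtain ⟨h1, h2, h3⟩ := ha.hsing hr
    have h0 := hb.hreg hr'
    rw [h1, h2, h3]
    linear_combination a3 * h0
  · exact Or.inl ⟨fun h => absurd h hr, fun h => absurd h hr'⟩

/-- sums over a four-element set -/
theorem finsum_mem_four {α : Type*} {A : Type*} [AddCommMonoid A] {B : Set α} (e : Fin 4 ≃ B)
    (f : α → A) : ∑ᶠ a ∈ B, f a = f (e 0) + f (e 1) + f (e 2) + f (e 3) := by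
  haveI : Finite B := Finite.of_equiv _ e
  haveI := Fintype.ofFinite B
  rw [← Fin.sum_univ_four (fun i => f (e i)), Equiv.sum_comp e (fun b : B => f b),
    finsum_mem_eq_finite_toFinset_sum f (Set.toFinite B)]
  simp only [Set.toFinite_toFinset]
  exact (Finset.sum_subtype _ (fun x => Set.mem_toFinset) f)

/-- sums of functions supported on a four-element set -/
theorem sum_four {α : Type*} [Fintype α] {A : Type*} [AddCommMonoid A] {B : Set α} (e : Fin 4 ≃ B)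
    (f : α → A) (hf : ∀ a, a ∉ B → f a = 0) :
    ∑ a, f a = f (e 0) + f (e 1) + f (e 2) + f (e 3) := by
  rw [← finsum_mem_four e f, finsum_mem_eq_finite_toFinset_sum f (Set.toFinite B)]
  symm
  apply Finset.sum_subset (Finset.subset_univ _)
  intro a _ ha
  apply hf
  simpa using ha

universe u v

open Classical in
omit [M.IsPrime] in
theorem perfect_of_enum {G : Type u} [Group G] {H : Type v} [Group H] {p : ℕ}
    {c : Set (IrrCharacter H)} {B : Set (IrrCharacter G)} (eB : Fin 4 ≃ B) (ec : Fin 4 ≃ c)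
    (s : Fin 4 → ℤ) (hs : ∀ i, s i = 1 ∨ s i = -1)
    (hμ : ∀ (x : G) (y : H), ∀ μ : ℂ,
      μ = (s 0 : ℂ) * ((eB 0 : IrrCharacter G) : G → ℂ) x * ((ec 0 : IrrCharacter H) : H → ℂ) y +
        (s 1 : ℂ) * ((eB 1 : IrrCharacter G) : G → ℂ) x * ((ec 1 : IrrCharacter H) : H → ℂ) y +
        (s 2 : ℂ) * ((eB 2 : IrrCharacter G) : G → ℂ) x * ((ec 2 : IrrCharacter H) : H → ℂ) y +
        (s 3 : ℂ) * ((eB 3 : IrrCharacter G) : G → ℂ) x * ((ec 3 : IrrCharacter H) : H → ℂ) y →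
      MemLocalRing M (μ / (Nat.card (Subgroup.centralizer ({x} : Set G)) : ℂ)) ∧
      MemLocalRing M (μ / (Nat.card (Subgroup.centralizer ({y} : Set H)) : ℂ)) ∧
      ((IsPRegular p x ↔ IsPRegular p y) ∨ μ = 0)) :
    ∃ (I : IrrCharacter H → IrrCharacter G) (ε : IrrCharacter H → ℤ),
      IsPerfectIsometry p M c B I ε := by
  refine ⟨fun η => if h : η ∈ c then (eB (ec.symm ⟨η, h⟩) : IrrCharacter G) else eB 0,
    fun η => if h : η ∈ c then s (ec.symm ⟨η, h⟩) else 1, ⟨?_, ?_, ?_⟩, ?_, ?_⟩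
  · intro η hη
    simp only [dif_pos hη]
    exact (eB _).2
  · intro η hη η' hη' h
    simp only [dif_pos hη, dif_pos hη'] at h
    have h1 := eB.injective (Subtype.ext h)
    have h2 := ec.symm.injective h1
    exact congrArg Subtype.val h2
  · intro χ hχ
    refine ⟨ec (eB.symm ⟨χ, hχ⟩), (ec _).2, ?_⟩
    simp
  · intro η hη
    simp only [dif_pos hη]
    exact hs _
  · intro x y
    apply hμ x y
    unfold signedBijectionKernel
    rw [finsum_mem_four ec]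
    simp

end Cfsg.Agent.H6.PerfK
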