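import Cfsg.Agent.H6.ProjLat2
import Cfsg.Agent.H6.PerfK1

/-!
# Integrality lemmas for perfect isometries
-/

set_option autoImplicit false
open Cfsg Cfsg.Agent.CharLib Cfsg.Agent.CharLib.L Cfsg.Agent.BlockLib Cfsg.Agent.Lib.Helper23
  Cfsg.Agent.Lib.Helper23.MinMax
  Cfsg.Agent.Lib.Helper23.Trunc Cfsg.Agent.H6.BlockSection Cfsg.Agent.Lib.Helper23.Sect
  Cfsg.Agent.Lib.Helper23.Subsect Cfsg.Agent.Lib.Helper23.Contrib Cfsg.Agent.H6.MajorSub
  Cfsg.Agent.H6.BinLattice Cfsg.Agent.H6.ProjLat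
open scoped ComplexConjugate

namespace Cfsg.Agent.H6.PerfK

universe u
variable {G : Type u} [Group G] [Fintype G]

local notation "Ce(" g ")" => Subgroup.centralizer (Singleton.singleton g : Set _)

/-- the height bound -/
theorem memLocalRing_height {p : ℕ} {M : Ideal AlgInt} (hM : IsPModular p M)
    {B : Set (IrrCharacter G)} {χ : IrrCharacter G} (hχ : χ ∈ B) (x : G) :
    MemLocalRing M ((p : ℂ) ^ blockDefect p B * (χ : G → ℂ) x / (Nat.card Ce(x) : ℂ)) := by
  have hMp := isPrime_of_isPModular hM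
  have htop := ne_top_of_isPModular hM
  have h : (p : ℂ) ^ blockDefect p B * (χ : G → ℂ) x / (Nat.card Ce(x) : ℂ) =
      sdeg p B (χ : G → ℂ) * centralChar (χ : G → ℂ) x := by
    have h1 : (Nat.card G : ℂ) = (Nat.card Ce(x) : ℂ) * (Ce(x).index : ℂ) := by
      rw [← Subgroup.card_mul_index Ce(x)]; push_cast; rfl
    have h2 : (Nat.card Ce(x) : ℂ) ≠ 0 := by exact_mod_cast Nat.card_pos.ne'
    have h3 : (Ce(x).index : ℂ) ≠ 0 := by
      exact_mod_cast (Subgroup.index_ne_zero_of_finite (H := Ce(x)))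
    have h4 := irr_apply_one_ne_zero χ
    rw [sdeg, centralChar, h1]
    field_simp
  rw [h]
  exact memLocalRing_mul (memLocalRing_sdeg hM hχ)
    (memLocalRing_of_isIntegral htop (isIntegral_centralChar_irr χ.2 x))

/-- the average of a shifted character over a subgroup of the centralizer is integral -/
theorem memLocalRing_avg {M : Ideal AlgInt} [M.IsPrime] (χ : IrrCharacter G) (x : G)
    (Q : Subgroup Ce(x)) [Fintype Q] :
    MemLocalRing M ((∑ q : Q, (χ : G → ℂ) (x * ((q : Ce(x)) : G))) / (Nat.card Q : ℂ)) := by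
  classical
  have htop : M ≠ ⊤ := Ideal.IsPrime.ne_top ‹_›
  haveI : Fintype Ce(x) := Fintype.ofFinite _
  have hxH : x ∈ Ce(x) := Subgroup.mem_centralizer_singleton_iff.2 rfl
  have hxc : ∀ h ∈ Ce(x), x * h = h * x := fun h hh =>
    (Subgroup.mem_centralizer_singleton_iff.1 hh).symm
  have hexp := classFunction_eq_sum (isClassFunction_shift (isClassFunction_of_irr χ.2) x)
  have h1 : ∀ q : Q, (χ : G → ℂ) (x * ((q : Ce(x)) : G)) =
      ∑ ξ : IrrCharacter Ce(x), classInner (fun c : Ce(x) => (χ : G → ℂ) (x * c)) (ξ : Ce(x) → ℂ) *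
        (ξ : Ce(x) → ℂ) q := by
    intro q
    have := congrFun hexp (q : Ce(x))
    rw [Finset.sum_apply] at this
    simpa using this
  rw [Finset.sum_congr rfl (fun q _ => h1 q), Finset.sum_comm, Finset.sum_div]
  apply memLocalRing_sum
  intro ξ _
  rw [← Finset.mul_sum, mul_div_assoc]
  apply memLocalRing_mul (memLocalRing_coef χ hxH hxc (orderOf_pos x) (pow_orderOf_eq_one x) ξ)
  obtain ⟨n, hn⟩ := classInner_char_nat (isCharacter_restrict (isCharacter_of_irr ξ.2) Q)
    (isCharacter_of_irr (isIrrCharacter_one (G := Q)))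
  have : (∑ q : Q, (ξ : Ce(x) → ℂ) q) / (Nat.card Q : ℂ) = n := by
    rw [← hn, classInner, div_eq_inv_mul]
    simp
  rw [this]
  exact memLocalRing_natCast htop n

/-- generalized characters vanishing on the `p`-singular elements -/
theorem memLocalRing_div_of_vanish {p : ℕ} {M : Ideal AlgInt} (hM : IsPModular p M)
    (a : IrrCharacter G → ℤ) (hv : ∀ g : G, p ∣ orderOf g → io a g = 0) (x : G) :
    MemLocalRing M (io a x / (Nat.card Ce(x) : ℂ)) := by
  classical
  have hMp := isPrime_of_isPModular hM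
  have htop := ne_top_of_isPModular hM
  have hp := hM.1
  haveI : Fact p.Prime := ⟨hp⟩
  by_cases hx : p ∣ orderOf x
  · rw [hv x hx, zero_div]; exact memLocalRing_zero htop
  obtain ⟨Q⟩ : Nonempty (Sylow p Ce(x)) := inferInstance
  haveI : Fintype (Q : Subgroup Ce(x)) := Fintype.ofFinite _
  have hsum : ∑ q : (Q : Subgroup Ce(x)), io a (x * ((q : Ce(x)) : G)) = io a x := by
    rw [Finset.sum_eq_single (1 : (Q : Subgroup Ce(x)))]
    · simp
    · intro y _ hy
      apply hv
      obtain ⟨k, hk⟩ := (IsPGroup.iff_orderOf.1 Q.2) y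
      have hk0 : k ≠ 0 := by
        rintro rfl
        rw [pow_zero, orderOf_eq_one_iff] at hk
        exact hy hk
      have hoy : orderOf (((y : Ce(x)) : G)) = p ^ k := by
        rw [Subgroup.orderOf_coe, Subgroup.orderOf_coe, hk]
      have hcomm : Commute x ((y : Ce(x)) : G) :=
        (Subgroup.mem_centralizer_singleton_iff.1 (y : Ce(x)).2).symm
      have hcop : (orderOf x).Coprime (orderOf (((y : Ce(x)) : G))) := by
        rw [hoy]
        exact Nat.Coprime.pow_right k ((Nat.Prime.coprime_iff_not_dvd hp).2 hx).symm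
      rw [hcomm.orderOf_mul_eq_mul_orderOf_of_coprime hcop, hoy]
      exact Dvd.dvd.mul_left (dvd_pow_self p hk0) _
    · intro h; exact absurd (Finset.mem_univ _) h
  have hQ : MemLocalRing M (io a x / (Nat.card (Q : Subgroup Ce(x)) : ℂ)) := by
    rw [← hsum]
    have h1 : ∀ q : (Q : Subgroup Ce(x)), io a (x * ((q : Ce(x)) : G)) =
        ∑ χ : IrrCharacter G, (a χ : ℂ) * (χ : G → ℂ) (x * ((q : Ce(x)) : G)) := by
      intro q
      unfold io
      rw [Finset.sum_apply]
      simp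
    rw [Finset.sum_congr rfl (fun q _ => h1 q), Finset.sum_comm, Finset.sum_div]
    apply memLocalRing_sum
    intro χ _
    rw [← Finset.mul_sum, mul_div_assoc]
    exact memLocalRing_mul (memLocalRing_intCast htop _) (memLocalRing_avg χ x _)
  have hidx : ¬ p ∣ (Q : Subgroup Ce(x)).index := Q.not_dvd_index
  have hcard : (Nat.card Ce(x) : ℂ) = (Nat.card (Q : Subgroup Ce(x)) : ℂ) *
      ((Q : Subgroup Ce(x)).index : ℂ) := by
    rw [← Subgroup.card_mul_index (Q : Subgroup Ce(x))]; push_cast; rfl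
  rw [hcard, div_mul_eq_div_div, div_eq_mul_inv]
  exact memLocalRing_mul hQ (memLocalRing_natCast_inv hM hidx)

/-- the congruence modulo `2` for involutions -/
theorem memLocalRing_half_sub {M : Ideal AlgInt} [M.IsPrime] (χ : IrrCharacter G) {u s : G}
    (hu : u ^ 2 = 1) (hc : Commute u s) :
    MemLocalRing M (((χ : G → ℂ) (u * s) - (χ : G → ℂ) s) / 2) := by
  classical
  have htop : M ≠ ⊤ := Ideal.IsPrime.ne_top ‹_›
  haveI : Fintype Ce(u) := Fintype.ofFinite _
  have huH : u ∈ Ce(u) := Subgroup.mem_centralizer_singleton_iff.2 rfl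
  have huc : ∀ h ∈ Ce(u), u * h = h * u := fun h hh =>
    (Subgroup.mem_centralizer_singleton_iff.1 hh).symm
  have hsH : s ∈ Ce(u) := Subgroup.mem_centralizer_singleton_iff.2 hc.symm.eq
  have hexp := congrFun (classFunction_eq_sum
    (isClassFunction_shift (isClassFunction_of_irr χ.2) u)) ⟨s, hsH⟩
  have hexp' := congrFun (classFunction_eq_sum (isClassFunction_of_char
    (isCharacter_restrict (isCharacter_of_irr χ.2) Ce(u)))) ⟨s, hsH⟩
  rw [Finset.sum_apply] at hexp hexp'
  simp only [Pi.smul_apply, smul_eq_mul] at hexp hexp'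
  rw [hexp, hexp', ← Finset.sum_sub_distrib, Finset.sum_div]
  apply memLocalRing_sum
  intro ξ _
  rw [coef_eq χ huH huc]
  obtain ⟨m, hm⟩ := classInner_char_nat (isCharacter_restrict (isCharacter_of_irr χ.2) Ce(u))
    (isCharacter_of_irr ξ.2)
  rw [hm]
  have hl := lam_pow_eq_one huH huc hu ξ
  have hξ : MemLocalRing M ((ξ : Ce(u) → ℂ) ⟨s, hsH⟩) :=
    memLocalRing_of_isIntegral htop (isCharacter_isIntegral (isCharacter_of_irr ξ.2) _)
  have hl' : lam (ξ : Ce(u) → ℂ) ⟨u, huH⟩ = 1 ∨ lam (ξ : Ce(u) → ℂ) ⟨u, huH⟩ = -1 :=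
    by
    have : (lam (ξ : Ce(u) → ℂ) ⟨u, huH⟩ - 1) * (lam (ξ : Ce(u) → ℂ) ⟨u, huH⟩ + 1) = 0 := by
      linear_combination hl
    rcases mul_eq_zero.mp this with h | h
    · left; linear_combination h
    · right; linear_combination h
  rcases hl' with h | h
  · rw [h]
    have : ((1 : ℂ) * (m : ℂ) * (ξ : Ce(u) → ℂ) ⟨s, hsH⟩ - (m : ℂ) * (ξ : Ce(u) → ℂ) ⟨s, hsH⟩) / 2
        = 0 := by ring
    rw [this]; exact memLocalRing_zero htop
  · rw [h]
    have : ((-1 : ℂ) * (m : ℂ) * (ξ : Ce(u) → ℂ) ⟨s, hsH⟩ - (m : ℂ) * (ξ : Ce(u) → ℂ) ⟨s, hsH⟩) / 2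
        = - ((m : ℂ) * (ξ : Ce(u) → ℂ) ⟨s, hsH⟩) := by ring
    rw [this]
    exact memLocalRing_neg (memLocalRing_mul (memLocalRing_natCast htop m) hξ)

end Cfsg.Agent.H6.PerfK
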