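import Mathlib

/-!
# An integral idempotent-type matrix of size four and trace twelve
-/

set_option autoImplicit false

namespace Cfsg.Agent.H6.PerfK

theorem pm_of_sq_sum {a b c : ℤ} (h : a ^ 2 + b ^ 2 + c ^ 2 = 3) :
    (a = 1 ∨ a = -1) ∧ (b = 1 ∨ b = -1) ∧ (c = 1 ∨ c = -1) := by
  have ha1 : a ≤ 1 := by nlinarith [sq_nonneg b, sq_nonneg c]
  have ha2 : -1 ≤ a := by nlinarith [sq_nonneg b, sq_nonneg c]
  have hb1 : b ≤ 1 := by nlinarith [sq_nonneg a, sq_nonneg c]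
  have hb2 : -1 ≤ b := by nlinarith [sq_nonneg a, sq_nonneg c]
  have hc1 : c ≤ 1 := by nlinarith [sq_nonneg b, sq_nonneg a]
  have hc2 : -1 ≤ c := by nlinarith [sq_nonneg b, sq_nonneg a]
  interval_cases a <;> interval_cases b <;> interval_cases c <;> simp_all

theorem diag_le {a b c d : ℤ} (h : a ^ 2 + b ^ 2 + c ^ 2 + d ^ 2 = 4 * a) (h4 : a ≠ 4) : a ≤ 3 := by
  have : a ≤ 4 := by nlinarith [sq_nonneg b, sq_nonneg c, sq_nonneg d]
  omega

theorem row_eq {r0 r1 r2 r3 s0 s1 s2 s3 ε : ℤ} (hr0 : r0 = 1 ∨ r0 = -1) (hr1 : r1 = 1 ∨ r1 = -1)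
    (hr2 : r2 = 1 ∨ r2 = -1) (hr3 : r3 = 1 ∨ r3 = -1) (hs0 : s0 = 1 ∨ s0 = -1)
    (hs1 : s1 = 1 ∨ s1 = -1) (hs2 : s2 = 1 ∨ s2 = -1) (hs3 : s3 = 1 ∨ s3 = -1)
    (hε : ε = 1 ∨ ε = -1) (h : r0 * s0 + r1 * s1 + r2 * s2 + r3 * s3 = 4 * ε) :
    s0 = ε * r0 ∧ s1 = ε * r1 ∧ s2 = ε * r2 ∧ s3 = ε * r3 := by
  rcases hr0 with rfl | rfl <;> rcases hr1 with rfl | rfl <;> rcases hr2 with rfl | rfl <;>
  rcases hr3 with rfl | rfl <;> rcases hε with rfl | rfl <;>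
  (refine ⟨?_, ?_, ?_, ?_⟩ <;> omega)

theorem neg_pm {a : ℤ} (h : a = 1 ∨ a = -1) : -a = 1 ∨ -a = -1 := by
  rcases h with rfl | rfl <;> simp

/-- the structure of the matrix -/
theorem matrix_structure (t : Fin 4 → Fin 4 → ℤ)
    (hG : ∀ i k, t i 0 * t k 0 + t i 1 * t k 1 + t i 2 * t k 2 + t i 3 * t k 3 = 4 * t i k)
    (hT : t 0 0 + t 1 1 + t 2 2 + t 3 3 = 12) (hN : ∀ i, t i i ≠ 4) :
    ∃ δ : Fin 4 → ℤ, (∀ i, δ i = 1 ∨ δ i = -1) ∧
      ∀ j k, (if j = k then 4 else 0) - t j k = δ j * δ k := by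
  have h0 := diag_le (a := t 0 0) (b := t 0 1) (c := t 0 2) (d := t 0 3)
    (by have := hG 0 0; nlinarith) (hN 0)
  have h1 := diag_le (a := t 1 1) (b := t 1 0) (c := t 1 2) (d := t 1 3)
    (by have := hG 1 1; nlinarith) (hN 1)
  have h2 := diag_le (a := t 2 2) (b := t 2 0) (c := t 2 1) (d := t 2 3)
    (by have := hG 2 2; nlinarith) (hN 2)
  have h3 := diag_le (a := t 3 3) (b := t 3 0) (c := t 3 1) (d := t 3 2)
    (by have := hG 3 3; nlinarith) (hN 3)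
  have e0 : t 0 0 = 3 := by omega
  have e1 : t 1 1 = 3 := by omega
  have e2 : t 2 2 = 3 := by omega
  have e3 : t 3 3 = 3 := by omega
  obtain ⟨a01, a02, a03⟩ := pm_of_sq_sum (a := t 0 1) (b := t 0 2) (c := t 0 3)
    (by have := hG 0 0; rw [e0] at this; nlinarith)
  obtain ⟨a10, a12, a13⟩ := pm_of_sq_sum (a := t 1 0) (b := t 1 2) (c := t 1 3)
    (by have := hG 1 1; rw [e1] at this; nlinarith)
  obtain ⟨a20, a21, a23⟩ := pm_of_sq_sum (a := t 2 0) (b := t 2 1) (c := t 2 3)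
    (by have := hG 2 2; rw [e2] at this; nlinarith)
  obtain ⟨a30, a31, a32⟩ := pm_of_sq_sum (a := t 3 0) (b := t 3 1) (c := t 3 2)
    (by have := hG 3 3; rw [e3] at this; nlinarith)
  have g01 := hG 0 1
  have g02 := hG 0 2
  have g03 := hG 0 3
  have g10 := hG 1 0
  have g20 := hG 2 0
  have g30 := hG 3 0
  rw [e0] at g01 g02 g03 g10 g20 g30
  rw [e1] at g01 g10
  rw [e2] at g02 g20
  rw [e3] at g03 g30
  refine ⟨fun j => (if (0 : Fin 4) = j then 4 else 0) - t 0 j, ?_, ?_⟩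
  · intro i
    fin_cases i
    · left; simp [e0]
    · rcases a01 with h | h <;> simp [h]
    · rcases a02 with h | h <;> simp [h]
    · rcases a03 with h | h <;> simp [h]
  · have R1 := row_eq (r0 := 1) (r1 := -t 0 1) (r2 := -t 0 2) (r3 := -t 0 3) (s0 := -t 1 0) (s1 := 1)
      (s2 := -t 1 2) (s3 := -t 1 3) (ε := -t 0 1) (Or.inl rfl) (neg_pm a01) (neg_pm a02)
      (neg_pm a03) (neg_pm a10) (Or.inl rfl) (neg_pm a12) (neg_pm a13) (neg_pm a01)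
      (by linear_combination g10)
    have R2 := row_eq (r0 := 1) (r1 := -t 0 1) (r2 := -t 0 2) (r3 := -t 0 3) (s0 := -t 2 0)
      (s1 := -t 2 1) (s2 := 1) (s3 := -t 2 3) (ε := -t 0 2) (Or.inl rfl) (neg_pm a01) (neg_pm a02)
      (neg_pm a03) (neg_pm a20) (neg_pm a21) (Or.inl rfl) (neg_pm a23) (neg_pm a02)
      (by linear_combination g20)
    have R3 := row_eq (r0 := 1) (r1 := -t 0 1) (r2 := -t 0 2) (r3 := -t 0 3) (s0 := -t 3 0)
      (s1 := -t 3 1) (s2 := -t 3 2) (s3 := 1) (ε := -t 0 3) (Or.inl rfl) (neg_pm a01) (neg_pm a02)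
      (neg_pm a03) (neg_pm a30) (neg_pm a31) (neg_pm a32) (Or.inl rfl) (neg_pm a03)
      (by linear_combination g30)
    obtain ⟨r10, r11, r12, r13⟩ := R1
    obtain ⟨r20, r21, r22, r23⟩ := R2
    obtain ⟨r30, r31, r32, r33⟩ := R3
    intro j k
    fin_cases j <;> fin_cases k <;> simp [e0, e1, e2, e3] <;> first | linarith | nlinarith

end Cfsg.Agent.H6.PerfK
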