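import Cfsg.Agent.H6.PerfK2
import Cfsg.Agent.H6.PerfK3

/-!
# Blocks of defect two with four characters and rank three
-/

set_option autoImplicit false
open Cfsg Cfsg.Agent.CharLib Cfsg.Agent.CharLib.L Cfsg.Agent.BlockLib Cfsg.Agent.Lib.Helper23
  Cfsg.Agent.Lib.Helper23.MinMax
  Cfsg.Agent.Lib.Helper23.Trunc Cfsg.Agent.H6.BlockSection Cfsg.Agent.Lib.Helper23.Sect
  Cfsg.Agent.Lib.Helper23.Subsect Cfsg.Agent.Lib.Helper23.Contrib Cfsg.Agent.H6.MajorSub
  Cfsg.Agent.H6.BinLattice Cfsg.Agent.H6.ProjLat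
open scoped ComplexConjugate

namespace Cfsg.Agent.H6.PerfK

universe u
variable {G : Type u} [Group G] [Fintype G]

local notation "Ce(" g ")" => Subgroup.centralizer (Singleton.singleton g : Set _)

open Classical in
theorem io_single (ξ : IrrCharacter G) (n : ℤ) : io (Pi.single ξ n) = (n : ℂ) • (ξ : G → ℂ) := by
  unfold io
  rw [Finset.sum_eq_single ξ]
  · rw [Pi.single_eq_same]
  · intro b _ hb
    rw [Pi.single_eq_of_ne hb]; simp
  · intro h; exact absurd (Finset.mem_univ _) h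

theorem io_apply_four {B : Set (IrrCharacter G)} (e : Fin 4 ≃ B) (a : IrrCharacter G → ℤ)
    (ha : ∀ ξ, ξ ∉ B → a ξ = 0) (x : G) :
    io a x = (a (e 0) : ℂ) * ((e 0 : IrrCharacter G) : G → ℂ) x +
      (a (e 1) : ℂ) * ((e 1 : IrrCharacter G) : G → ℂ) x +
      (a (e 2) : ℂ) * ((e 2 : IrrCharacter G) : G → ℂ) x +
      (a (e 3) : ℂ) * ((e 3 : IrrCharacter G) : G → ℂ) x := by
  unfold io
  rw [Finset.sum_apply]
  simp only [Pi.smul_apply, smul_eq_mul]
  exact sum_four e (fun ξ : IrrCharacter G => (a ξ : ℂ) * (ξ : G → ℂ) x)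
    (fun ξ hξ => by simp only [ha ξ hξ, Int.cast_zero, zero_mul])

theorem not_vanish {M : Ideal AlgInt} (hM : IsPModular 2 M) {B : Set (IrrCharacter G)}
    (hd : blockDefect 2 B = 2)
    (hall : ∀ χ ∈ B, (charDegree (χ : G → ℂ)).factorization 2 = minExp 2 B)
    {χ : IrrCharacter G} (hχ : χ ∈ B) :
    ¬ ∀ g : G, 2 ∣ orderOf g → (χ : G → ℂ) g = 0 := by
  intro h
  have hp := hM.1
  obtain ⟨z, hz⟩ := pow_dvd_of_vanish hp
    ⟨_, 0, isCharacter_of_irr χ.2, isCharacter_zero, (sub_zero _).symm⟩ h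
  rw [← charDegree_cast_irr] at hz
  have hz' : (charDegree (χ : G → ℂ) : ℤ) = (2 : ℤ) ^ (Nat.card G).factorization 2 * z := by
    exact_mod_cast hz
  have hdvd : 2 ^ (Nat.card G).factorization 2 ∣ charDegree (χ : G → ℂ) := by
    have : ((2 ^ (Nat.card G).factorization 2 : ℕ) : ℤ) ∣ (charDegree (χ : G → ℂ) : ℤ) := by
      rw [hz']; push_cast; exact Dvd.intro _ rfl
    exact_mod_cast this
  have h1 := (hp.pow_dvd_iff_le_factorization (charDegree_pos_irr χ).ne').1 hdvd
  rw [hall χ hχ] at h1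
  rw [blockDefect_eq] at hd
  omega

open Classical in
theorem exists_T3 {M : Ideal AlgInt} (hM : IsPModular 2 M) {B : Set (IrrCharacter G)}
    (hB : IsPBlock M B) (hd : blockDefect 2 B = 2)
    (hall : ∀ χ ∈ B, (charDegree (χ : G → ℂ)).factorization 2 = minExp 2 B)
    (hl : blockRank 2 B = 3) (e : Fin 4 ≃ B) :
    ∃ δ : Fin 4 → ℤ, (∀ i, δ i = 1 ∨ δ i = -1) ∧ ∀ x : G,
      T3 M ((δ 0 : ℂ) * ((e 0 : IrrCharacter G) : G → ℂ) x)
        ((δ 1 : ℂ) * ((e 1 : IrrCharacter G) : G → ℂ) x)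
        ((δ 2 : ℂ) * ((e 2 : IrrCharacter G) : G → ℂ) x)
        ((δ 3 : ℂ) * ((e 3 : IrrCharacter G) : G → ℂ) x) (Nat.card Ce(x) : ℂ) (IsPRegular 2 x) := by
  have hMp := isPrime_of_isPModular hM
  have htop := ne_top_of_isPModular hM
  choose τ hτl hτ using fun i : Fin 4 => exists_tau hM hB (e i).2
  rw [hd] at hτ
  set t : Fin 4 → Fin 4 → ℤ := fun i j => τ i (e j) with ht
  have hG : ∀ i k, t i 0 * t k 0 + t i 1 * t k 1 + t i 2 * t k 2 + t i 3 * t k 3 = 4 * t i k := by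
    intro i k
    have h1 := dp_tau (hτl i) (ξ := (e k : IrrCharacter G)) (τ := τ k) (by rw [hd]; exact hτ k)
    rw [hd] at h1
    unfold dp at h1
    rw [sum_four e (fun ξ => τ i ξ * τ k ξ) (fun ξ hξ => by
      simp only [(hτl i).1 ξ hξ, zero_mul])] at h1
    simpa [ht] using h1
  have hdiag : ∀ i, (t i i : ℂ) = 4 * classInner (trunc 2 1 ((e i : IrrCharacter G) : G → ℂ))
      ((e i : IrrCharacter G) : G → ℂ) := by
    intro i
    rw [ht]
    simp only
    rw [← classInner_io_irr, hτ i, classInner_smul_left]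
    norm_num
  have hT : t 0 0 + t 1 1 + t 2 2 + t 3 3 = 12 := by
    have h1 := card_mul_blockRank hM hB
    rw [hl, Finset.sum_comm, Finset.sum_filter] at h1
    rw [sum_four e _ (fun ξ hξ => by rw [if_neg hξ])] at h1
    simp only [Subtype.coe_prop, if_true] at h1
    have h0 : (Nat.card G : ℂ) ≠ 0 := card_ne_zero_complex
    have h2 : ∀ i, ∑ x : G, trunc 2 1 ((e i : IrrCharacter G) : G → ℂ) x *
        conj (((e i : IrrCharacter G) : G → ℂ) x) = (Nat.card G : ℂ) * ((t i i : ℂ) / 4) := by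
      intro i
      rw [hdiag i, classInner]
      field_simp
    rw [h2, h2, h2, h2] at h1
    have h3 : ((t 0 0 + t 1 1 + t 2 2 + t 3 3 : ℤ) : ℂ) = ((12 : ℤ) : ℂ) := by
      push_cast
      have : (Nat.card G : ℂ) * ((3 : ℕ) : ℂ) = (Nat.card G : ℂ) *
          (((t 0 0 : ℂ) + t 1 1 + t 2 2 + t 3 3) / 4) := by rw [h1]; ring
      have := mul_left_cancel₀ h0 this
      push_cast at this
      linear_combination (-4 : ℂ) * this
    exact_mod_cast h3
  have hN : ∀ i, t i i ≠ 4 := by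
    intro i h4
    apply not_vanish hM hd hall (e i).2
    have h1 : classInner (trunc 2 1 ((e i : IrrCharacter G) : G → ℂ))
        ((e i : IrrCharacter G) : G → ℂ) = 1 := by
      have := hdiag i
      rw [h4] at this
      push_cast at this
      linear_combination (-1 / 4 : ℂ) * this
    have h2 : classInner (((e i : IrrCharacter G) : G → ℂ) -
        trunc 2 1 ((e i : IrrCharacter G) : G → ℂ)) (((e i : IrrCharacter G) : G → ℂ) -
        trunc 2 1 ((e i : IrrCharacter G) : G → ℂ)) = 0 := by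
      have h3 : classInner (((e i : IrrCharacter G) : G → ℂ) -
        trunc 2 1 ((e i : IrrCharacter G) : G → ℂ)) (((e i : IrrCharacter G) : G → ℂ) -
        trunc 2 1 ((e i : IrrCharacter G) : G → ℂ)) =
          classInner ((e i : IrrCharacter G) : G → ℂ) ((e i : IrrCharacter G) : G → ℂ) -
          classInner (trunc 2 1 ((e i : IrrCharacter G) : G → ℂ))
            ((e i : IrrCharacter G) : G → ℂ) := by
        unfold classInner
        rw [← mul_sub, ← Finset.sum_sub_distrib]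
        congr 1
        apply Finset.sum_congr rfl
        intro x _
        simp only [Pi.sub_apply, trunc_apply]
        split_ifs <;> simp
      rw [h3, h1, classInner_irr_self (e i : IrrCharacter G).2, sub_self]
    have h4 := classInner_self_eq_zero h2
    intro g hg
    have h5 := congrFun h4 g
    simp only [Pi.sub_apply, trunc_apply, if_pos hg, sub_zero, Pi.zero_apply] at h5
    exact h5
  obtain ⟨δ, hδ, hσ⟩ := matrix_structure t hG hT hN
  refine ⟨δ, hδ, ?_⟩
  have hδ2 : ∀ i, (δ i : ℂ) * (δ i : ℂ) = 1 := by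
    intro i
    rcases hδ i with h | h <;> rw [h] <;> norm_num
  have key : ∀ (j : Fin 4) (x : G), (δ j : ℂ) * ((δ 0 : ℂ) * ((e 0 : IrrCharacter G) : G → ℂ) x +
      (δ 1 : ℂ) * ((e 1 : IrrCharacter G) : G → ℂ) x +
      (δ 2 : ℂ) * ((e 2 : IrrCharacter G) : G → ℂ) x +
      (δ 3 : ℂ) * ((e 3 : IrrCharacter G) : G → ℂ) x) =
      4 * ((e j : IrrCharacter G) : G → ℂ) x -
        4 * trunc 2 1 ((e j : IrrCharacter G) : G → ℂ) x := by
    intro j x
    have h1 : io (τ j) x = 4 * trunc 2 1 ((e j : IrrCharacter G) : G → ℂ) x := by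
      rw [hτ j]; simp; norm_num
    rw [← h1, io_apply_four e _ (hτl j).1]
    have hc : ∀ k, (τ j (e k) : ℂ) = (if j = k then 4 else 0) - (δ j : ℂ) * (δ k : ℂ) := by
      intro k
      have h2 : t j k = (if j = k then 4 else 0) - δ j * δ k := by
        have := hσ j k
        linarith
      show ((t j k : ℤ) : ℂ) = _
      rw [h2]
      push_cast
      split_ifs <;> simp
    rw [hc 0, hc 1, hc 2, hc 3]
    fin_cases j <;> simp <;> ring
  have hint : ∀ (j : Fin 4) (x : G), MemLocalRing M ((δ j : ℂ) * ((e j : IrrCharacter G) : G → ℂ) x) :=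
    fun j x => memLocalRing_mul (memLocalRing_intCast htop _) (memLocalRing_of_isIntegral htop
      (isCharacter_isIntegral (isCharacter_of_irr (e j : IrrCharacter G).2) _))
  have hreg : ∀ x : G, IsPRegular 2 x → (δ 0 : ℂ) * ((e 0 : IrrCharacter G) : G → ℂ) x +
      (δ 1 : ℂ) * ((e 1 : IrrCharacter G) : G → ℂ) x +
      (δ 2 : ℂ) * ((e 2 : IrrCharacter G) : G → ℂ) x +
      (δ 3 : ℂ) * ((e 3 : IrrCharacter G) : G → ℂ) x = 0 := by
    intro x hx
    have h1 := key 0 x
    rw [trunc_apply, if_neg hx, one_mul, sub_self] at h1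
    have h2 := congrArg (fun z => (δ 0 : ℂ) * z) h1
    simp only [mul_zero] at h2
    rw [← mul_assoc, hδ2, one_mul] at h2
    exact h2
  have hsing : ∀ (j : Fin 4) (x : G), ¬ IsPRegular 2 x →
      (δ j : ℂ) * ((e j : IrrCharacter G) : G → ℂ) x =
      ((δ 0 : ℂ) * ((e 0 : IrrCharacter G) : G → ℂ) x +
      (δ 1 : ℂ) * ((e 1 : IrrCharacter G) : G → ℂ) x +
      (δ 2 : ℂ) * ((e 2 : IrrCharacter G) : G → ℂ) x +
      (δ 3 : ℂ) * ((e 3 : IrrCharacter G) : G → ℂ) x) / 4 := by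
    intro j x hx
    have h1 := key j x
    rw [trunc_apply, if_pos (not_not.mp hx), mul_zero, sub_zero] at h1
    have h2 : (δ j : ℂ) * ((δ j : ℂ) * ((δ 0 : ℂ) * ((e 0 : IrrCharacter G) : G → ℂ) x +
      (δ 1 : ℂ) * ((e 1 : IrrCharacter G) : G → ℂ) x +
      (δ 2 : ℂ) * ((e 2 : IrrCharacter G) : G → ℂ) x +
      (δ 3 : ℂ) * ((e 3 : IrrCharacter G) : G → ℂ) x)) =
        (δ j : ℂ) * (4 * ((e j : IrrCharacter G) : G → ℂ) x) := by rw [h1]
    rw [← mul_assoc, hδ2, one_mul] at h2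
    rw [h2]; ring
  have hdiff : ∀ (j : Fin 4) (x : G), MemLocalRing M (((δ j : ℂ) * ((e j : IrrCharacter G) : G → ℂ) x -
      (δ 3 : ℂ) * ((e 3 : IrrCharacter G) : G → ℂ) x) / (Nat.card Ce(x) : ℂ)) := by
    intro j x
    have hio : ∀ g : G, io (Pi.single (e j : IrrCharacter G) (δ j) +
        Pi.single (e 3 : IrrCharacter G) (-δ 3)) g = (δ j : ℂ) * ((e j : IrrCharacter G) : G → ℂ) g -
      (δ 3 : ℂ) * ((e 3 : IrrCharacter G) : G → ℂ) g := by
      intro g
      rw [io_add, io_single, io_single]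
      simp
      ring
    rw [← hio x]
    apply memLocalRing_div_of_vanish hM
    intro g hg
    rw [hio g, (hsing j g (not_not.mpr hg)).trans (hsing 3 g (not_not.mpr hg)).symm, sub_self]
  intro x
  refine ⟨hint 0 x, hint 1 x, hint 2 x, ?_, hdiff 0 x, hdiff 1 x, hdiff 2 x, ?_, hreg x, ?_⟩
  · by_cases hx : IsPRegular 2 x
    · rw [hreg x hx, zero_div]; exact memLocalRing_zero htop
    · rw [← hsing 0 x hx]; exact hint 0 x
  · have h1 := memLocalRing_height hM (e 3).2 x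
    rw [hd] at h1
    have h2 : 4 * ((δ 3 : ℂ) * ((e 3 : IrrCharacter G) : G → ℂ) x) / (Nat.card Ce(x) : ℂ) =
        (δ 3 : ℂ) * (((2 : ℕ) : ℂ) ^ 2 * ((e 3 : IrrCharacter G) : G → ℂ) x / (Nat.card Ce(x) : ℂ)) := by
      push_cast; ring
    rw [h2]
    exact memLocalRing_mul (memLocalRing_intCast htop _) h1
  · intro hx
    exact ⟨(hsing 0 x hx).trans (hsing 3 x hx).symm, (hsing 1 x hx).trans (hsing 3 x hx).symm,
      (hsing 2 x hx).trans (hsing 3 x hx).symm⟩

end Cfsg.Agent.H6.PerfK
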