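import Cfsg.Agent.H6.PerfK2

/-!
# The module trick
-/

set_option autoImplicit false
open Cfsg Cfsg.Agent.CharLib Cfsg.Agent.CharLib.L Cfsg.Agent.BlockLib Cfsg.Agent.Lib.Helper23
  Cfsg.Agent.Lib.Helper23.MinMax
  Cfsg.Agent.Lib.Helper23.Trunc Cfsg.Agent.H6.BlockSection Cfsg.Agent.Lib.Helper23.Sect
  Cfsg.Agent.Lib.Helper23.Subsect Cfsg.Agent.Lib.Helper23.Contrib Cfsg.Agent.H6.MajorSub
  Cfsg.Agent.H6.BinLattice Cfsg.Agent.H6.ProjLat
open scoped ComplexConjugate

namespace Cfsg.Agent.H6.PerfK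

universe u
variable {G : Type u} [Group G] [Fintype G]

local notation "Ce(" g ")" => Subgroup.centralizer (Singleton.singleton g : Set _)

theorem B_of_A {M : Ideal AlgInt} (hM : IsPModular 2 M) {B : Set (IrrCharacter G)}
    (hd : blockDefect 2 B = 2)
    (χ : Fin 4 → IrrCharacter G) (hinj : Function.Injective χ) (h0B : χ 0 ∈ B) (w : Fin 4 → ℤ)
    (hdeg : ∀ i, (χ i : G → ℂ) 1 = (χ 0 : G → ℂ) 1)
    (hsum : ∀ y, ∑ i, (χ i : G → ℂ) y = 4 * trunc 2 1 (χ 0 : G → ℂ) y)
    (hA : ∀ y, MemLocalRing M ((∑ i, (w i : ℂ) * (χ i : G → ℂ) y) / 4)) (x : G) :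
    MemLocalRing M ((∑ i, (w i : ℂ) * (χ i : G → ℂ) x) / (Nat.card Ce(x) : ℂ)) := by
  classical
  have hMp := isPrime_of_isPModular hM
  have htop := ne_top_of_isPModular hM
  set n : ℂ := (χ 0 : G → ℂ) 1 with hn
  have hn0 : n ≠ 0 := irr_apply_one_ne_zero (χ 0)
  have hG0 : (Nat.card G : ℂ) ≠ 0 := card_ne_zero_complex
  set g : G → ℂ := fun y => (∑ i, (w i : ℂ) * (χ i : G → ℂ) y⁻¹) / 4 with hg
  have hgc : IsClassFunction G g := by
    intro a b
    simp only [hg]
    congr 1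
    apply Finset.sum_congr rfl
    intro i _
    have : (b * a * b⁻¹)⁻¹ = b * a⁻¹ * b⁻¹ := by group
    rw [this, isClassFunction_of_irr (χ i).2]
  have hgR : ∀ y, MemLocalRing M (g y) := fun y => hA y⁻¹
  have horth : ∀ i k, ∑ y : G, (χ k : G → ℂ) y⁻¹ * (χ i : G → ℂ) y =
      if i = k then (Nat.card G : ℂ) else 0 := by
    intro i k
    have h1 : ∑ y : G, (χ k : G → ℂ) y⁻¹ * (χ i : G → ℂ) y =
        (Nat.card G : ℂ) * classInner (χ i : G → ℂ) (χ k : G → ℂ) := by
      rw [classInner, mul_inv_cancel_left₀ hG0]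
      apply Finset.sum_congr rfl
      intro y _
      rw [isCharacter_inv (isCharacter_of_irr (χ k).2), mul_comm]
    rw [h1]
    split_ifs with h
    · rw [h, classInner_irr_self (χ k).2, mul_one]
    · rw [classInner_irr_ne (χ i).2 (χ k).2 (fun h' => h (hinj (Subtype.ext h'))), mul_zero]
  have hgo : ∀ i, omega (χ i : G → ℂ) g = (w i : ℂ) * (Nat.card G : ℂ) / (4 * n) := by
    intro i
    rw [omega, hdeg i]
    have h1 : ∑ y : G, g y * (χ i : G → ℂ) y = (w i : ℂ) * (Nat.card G : ℂ) / 4 := by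
      simp only [hg]
      have h2 : ∀ y : G, (∑ k, (w k : ℂ) * (χ k : G → ℂ) y⁻¹) / 4 * (χ i : G → ℂ) y =
          ∑ k, (w k : ℂ) / 4 * ((χ k : G → ℂ) y⁻¹ * (χ i : G → ℂ) y) := by
        intro y
        rw [Finset.sum_div, Finset.sum_mul]
        apply Finset.sum_congr rfl
        intro k _
        ring
      rw [Finset.sum_congr rfl (fun y _ => h2 y), Finset.sum_comm]
      simp only [← Finset.mul_sum, horth]
      rw [Finset.sum_eq_single i]
      · rw [if_pos rfl]; ring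
      · intro k _ hk
        rw [if_neg (Ne.symm hk), mul_zero]
      · intro h; exact absurd (Finset.mem_univ _) h
    rw [h1]
    field_simp
  set F : G → ℂ := conv g (classInd x) with hF
  have hFc : IsClassFunction G F := isClassFunction_conv hgc (isClassFunction_classInd x)
  have hFR : ∀ y, MemLocalRing M (F y) := by
    intro y
    rw [hF, conv_apply]
    apply memLocalRing_sum
    intro h _
    apply memLocalRing_mul (hgR h)
    rw [classInd_apply]
    split_ifs
    · exact memLocalRing_one htop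
    · exact memLocalRing_zero htop
  have hFo : ∀ i, omega (χ i : G → ℂ) F =
      (w i : ℂ) * (Nat.card G : ℂ) / (4 * n) * centralChar (χ i : G → ℂ) x := by
    intro i
    rw [hF, omega_conv (χ i).2 hgc (isClassFunction_classInd x), hgo,
      omega_classInd (isClassFunction_of_irr (χ i).2)]
  have hS1 : ∑ i, omega (χ i : G → ℂ) F = 4 * omega (χ 0 : G → ℂ) (trunc 2 1 F) := by
    simp only [omega, hdeg]
    rw [← Finset.sum_div, Finset.sum_comm, mul_div_assoc', Finset.mul_sum]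
    congr 1
    apply Finset.sum_congr rfl
    intro y _
    rw [← Finset.mul_sum, hsum y, trunc_apply, trunc_apply]
    split_ifs <;> ring
  have hcc : ∀ i, centralChar (χ i : G → ℂ) x =
      (Nat.card G : ℂ) / n * ((χ i : G → ℂ) x / (Nat.card Ce(x) : ℂ)) := by
    intro i
    have h1 : (Nat.card G : ℂ) = (Nat.card Ce(x) : ℂ) * (Ce(x).index : ℂ) := by
      rw [← Subgroup.card_mul_index Ce(x)]; push_cast; rfl
    have h2 : (Nat.card Ce(x) : ℂ) ≠ 0 := by exact_mod_cast Nat.card_pos.ne'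
    rw [centralChar, hdeg i, h1]
    field_simp
  have hfin : (∑ i, (w i : ℂ) * (χ i : G → ℂ) x) / (Nat.card Ce(x) : ℂ) =
      sdeg 2 B (χ 0 : G → ℂ) * sdeg 2 B (χ 0 : G → ℂ) * omega (χ 0 : G → ℂ) (trunc 2 1 F) := by
    have h1 : ∑ i, omega (χ i : G → ℂ) F = (Nat.card G : ℂ) / (4 * n) * ((Nat.card G : ℂ) / n) *
        ((∑ i, (w i : ℂ) * (χ i : G → ℂ) x) / (Nat.card Ce(x) : ℂ)) := by
      rw [Finset.sum_div, Finset.mul_sum]
      apply Finset.sum_congr rfl
      intro i _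
      rw [hFo, hcc]
      ring
    rw [hS1] at h1
    rw [sdeg, hd, ← hn]
    have h2 : omega (χ 0 : G → ℂ) (trunc 2 1 F) = (Nat.card G : ℂ) / (4 * n) *
        ((Nat.card G : ℂ) / n) *
        ((∑ i, (w i : ℂ) * (χ i : G → ℂ) x) / (Nat.card Ce(x) : ℂ)) / 4 := by
      rw [← h1]; ring
    rw [h2]
    push_cast
    field_simp
    ring
  rw [hfin]
  exact memLocalRing_mul (memLocalRing_mul (memLocalRing_sdeg hM h0B) (memLocalRing_sdeg hM h0B))
    (memLocalRing_omega (χ 0).2 (isClassFunction_trunc 2 1 hFc) (fun y => by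
      rw [trunc_apply]
      split_ifs
      · exact memLocalRing_zero htop
      · rw [one_mul]; exact hFR y))

end Cfsg.Agent.H6.PerfK
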