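import Cfsg.Agent.H6.PerfK5
import Cfsg.Agent.H6.PPart
import Cfsg.Agent.S4675
import Cfsg.Agent.S0924

/-!
# Blocks with four characters and rank one
-/

set_option autoImplicit false
open Cfsg Cfsg.Agent.CharLib Cfsg.Agent.CharLib.L Cfsg.Agent.BlockLib Cfsg.Agent.Lib.Helper23
  Cfsg.Agent.Lib.Helper23.MinMax
  Cfsg.Agent.Lib.Helper23.Trunc Cfsg.Agent.H6.BlockSection Cfsg.Agent.Lib.Helper23.Sect
  Cfsg.Agent.Lib.Helper23.Subsect Cfsg.Agent.Lib.Helper23.Contrib Cfsg.Agent.H6.MajorSub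
  Cfsg.Agent.H6.BinLattice Cfsg.Agent.H6.ProjLat
open scoped ComplexConjugate

namespace Cfsg.Agent.H6.PerfK

universe u
variable {G : Type u} [Group G] [Fintype G]

local notation "Ce(" g ")" => Subgroup.centralizer (Singleton.singleton g : Set _)

theorem sumw (w0 w1 w2 w3 : ℤ) (f : Fin 4 → ℂ) :
    ∑ i, ((![w0, w1, w2, w3] : Fin 4 → ℤ) i : ℂ) * f i =
      (w0 : ℂ) * f 0 + (w1 : ℂ) * f 1 + (w2 : ℂ) * f 2 + (w3 : ℂ) * f 3 := by
  simp [Fin.sum_univ_four]

theorem all_one {a b c d : ℕ} (h : a ^ 2 + b ^ 2 + c ^ 2 + d ^ 2 = 4) (ha : a ≠ 0) (hb : b ≠ 0)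
    (hc : c ≠ 0) (hd : d ≠ 0) : a = 1 ∧ b = 1 ∧ c = 1 ∧ d = 1 := by
  have ha2 : a ≤ 2 := by nlinarith
  have hb2 : b ≤ 2 := by nlinarith
  have hc2 : c ≤ 2 := by nlinarith
  have hd2 : d ≤ 2 := by nlinarith
  interval_cases a <;> interval_cases b <;> interval_cases c <;> interval_cases d <;> simp_all

open Classical in
theorem exists_T1 {M : Ideal AlgInt} (hM : IsPModular 2 M) {B : Set (IrrCharacter G)}
    (hB : IsPBlock M B) (P : Subgroup G) (hPD : IsDefectGroup 2 M B P) (hcard : Nat.card P = 4)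
    (hexp : ∀ D : Subgroup G, IsDefectGroup 2 M B D → ∀ u ∈ D, u ^ 2 = 1)
    (hd : blockDefect 2 B = 2) (hl : blockRank 2 B = 1) (e : Fin 4 ≃ B) (x : G) :
    T1 M (((e 0 : IrrCharacter G) : G → ℂ) x) (((e 1 : IrrCharacter G) : G → ℂ) x)
      (((e 2 : IrrCharacter G) : G → ℂ) x) (((e 3 : IrrCharacter G) : G → ℂ) x)
      (Nat.card Ce(x) : ℂ) (IsPRegular 2 x) := by
  have hMp := isPrime_of_isPModular hM
  have htop := ne_top_of_isPModular hM
  have hp := hM.1
  haveI : Fact (Nat.Prime 2) := ⟨hp⟩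
  obtain ⟨φ, d, -, hdφ, hdsum⟩ := Cfsg.Agent.S4675.result 2 M hM B hB P hPD hl
  rw [finsum_mem_four e, hcard] at hdsum
  have h1reg : IsPRegular 2 (1 : G) := by simp [IsPRegular]
  have hd0 : ∀ i, d (e i) ≠ 0 := by
    intro i h0
    have := hdφ (e i) (e i).2 1 h1reg
    rw [h0, Nat.cast_zero, zero_mul] at this
    exact irr_apply_one_ne_zero (e i : IrrCharacter G) this
  obtain ⟨d0, d1, d2, d3⟩ := all_one hdsum (hd0 0) (hd0 1) (hd0 2) (hd0 3)
  have hdi : ∀ i, d (e i) = 1 := by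
    intro i; fin_cases i
    · exact d0
    · exact d1
    · exact d2
    · exact d3
  have hreg : ∀ i (y : G), IsPRegular 2 y → ((e i : IrrCharacter G) : G → ℂ) y = φ y := by
    intro i y hy
    rw [hdφ (e i) (e i).2 y hy, hdi, Nat.cast_one, one_mul]
  have hint : ∀ i (y : G), MemLocalRing M (((e i : IrrCharacter G) : G → ℂ) y) := fun i y =>
    memLocalRing_of_isIntegral htop
      (isCharacter_isIntegral (isCharacter_of_irr (e i : IrrCharacter G).2) _)
  have hφ1 : φ 1 ≠ 0 := by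
    rw [← hreg 0 1 h1reg]; exact irr_apply_one_ne_zero _
  have hsing : ∀ y : G, ¬ IsPRegular 2 y → ((e 0 : IrrCharacter G) : G → ℂ) y +
      ((e 1 : IrrCharacter G) : G → ℂ) y + ((e 2 : IrrCharacter G) : G → ℂ) y +
      ((e 3 : IrrCharacter G) : G → ℂ) y = 0 := by
    intro y hy
    have h1 := weak_orth hM B hB 1 y⁻¹ h1reg (by rw [orderOf_inv]; exact not_not.mp hy)
    rw [Finset.sum_filter, sum_four e _ (fun ξ hξ => by rw [if_neg hξ])] at h1
    simp only [Subtype.coe_prop, if_true] at h1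
    have h2 : ∀ i, conj (((e i : IrrCharacter G) : G → ℂ) y⁻¹) = ((e i : IrrCharacter G) : G → ℂ) y := by
      intro i
      rw [isCharacter_inv (isCharacter_of_irr (e i : IrrCharacter G).2), Complex.conj_conj]
    rw [h2, h2, h2, h2, hreg 0 1 h1reg, hreg 1 1 h1reg, hreg 2 1 h1reg, hreg 3 1 h1reg] at h1
    have h3 : φ 1 * (((e 0 : IrrCharacter G) : G → ℂ) y +
      ((e 1 : IrrCharacter G) : G → ℂ) y + ((e 2 : IrrCharacter G) : G → ℂ) y +
      ((e 3 : IrrCharacter G) : G → ℂ) y) = 0 := by rw [← h1]; ring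
    exact (mul_eq_zero.mp h3).resolve_left hφ1
  have hhalf : ∀ (y : G), ¬ IsPRegular 2 y → ∀ i j, MemLocalRing M
      ((((e i : IrrCharacter G) : G → ℂ) y + ((e j : IrrCharacter G) : G → ℂ) y) / 2) := by
    intro y _ i j
    obtain ⟨u, hu, -⟩ := Cfsg.Agent.H6.exists_isPPart hp y
    by_cases hD : ∃ D, IsDefectGroup 2 M B D ∧ u ∈ D
    · obtain ⟨D, hD1, hD2⟩ := hD
      have hu2 := hexp D hD1 u hD2
      obtain ⟨s, hus, hcomm, -, hs⟩ := hu
      have h1 := memLocalRing_half_sub (M := M) (e i : IrrCharacter G) hu2 hcomm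
      have h2 := memLocalRing_half_sub (M := M) (e j : IrrCharacter G) hu2 hcomm
      rw [hus] at h1 h2
      have h3 : (((e i : IrrCharacter G) : G → ℂ) y + ((e j : IrrCharacter G) : G → ℂ) y) / 2 =
          (((e i : IrrCharacter G) : G → ℂ) y - ((e i : IrrCharacter G) : G → ℂ) s) / 2 +
          (((e j : IrrCharacter G) : G → ℂ) y - ((e j : IrrCharacter G) : G → ℂ) s) / 2 +
          ((e i : IrrCharacter G) : G → ℂ) s := by
        rw [hreg j s hs, hreg i s hs]; ring
      rw [h3]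
      exact memLocalRing_add (memLocalRing_add h1 h2) (hint i s)
    · push Not at hD
      have hz : ∀ i, ((e i : IrrCharacter G) : G → ℂ) y = 0 := by
        intro i
        apply Cfsg.Agent.S0924.result 2 M hM (e i : IrrCharacter G) y u hu
        intro D hD1
        rw [← pb_eq_blockOf hB (e i).2] at hD1
        exact hD D hD1
      rw [hz, hz, add_zero, zero_div]
      exact memLocalRing_zero htop
  have hq : ∀ y : G, MemLocalRing M ((((e 0 : IrrCharacter G) : G → ℂ) y +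
      ((e 1 : IrrCharacter G) : G → ℂ) y + ((e 2 : IrrCharacter G) : G → ℂ) y +
      ((e 3 : IrrCharacter G) : G → ℂ) y) / 4) ∧
      MemLocalRing M ((((e 0 : IrrCharacter G) : G → ℂ) y +
      ((e 1 : IrrCharacter G) : G → ℂ) y - ((e 2 : IrrCharacter G) : G → ℂ) y -
      ((e 3 : IrrCharacter G) : G → ℂ) y) / 4) ∧
      MemLocalRing M ((((e 0 : IrrCharacter G) : G → ℂ) y -
      ((e 1 : IrrCharacter G) : G → ℂ) y + ((e 2 : IrrCharacter G) : G → ℂ) y -
      ((e 3 : IrrCharacter G) : G → ℂ) y) / 4) ∧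
      MemLocalRing M ((((e 0 : IrrCharacter G) : G → ℂ) y -
      ((e 1 : IrrCharacter G) : G → ℂ) y - ((e 2 : IrrCharacter G) : G → ℂ) y +
      ((e 3 : IrrCharacter G) : G → ℂ) y) / 4) := by
    intro y
    by_cases hy : IsPRegular 2 y
    · have h0 := hint 0 y
      rw [hreg 0 y hy] at h0
      rw [hreg 0 y hy, hreg 1 y hy, hreg 2 y hy, hreg 3 y hy]
      refine ⟨?_, ?_, ?_, ?_⟩
      · have : (φ y + φ y + φ y + φ y) / 4 = φ y := by ring
        rw [this]; exact h0
      · have : (φ y + φ y - φ y - φ y) / 4 = 0 := by ring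
        rw [this]; exact memLocalRing_zero htop
      · have : (φ y - φ y + φ y - φ y) / 4 = 0 := by ring
        rw [this]; exact memLocalRing_zero htop
      · have : (φ y - φ y - φ y + φ y) / 4 = 0 := by ring
        rw [this]; exact memLocalRing_zero htop
    · have h0 := hsing y hy
      refine ⟨?_, ?_, ?_, ?_⟩
      · rw [h0, zero_div]; exact memLocalRing_zero htop
      · have : (((e 0 : IrrCharacter G) : G → ℂ) y +
          ((e 1 : IrrCharacter G) : G → ℂ) y - ((e 2 : IrrCharacter G) : G → ℂ) y -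
          ((e 3 : IrrCharacter G) : G → ℂ) y) / 4 = - ((((e 2 : IrrCharacter G) : G → ℂ) y +
          ((e 3 : IrrCharacter G) : G → ℂ) y) / 2) := by linear_combination (1 / 4 : ℂ) * h0
        rw [this]; exact memLocalRing_neg (hhalf y hy 2 3)
      · have : (((e 0 : IrrCharacter G) : G → ℂ) y -
          ((e 1 : IrrCharacter G) : G → ℂ) y + ((e 2 : IrrCharacter G) : G → ℂ) y -
          ((e 3 : IrrCharacter G) : G → ℂ) y) / 4 = - ((((e 1 : IrrCharacter G) : G → ℂ) y +
          ((e 3 : IrrCharacter G) : G → ℂ) y) / 2) := by linear_combination (1 / 4 : ℂ) * h0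
        rw [this]; exact memLocalRing_neg (hhalf y hy 1 3)
      · have : (((e 0 : IrrCharacter G) : G → ℂ) y -
          ((e 1 : IrrCharacter G) : G → ℂ) y - ((e 2 : IrrCharacter G) : G → ℂ) y +
          ((e 3 : IrrCharacter G) : G → ℂ) y) / 4 = - ((((e 1 : IrrCharacter G) : G → ℂ) y +
          ((e 2 : IrrCharacter G) : G → ℂ) y) / 2) := by linear_combination (1 / 4 : ℂ) * h0
        rw [this]; exact memLocalRing_neg (hhalf y hy 1 2)
  have hinj : Function.Injective (fun i => (e i : IrrCharacter G)) := fun i j h =>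
    e.injective (Subtype.ext h)
  have hdeg : ∀ i, ((e i : IrrCharacter G) : G → ℂ) 1 = ((e 0 : IrrCharacter G) : G → ℂ) 1 := by
    intro i; rw [hreg i 1 h1reg, hreg 0 1 h1reg]
  have hsum : ∀ y, ∑ i, ((e i : IrrCharacter G) : G → ℂ) y =
      4 * trunc 2 1 ((e 0 : IrrCharacter G) : G → ℂ) y := by
    intro y
    rw [Fin.sum_univ_four, trunc_apply]
    split_ifs with hy
    · rw [hsing y (not_not.mpr hy), mul_zero]
    · rw [hreg 0 y hy, hreg 1 y hy, hreg 2 y hy, hreg 3 y hy]; ring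
  have hc := fun (w0 w1 w2 w3 : ℤ) (hA : ∀ y, MemLocalRing M
      ((∑ i, ((![w0, w1, w2, w3] : Fin 4 → ℤ) i : ℂ) * ((e i : IrrCharacter G) : G → ℂ) y) / 4)) =>
    B_of_A hM hd (fun i => (e i : IrrCharacter G)) hinj (e 0).2 ![w0, w1, w2, w3] hdeg hsum hA x
  simp only [sumw] at hc
  have c0 := hc 1 1 1 1 (fun y => by
    have := (hq y).1
    simpa using this)
  have c1 := hc 1 1 (-1) (-1) (fun y => by
    have := (hq y).2.1
    simpa [sub_eq_add_neg] using this)
  have c2 := hc 1 (-1) 1 (-1) (fun y => by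
    have := (hq y).2.2.1
    simpa [sub_eq_add_neg] using this)
  have c3 := hc 1 (-1) (-1) 1 (fun y => by
    have := (hq y).2.2.2
    simpa [sub_eq_add_neg] using this)
  refine ⟨(hq x).1, (hq x).2.1, (hq x).2.2.1, (hq x).2.2.2, by simpa using c0,
    by simpa [sub_eq_add_neg] using c1, by simpa [sub_eq_add_neg] using c2,
    by simpa [sub_eq_add_neg] using c3, ?_, hsing x⟩
  intro hx
  rw [hreg 0 x hx, hreg 1 x hx, hreg 2 x hx, hreg 3 x hx]
  refine ⟨by ring, by ring, by ring⟩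

end Cfsg.Agent.H6.PerfK
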