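import Mathlib
import Cfsg.Agent.S4637
import Cfsg.Agent.H6.FirstMainTr
import Cfsg.Agent.BlockLib.KG.Dict
import Cfsg.Agent.BlockLib.KG.DictPairs

/-!
# A Klein four block and its Brauer correspondent have the same rank
-/

set_option autoImplicit false
open Cfsg

namespace Cfsg.Agent.H6.PerfK

open Cfsg.Agent.BlockLib Cfsg.Agent.CharLib Cfsg.Agent.Lib.Helper23.MinMax
open Cfsg.Agent.H6.KleinBlk

local notation "C(" P ")" => Subgroup.centralizer (SetLike.coe P)
local notation "N(" P ")" => Subgroup.normalizer (SetLike.coe P)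

theorem isKleinFour_of_equiv {A A' : Type*} [Group A] [Group A'] (f : A ≃* A') [h : IsKleinFour A] :
    IsKleinFour A' where
  card_four := by rw [← Nat.card_congr f.toEquiv]; exact h.card_four
  exponent_two := by rw [← Monoid.exponent_eq_of_mulEquiv f]; exact h.exponent_two

theorem rank_eq {G : Type*} [Group G] [Finite G] (M : Ideal Cfsg.AlgInt)
    (hM : Cfsg.IsPModular 2 M) (B : Set (Cfsg.IrrCharacter G)) (hB : Cfsg.IsPBlock M B)
    (P : Subgroup G) (hPD : Cfsg.IsDefectGroup 2 M B P) (hV : IsKleinFour P)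
    (c : Set (Cfsg.IrrCharacter (Subgroup.normalizer (P : Set G))))
    (hcD : Cfsg.IsDefectGroup 2 M c (P.subgroupOf (Subgroup.normalizer (P : Set G))))
    (hc : Cfsg.IsInducedBlock M (Subgroup.normalizer (P : Set G)) c B) :
    Nat.card B = 4 ∧ Nat.card c = 4 ∧ blockRank 2 B = blockRank 2 c ∧
      (blockRank 2 B = 1 ∨ blockRank 2 B = 3) := by
  classical
  letI := Fintype.ofFinite G
  haveI : Fact (Nat.Prime 2) := ⟨Nat.prime_two⟩
  haveI := isPrime_of_isPModular hM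
  haveI := charP_resField hM
  letI : Fintype N(P) := Fintype.ofFinite _
  have hPH : P ≤ N(P) := Subgroup.le_normalizer
  haveI hV' : IsKleinFour (P.subgroupOf N(P)) :=
    isKleinFour_of_equiv (Subgroup.subgroupOfEquivOfLe hPH).symm
  have hDG := (isDefectGroup_iff hB P).mp hPD
  have hP : IsPGroup 2 P := by
    obtain ⟨g, -, hg⟩ := hDG
    exact hg.1
  have hP' : IsPGroup 2 (P.subgroupOf N(P)) := by
    obtain ⟨g, -, hg⟩ := (isDefectGroup_iff hc.1 _).mp hcD
    exact hg.1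
  have hab : IsMulCommutative P := IsKleinFour.isMulCommutative
  have hPC : P ≤ C(P) := by
    intro x hx
    rw [Subgroup.mem_centralizer_iff]
    intro y hy
    exact congrArg Subtype.val (hab.is_comm.comm (⟨y, hy⟩ : P) ⟨x, hx⟩)
  have hab' : IsMulCommutative (P.subgroupOf N(P)) := IsKleinFour.isMulCommutative
  have hPC' : P.subgroupOf N(P) ≤ C(P.subgroupOf N(P)) := by
    intro x hx
    rw [Subgroup.mem_centralizer_iff]
    intro y hy
    exact congrArg Subtype.val (hab'.is_comm.comm (⟨y, hy⟩ : P.subgroupOf N(P)) ⟨x, hx⟩)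
  have hCN : C(P) ≤ N(P) := CA.centralizer_le_normalizer' P
  obtain ⟨c0', hc0'⟩ := (Cfsg.Agent.S0958.result 2 M hM (P.subgroupOf N(P)) C(P.subgroupOf N(P)) hP'
    (sup_le hPC' le_rfl) (CA.centralizer_le_normalizer' _) c hc.1).mpr
    ⟨P.subgroupOf N(P), hcD, 1, by
      rintro _ ⟨q, hq, rfl⟩
      simpa using hq⟩
  have hblk' := hc0'.1
  have hT' : ∀ g : N(P), g ∈ CA.stab (P.subgroupOf N(P)) (epsS M C(P.subgroupOf N(P)) c0') ↔
      (g ∈ N(P.subgroupOf N(P)) ∧ StabilizesBlock C(P.subgroupOf N(P)) c0' g) := by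
    intro y
    rw [CA.mem_stab, stabilizesBlock_iff hblk']
    constructor
    · rintro ⟨h1, h2⟩; exact ⟨h1, CA.normalizer_le_normalizer_centralizer _ h1, h2⟩
    · rintro ⟨h1, -, h2⟩; exact ⟨h1, h2⟩
  obtain ⟨h13', hk', hl'⟩ := Cfsg.Agent.S4637.result M hM c hc.1 (P.subgroupOf N(P)) hcD hV' c0' hc0'
    _ hT' _ rfl
  -- transfer to `G`
  have hup : CA.up N(P) (P.subgroupOf N(P)) = P := CA.up_subgroupOf hPH
  have hupC : CA.up N(P) C(P.subgroupOf N(P)) = C(P) := by
    rw [CA.up_centralizer, hup, inf_eq_right.mpr hCN]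
  have hE0 : CA.IsBlk C(P) (CA.ext0 N(P) (epsS M C(P.subgroupOf N(P)) c0')) := by
    have := (CA.isBlk_ext0_up_iff N(P)).mpr (isBlk_epsS hblk')
    rwa [hupC] at this
  obtain ⟨c0, hblk, hc0eq⟩ := exists_epsS_eq hE0
  have h1 := (Cfsg.Agent.H6.IndBlk.isInducedBlock_iff_br hP hPH hCN le_rfl hc.1 hB).mp hc
  have h2' := (isInducedBlock_centralizer_iff_br hP' hblk' hc.1).mp hc0'
  have h2 : CA.br P (epsS M N(P) c) * epsS M C(P) c0 = epsS M C(P) c0 := by
    have := congrArg (CA.ext0 N(P)) h2'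
    rwa [map_mul, CA.ext0_br, hup, ← epsS_eq_ext0, ← hc0eq] at this
  have hγfix : epsS M N(P) c ∈ CA.fix P := CA.fix_anti hPH (isBlk_epsS hc.1).mem.2
  have hβfix : CA.br P (eps M B) ∈ CA.fix P :=
    CA.br_mem_fix hPH (CA.fix_anti le_top (isBlk_eps hB).mem.2)
  have h3 : CA.br P (eps M B) * CA.br P (epsS M N(P) c) = CA.br P (epsS M N(P) c) := by
    conv_rhs => rw [← h1]
    rw [CA.br_mul hP hβfix hγfix, CA.br_br le_rfl]
  have hc0 : IsInducedBlock M C(P) c0 B := by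
    rw [isInducedBlock_centralizer_iff_br hP hblk hB]
    conv_lhs => rw [← h2]
    rw [← mul_assoc, h3, h2]
  have hT : ∀ g : G, g ∈ CA.stab P (epsS M C(P) c0) ↔
      (g ∈ N(P) ∧ StabilizesBlock C(P) c0 g) := by
    intro y
    rw [CA.mem_stab, stabilizesBlock_iff hblk]
    constructor
    · rintro ⟨h1, h2⟩; exact ⟨h1, CA.normalizer_le_normalizer_centralizer _ h1, h2⟩
    · rintro ⟨h1, -, h2⟩; exact ⟨h1, h2⟩
  obtain ⟨h13, hk, hl⟩ := Cfsg.Agent.S4637.result M hM B hB P hPD hV c0 hc0 _ hT _ rfl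
  have hupT : CA.up N(P) (CA.stab (P.subgroupOf N(P)) (epsS M C(P.subgroupOf N(P)) c0')) =
      CA.stab P (epsS M C(P) c0) := by
    ext g
    constructor
    · rintro ⟨h, hh, rfl⟩
      obtain ⟨ha, hb⟩ := CA.mem_stab.mp hh
      refine CA.mem_stab.mpr ⟨h.2, ?_⟩
      rw [hc0eq]
      have := congrArg (CA.ext0 N(P)) hb
      rwa [CA.ext0_cj] at this
    · intro hg
      obtain ⟨ha, hb⟩ := CA.mem_stab.mp hg
      refine ⟨⟨g, ha⟩, CA.mem_stab.mpr ⟨?_, ?_⟩, rfl⟩
      · rw [← CA.coe_mem_normalizer_up, hup]; exact ha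
      · apply CA.ext0_injective N(P)
        rw [CA.ext0_cj, ← hc0eq]
        exact hb
  have hiff : C(P).relIndex (CA.stab P (epsS M C(P) c0)) = 1 ↔
      C(P.subgroupOf N(P)).relIndex
        (CA.stab (P.subgroupOf N(P)) (epsS M C(P.subgroupOf N(P)) c0')) = 1 := by
    rw [Subgroup.relIndex_eq_one, Subgroup.relIndex_eq_one, ← hupT, ← hupC, CA.up_le_up]
  refine ⟨hk, hk', ?_, by rw [hl]; exact h13⟩
  rw [hl, hl']
  rcases h13 with h | h <;> rcases h13' with h' | h'
  · rw [h, h']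
  · exact absurd (hiff.mp h) (by rw [h']; norm_num)
  · exact absurd (hiff.mpr h') (by rw [h]; norm_num)
  · rw [h, h']

end Cfsg.Agent.H6.PerfK
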