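import Cfsg.Agent.H6.PerfK4
import Cfsg.Agent.H6.PerfK6
import Cfsg.Agent.H6.PerfK7

/-!
# Perfect isometries between Klein four blocks of equal rank
-/

set_option autoImplicit false
open Cfsg

namespace Cfsg.Agent.H6.PerfK

open Cfsg.Agent.BlockLib Cfsg.Agent.CharLib Cfsg.Agent.Lib.Helper23.MinMax
open Cfsg.Agent.H6.KleinBlk

theorem klein_facts {G : Type*} [Group G] [Finite G] {M : Ideal Cfsg.AlgInt}
    (hM : Cfsg.IsPModular 2 M) {B : Set (Cfsg.IrrCharacter G)} (hB : Cfsg.IsPBlock M B)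
    {P : Subgroup G} (hPD : Cfsg.IsDefectGroup 2 M B P) (hV : IsKleinFour P) :
    blockDefect 2 B = 2 ∧
      (∀ χ ∈ B, (charDegree (χ : G → ℂ)).factorization 2 = minExp 2 B) ∧
      (∀ D : Subgroup G, IsDefectGroup 2 M B D → ∀ u ∈ D, u ^ 2 = 1) := by
  classical
  letI := Fintype.ofFinite G
  haveI : Fact (Nat.Prime 2) := ⟨Nat.prime_two⟩
  haveI := isPrime_of_isPModular hM
  haveI := charP_resField hM
  have hcardP : Nat.card P = 4 := IsKleinFour.card_four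
  have hd2 := blockDefect_eq_two hM hB hPD hcardP
  refine ⟨hd2, ?_, ?_⟩
  · intro χ hχ
    have h1 := minExp_le (p := 2) hχ
    have h2 : (charDegree (χ : G → ℂ)).factorization 2 - minExp 2 B = 0 :=
      Nat.le_zero.mp (((Cfsg.Agent.S4710.result 2 M hM B hB 2 hd2).2 χ hχ).2 le_rfl)
    omega
  · intro D hD u hu
    obtain ⟨x, -, hx⟩ := CA.IsDefGrp.conj (isBlk_eps hB) ((isDefectGroup_iff hB P).mp hPD)
      ((isDefectGroup_iff hB D).mp hD)
    rw [hx, CA.mem_cjs] at hu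
    have h1 : (⟨_, hu⟩ : P) ^ 2 = 1 := by
      rw [← IsKleinFour.exponent_two (G := P)]
      exact Monoid.pow_exponent_eq_one _
    have h2 : (x⁻¹ * u * x) ^ 2 = 1 := congrArg Subtype.val h1
    have h3 : (x⁻¹ * u * x) ^ 2 = x⁻¹ * u ^ 2 * x := by
      rw [pow_two, pow_two]; group
    rw [h3] at h2
    have h4 : u ^ 2 = x * (x⁻¹ * u ^ 2 * x) * x⁻¹ := by
      simp [mul_assoc]
    rw [h4, h2]; simp

universe u v

theorem perfect {G : Type u} [Group G] [Finite G] {H : Type v} [Group H] [Finite H]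
    {M : Ideal Cfsg.AlgInt} (hM : Cfsg.IsPModular 2 M)
    {B : Set (Cfsg.IrrCharacter G)} (hB : Cfsg.IsPBlock M B)
    {P : Subgroup G} (hPD : Cfsg.IsDefectGroup 2 M B P) (hV : IsKleinFour P)
    {c : Set (Cfsg.IrrCharacter H)} (hc : Cfsg.IsPBlock M c)
    {P' : Subgroup H} (hPD' : Cfsg.IsDefectGroup 2 M c P') (hV' : IsKleinFour P')
    (hkB : Nat.card B = 4) (hkc : Nat.card c = 4) (hrk : blockRank 2 B = blockRank 2 c)
    (h13 : blockRank 2 B = 1 ∨ blockRank 2 B = 3) :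
    ∃ (I : IrrCharacter H → IrrCharacter G) (ε : IrrCharacter H → ℤ),
      IsPerfectIsometry 2 M c B I ε := by
  classical
  letI := Fintype.ofFinite G
  letI := Fintype.ofFinite H
  haveI := isPrime_of_isPModular hM
  obtain ⟨hd, hall, hexp⟩ := klein_facts hM hB hPD hV
  obtain ⟨hd', hall', hexp'⟩ := klein_facts hM hc hPD' hV'
  have eB : Fin 4 ≃ B := (Finite.equivFinOfCardEq hkB).symm
  have ec : Fin 4 ≃ c := (Finite.equivFinOfCardEq hkc).symm
  rcases h13 with h1 | h3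
  · apply perfect_of_enum eB ec (fun _ => 1) (fun _ => Or.inl rfl)
    intro x y μ hμ
    have ha := exists_T1 hM hB P hPD IsKleinFour.card_four hexp hd h1 eB x
    have hb := exists_T1 hM hc P' hPD' IsKleinFour.card_four hexp' hd' (hrk ▸ h1) ec y
    have hμ' : μ = ((eB 0 : IrrCharacter G) : G → ℂ) x * ((ec 0 : IrrCharacter H) : H → ℂ) y +
        ((eB 1 : IrrCharacter G) : G → ℂ) x * ((ec 1 : IrrCharacter H) : H → ℂ) y +
        ((eB 2 : IrrCharacter G) : G → ℂ) x * ((ec 2 : IrrCharacter H) : H → ℂ) y +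
        ((eB 3 : IrrCharacter G) : G → ℂ) x * ((ec 3 : IrrCharacter H) : H → ℂ) y := by
      rw [hμ]; push_cast; ring
    refine ⟨by rw [hμ']; exact ha.left hb, ?_, by rw [hμ']; exact ha.sep hb⟩
    have h := hb.left ha
    have hμ'' : μ = ((ec 0 : IrrCharacter H) : H → ℂ) y * ((eB 0 : IrrCharacter G) : G → ℂ) x +
        ((ec 1 : IrrCharacter H) : H → ℂ) y * ((eB 1 : IrrCharacter G) : G → ℂ) x +
        ((ec 2 : IrrCharacter H) : H → ℂ) y * ((eB 2 : IrrCharacter G) : G → ℂ) x +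
        ((ec 3 : IrrCharacter H) : H → ℂ) y * ((eB 3 : IrrCharacter G) : G → ℂ) x := by
      rw [hμ']; ring
    rw [hμ'']; exact h
  · obtain ⟨δ, hδ, hT⟩ := exists_T3 hM hB hd hall h3 eB
    obtain ⟨δ', hδ', hT'⟩ := exists_T3 hM hc hd' hall' (hrk ▸ h3) ec
    apply perfect_of_enum eB ec (fun i => δ i * δ' i) (fun i => by
      rcases hδ i with h | h <;> rcases hδ' i with h' | h' <;> rw [h, h'] <;> simp)
    intro x y μ hμ
    have ha := hT x
    have hb := hT' y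
    have hμ' : μ = ((δ 0 : ℂ) * ((eB 0 : IrrCharacter G) : G → ℂ) x) *
          ((δ' 0 : ℂ) * ((ec 0 : IrrCharacter H) : H → ℂ) y) +
        ((δ 1 : ℂ) * ((eB 1 : IrrCharacter G) : G → ℂ) x) *
          ((δ' 1 : ℂ) * ((ec 1 : IrrCharacter H) : H → ℂ) y) +
        ((δ 2 : ℂ) * ((eB 2 : IrrCharacter G) : G → ℂ) x) *
          ((δ' 2 : ℂ) * ((ec 2 : IrrCharacter H) : H → ℂ) y) +
        ((δ 3 : ℂ) * ((eB 3 : IrrCharacter G) : G → ℂ) x) *
          ((δ' 3 : ℂ) * ((ec 3 : IrrCharacter H) : H → ℂ) y) := by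
      rw [hμ]; push_cast; ring
    refine ⟨by rw [hμ']; exact ha.left hb, ?_, by rw [hμ']; exact ha.sep hb⟩
    have h := hb.left ha
    have hμ'' : μ = ((δ' 0 : ℂ) * ((ec 0 : IrrCharacter H) : H → ℂ) y) *
          ((δ 0 : ℂ) * ((eB 0 : IrrCharacter G) : G → ℂ) x) +
        ((δ' 1 : ℂ) * ((ec 1 : IrrCharacter H) : H → ℂ) y) *
          ((δ 1 : ℂ) * ((eB 1 : IrrCharacter G) : G → ℂ) x) +
        ((δ' 2 : ℂ) * ((ec 2 : IrrCharacter H) : H → ℂ) y) *
          ((δ 2 : ℂ) * ((eB 2 : IrrCharacter G) : G → ℂ) x) +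
        ((δ' 3 : ℂ) * ((ec 3 : IrrCharacter H) : H → ℂ) y) *
          ((δ 3 : ℂ) * ((eB 3 : IrrCharacter G) : G → ℂ) x) := by
      rw [hμ']; ring
    rw [hμ'']; exact h

end Cfsg.Agent.H6.PerfK
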