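import Mathlib

/-! The rank of a square matrix does not change under a field extension; the rank of `E * Λ` when
`Λ * E = 1`. -/

set_option autoImplicit false

namespace Cfsg.Agent.H6.RankMap

open Matrix

theorem rank_map {F K : Type*} [Field F] [Field K] (f : F →+* K) {n : Type*} [Fintype n]
    [DecidableEq n] (A : Matrix n n F) : (A.map f).rank = A.rank := by
  classical
  obtain ⟨L, L', D, h⟩ := Matrix.Pivot.exists_list_transvec_mul_diagonal_mul_list_transvec A
  set U := (L.map TransvectionStruct.toMatrix).prod with hU
  set V := (L'.map TransvectionStruct.toMatrix).prod with hV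
  have hUdet : U.det = 1 := TransvectionStruct.det_toMatrix_prod L
  have hVdet : V.det = 1 := TransvectionStruct.det_toMatrix_prod L'
  have h1 : A.rank = (diagonal D).rank := by
    rw [h, rank_mul_eq_left_of_isUnit_det V _ (by rw [hVdet]; exact isUnit_one),
      rank_mul_eq_right_of_isUnit_det U _ (by rw [hUdet]; exact isUnit_one)]
  have hdet : ∀ X : Matrix n n F, X.det = 1 → IsUnit (X.map f).det := by
    intro X hX
    have : (X.map f).det = f X.det := by
      rw [RingHom.map_det]; rfl
    rw [this, hX, map_one]
    exact isUnit_one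
  have h2 : (A.map f).rank = (diagonal (fun i => f (D i))).rank := by
    rw [h, Matrix.map_mul, Matrix.map_mul,
      rank_mul_eq_left_of_isUnit_det (V.map f) _ (hdet V hVdet),
      rank_mul_eq_right_of_isUnit_det (U.map f) _ (hdet U hUdet), diagonal_map (map_zero f)]
  rw [h1, h2, rank_diagonal, rank_diagonal]
  apply Fintype.card_congr
  apply Equiv.subtypeEquivRight
  intro i
  rw [Ne, Ne, map_eq_zero]

theorem rank_mul_of_mul_eq_one {K : Type*} [Field K] {n b : Type*} [Fintype n] [Fintype b]
    [DecidableEq b] (E : Matrix n b K) (Λ : Matrix b n K) (h : Λ * E = 1) :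
    (E * Λ).rank = Fintype.card b := by
  apply le_antisymm
  · exact (rank_mul_le_left E Λ).trans (rank_le_card_width E)
  · have h1 : (1 : Matrix b b K) = Λ * (E * Λ) * E := by
      rw [← Matrix.mul_assoc, h, Matrix.one_mul, h]
    calc Fintype.card b = (1 : Matrix b b K).rank := rank_one.symm
      _ = (Λ * (E * Λ) * E).rank := by rw [← h1]
      _ ≤ (Λ * (E * Λ)).rank := rank_mul_le_left _ _
      _ ≤ (E * Λ).rank := rank_mul_le_right _ _

end Cfsg.Agent.H6.RankMap
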