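import Mathlib
import Cfsg.Agent.H6.SylowCount

/-! Pairs of conjugates in the same coset of a Sylow subgroup. -/

set_option autoImplicit false

namespace Cfsg.Agent.H6.SylowPairs

open Cfsg.Agent.BlockLib Cfsg.Agent.H6.PSocle Cfsg.Agent.H6.SylowCount

variable {G : Type*} [Group G]

theorem card_fiber {y y' : G} (h : IsConj y y') :
    Nat.card {x : G // x⁻¹ * y * x = y'} = Nat.card (Subgroup.centralizer ({y} : Set G)) := by
  obtain ⟨c, rfl⟩ := isConj_iff.mp h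
  apply Nat.card_congr
  refine ⟨fun x => ⟨x.1 * c, ?_⟩, fun t => ⟨t.1 * c⁻¹, ?_⟩, fun x => ?_, fun t => ?_⟩
  · rw [Subgroup.mem_centralizer_singleton_iff]
    have h1 := x.2
    have h2 : y * x.1 * c = x.1 * (x.1⁻¹ * y * x.1) * c := by group
    rw [mul_assoc, ← mul_assoc y, h2, h1]
    group
  · have h1 := Subgroup.mem_centralizer_singleton_iff.mp t.2
    have h2 : (t.1 * c⁻¹)⁻¹ * y * (t.1 * c⁻¹) = c * (t.1⁻¹ * (y * t.1)) * c⁻¹ := by group
    rw [h2, ← h1]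
    group
  · ext; simp
  · ext; simp

variable [Fintype G]

theorem card_mul_pairs (S : Subgroup G) (y : G) (L : Set G) [DecidablePred (· ∈ L)]
    (hL : ∀ x z : G, z ∈ L → x * z * x⁻¹ ∈ L) :
    Nat.card (Subgroup.centralizer ({y} : Set G)) *
      Nat.card {yz : G × G // IsConj y yz.1 ∧ yz.2 ∈ L ∧ yz.2 * yz.1⁻¹ ∈ S}
      = Nat.card S * ∑ z : G, if z ∈ L then fx S (z * y⁻¹) else 0 := by
  classical
  have c1 : Nat.card {xz : G × G // xz.2 ∈ L ∧ xz.1⁻¹ * (xz.2 * y⁻¹) * xz.1 ∈ S}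
      = Nat.card S * ∑ z : G, if z ∈ L then fx S (z * y⁻¹) else 0 := by
    have e : {xz : G × G // xz.2 ∈ L ∧ xz.1⁻¹ * (xz.2 * y⁻¹) * xz.1 ∈ S}
        ≃ Σ z : {z : G // z ∈ L}, {x : G // x⁻¹ * (z.1 * y⁻¹) * x ∈ S} :=
      ⟨fun t => ⟨⟨t.1.2, t.2.1⟩, ⟨t.1.1, t.2.2⟩⟩, fun t => ⟨(t.2.1, t.1.1), t.1.2, t.2.2⟩,
        fun _ => rfl, fun _ => rfl⟩
    rw [Nat.card_congr e, Nat.card_sigma, ← Finset.sum_filter, Finset.mul_sum,
      ← Finset.sum_subtype_eq_sum_filter, Finset.subtype_univ]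
    refine Finset.sum_congr rfl fun z _ => ?_
    rw [card_conj_mem]
  have c2 : Nat.card {xz : G × G // xz.2 ∈ L ∧ xz.1⁻¹ * (xz.2 * y⁻¹) * xz.1 ∈ S}
      = Nat.card (Subgroup.centralizer ({y} : Set G)) *
      Nat.card {yz : G × G // IsConj y yz.1 ∧ yz.2 ∈ L ∧ yz.2 * yz.1⁻¹ ∈ S} := by
    have e : {xz : G × G // xz.2 ∈ L ∧ xz.1⁻¹ * (xz.2 * y⁻¹) * xz.1 ∈ S}
        ≃ Σ yz : {yz : G × G // IsConj y yz.1 ∧ yz.2 ∈ L ∧ yz.2 * yz.1⁻¹ ∈ S},
            {x : G // x⁻¹ * y * x = yz.1.1} := by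
      refine ⟨fun t => ⟨⟨(t.1.1⁻¹ * y * t.1.1, t.1.1⁻¹ * t.1.2 * t.1.1), ?_, ?_, ?_⟩, ⟨t.1.1, rfl⟩⟩,
        fun t => ⟨(t.2.1, t.2.1 * t.1.1.2 * t.2.1⁻¹), ?_, ?_⟩, fun t => ?_, fun t => ?_⟩
      · exact isConj_iff.mpr ⟨t.1.1⁻¹, by simp⟩
      · have := hL t.1.1⁻¹ _ t.2.1
        simpa using this
      · have := t.2.2
        have h2 : t.1.1⁻¹ * t.1.2 * t.1.1 * (t.1.1⁻¹ * y * t.1.1)⁻¹
            = t.1.1⁻¹ * (t.1.2 * y⁻¹) * t.1.1 := by group
        show t.1.1⁻¹ * t.1.2 * t.1.1 * (t.1.1⁻¹ * y * t.1.1)⁻¹ ∈ S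
        rw [h2]; exact this
      · exact hL _ _ t.1.2.2.1
      · have h1 := t.1.2.2.2
        have h2 := t.2.2
        show t.2.1⁻¹ * (t.2.1 * t.1.1.2 * t.2.1⁻¹ * y⁻¹) * t.2.1 ∈ S
        have h3 : t.2.1⁻¹ * (t.2.1 * t.1.1.2 * t.2.1⁻¹ * y⁻¹) * t.2.1
            = t.1.1.2 * (t.2.1⁻¹ * y * t.2.1)⁻¹ := by group
        rw [h3, h2]; exact h1
      · apply Subtype.ext
        apply Prod.ext
        · rfl
        · show t.1.1 * (t.1.1⁻¹ * t.1.2 * t.1.1) * t.1.1⁻¹ = t.1.2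
          group
      · obtain ⟨⟨⟨y', z'⟩, h1⟩, ⟨x, hx⟩⟩ := t
        simp only at hx
        subst hx
        simp only [Sigma.mk.injEq, Subtype.mk.injEq, Prod.mk.injEq, true_and]
        refine ⟨by group, ?_⟩
        have : x⁻¹ * (x * z' * x⁻¹) * x = z' := by group
        congr 1
    haveI : Fintype {yz : G × G // IsConj y yz.1 ∧ yz.2 ∈ L ∧ yz.2 * yz.1⁻¹ ∈ S} :=
      Fintype.ofFinite _
    rw [Nat.card_congr e, Nat.card_sigma,
      Finset.sum_congr rfl (fun yz _ => card_fiber yz.2.1), Finset.sum_const, Finset.card_univ,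
      smul_eq_mul, Nat.card_eq_fintype_card (α := {yz : G × G // _}), mul_comm]
  rw [← c2, c1]

theorem ordCompl_mul_pairs {p : ℕ} [hp : Fact p.Prime] (S : Sylow p G) (y : G) (L : Set G)
    [DecidablePred (· ∈ L)] (hL : ∀ x z : G, z ∈ L → x * z * x⁻¹ ∈ L) :
    (Nat.card (Subgroup.centralizer ({y} : Set G)) /
        p ^ (Nat.card (Subgroup.centralizer ({y} : Set G))).factorization p) *
      Nat.card {yz : G × G // IsConj y yz.1 ∧ yz.2 ∈ L ∧ yz.2 * yz.1⁻¹ ∈ (S : Subgroup G)}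
      = p ^ ((Nat.card G).factorization p -
          (Nat.card (Subgroup.centralizer ({y} : Set G))).factorization p) *
        ∑ z : G, if z ∈ L then fx (S : Subgroup G) (z * y⁻¹) else 0 := by
  have h1 := card_mul_pairs (S : Subgroup G) y L hL
  set n := Nat.card (Subgroup.centralizer ({y} : Set G)) with hn
  have hle : n.factorization p ≤ (Nat.card G).factorization p :=
    (Nat.factorization_le_iff_dvd Nat.card_pos.ne' Nat.card_pos.ne').mpr
      (Subgroup.card_subgroup_dvd_card _) p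
  have h2 : Nat.card (S : Subgroup G) = p ^ n.factorization p *
      p ^ ((Nat.card G).factorization p - n.factorization p) := by
    rw [← pow_add, Nat.add_sub_cancel' hle]
    exact S.card_eq_multiplicity
  have h3 : n = p ^ n.factorization p * (n / p ^ n.factorization p) :=
    (Nat.ordProj_mul_ordCompl_eq_self n p).symm
  rw [h2] at h1
  conv_lhs at h1 => rw [h3]
  rw [mul_assoc, mul_assoc] at h1
  exact Nat.eq_of_mul_eq_mul_left (pow_pos hp.out.pos _) h1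

theorem pow_dvd_pairs {p : ℕ} [hp : Fact p.Prime] (S : Sylow p G) (y : G) (L : Set G)
    (hL : ∀ x z : G, z ∈ L → x * z * x⁻¹ ∈ L) :
    p ^ ((Nat.card G).factorization p -
          (Nat.card (Subgroup.centralizer ({y} : Set G))).factorization p) ∣
      Nat.card {yz : G × G // IsConj y yz.1 ∧ yz.2 ∈ L ∧ yz.2 * yz.1⁻¹ ∈ (S : Subgroup G)} := by
  classical
  have h1 := ordCompl_mul_pairs S y L hL
  have h2 : Nat.Coprime (p ^ ((Nat.card G).factorization p -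
          (Nat.card (Subgroup.centralizer ({y} : Set G))).factorization p))
      (Nat.card (Subgroup.centralizer ({y} : Set G)) /
        p ^ (Nat.card (Subgroup.centralizer ({y} : Set G))).factorization p) := by
    apply Nat.Coprime.pow_left
    rw [Nat.Prime.coprime_iff_not_dvd hp.out]
    exact Nat.not_dvd_ordCompl hp.out Nat.card_pos.ne'
  exact h2.dvd_of_dvd_mul_left (Dvd.intro _ h1.symm)

end Cfsg.Agent.H6.SylowPairs
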