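import Mathlib
import Cfsg.Agent.H6.SylowPairs
import Cfsg.Agent.H6.GpDefect
import Cfsg.Agent.BlockLib.KG.NormalP

/-! Lemmas for Robinson's count of the blocks with a given normal defect group. -/

set_option autoImplicit false

namespace Cfsg.Agent.H6.Robinson

open Cfsg.Agent.BlockLib Cfsg.Agent.BlockLib.CA Cfsg.Agent.H6.PSocle Cfsg.Agent.H6.SylowCount

universe u v

variable {k : Type u} {G : Type v} [Field k] [Group G] [Fintype G] [Split k G]
  {p : ℕ} [Fact p.Prime] [CharP k p]

local notation "C(" P ")" => Subgroup.centralizer (SetLike.coe P)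
local notation "N(" P ")" => Subgroup.normalizer (SetLike.coe P)
local notation "Ce(" g ")" => Subgroup.centralizer (Singleton.singleton g : Set _)

/-- the support of a block idempotent with normal defect group `D` -/
theorem isSylIn_of_apply_ne_zero {ε : CA k G} (hε : IsBlk ⊤ ε) {D : Subgroup G} [D.Normal]
    (hD : IsDefGrp p ⊤ ε D) {g : G} (hg : ε g ≠ 0) : IsSylIn p D Ce(g) := by
  have hDp := hD.isPGroup
  have h1 : ε ∈ supp C(D) := idem_mem_supp_centralizer hDp le_top
    (by rw [Subgroup.normalizer_eq_top]) hε.mem hε.idem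
  have hgC : g ∈ C(D) := by
    by_contra h
    exact hg (h1 g h)
  refine ⟨hDp, le_centralizer_singleton_iff.mpr hgC, fun Q hQ hQx hDQ => ?_⟩
  have h1 : br Q ε ≠ 0 :=
    Cfsg.Agent.BlockLib.CA.br_ne_zero_iff.mpr ⟨g, le_centralizer_singleton_iff.mp hQx, hg⟩
  obtain ⟨c, -, hc⟩ := (hD.br_ne_zero_iff hε hQ le_top).mp h1
  have h2 : Nat.card Q ≤ Nat.card D := by
    rw [← card_cjs c D]
    exact Nat.card_le_card_of_injective _ (Subgroup.inclusion_injective hc)
  exact (Subgroup.eq_of_le_of_card_ge hDQ h2).symm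

omit [Split k G] [Fact p.Prime] [CharP k p] in
theorem clsSum_top_apply (g x : G) [Decidable (IsConj g x)] :
    (clsSum ⊤ g : CA k G) x = if IsConj g x then 1 else 0 := by
  split_ifs with h
  · obtain ⟨c, hc⟩ := isConj_iff.mp h
    exact clsSum_apply_of ⟨c, trivial, hc⟩
  · apply clsSum_apply_of_not
    rintro ⟨c, -, hc⟩
    exact h (isConj_iff.mpr ⟨c, hc⟩)

omit [Split k G] [Fact p.Prime] [CharP k p] in
/-- a central element is the combination of the class sums of the classes in its support -/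
theorem eq_sum_clsSum {ι : Type*} [Fintype ι] {ε : CA k G} (hε : ε ∈ cen (⊤ : Subgroup G))
    (y : ι → G) (hinj : ∀ i j, IsConj (y i) (y j) → i = j)
    (hsupp : ∀ g, ε g ≠ 0 → ∃ i, IsConj (y i) g) :
    ε = ∑ i, ε (y i) • (clsSum ⊤ (y i) : CA k G) := by
  classical
  ext g
  rw [CA.sum_apply]
  simp only [CA.smul_apply, clsSum_top_apply, mul_ite, mul_one, mul_zero]
  have hcl : ∀ i, IsConj (y i) g → ε (y i) = ε g := by
    intro i hi
    obtain ⟨c, rfl⟩ := isConj_iff.mp hi
    exact (mem_fix.mp hε.2 c trivial (y i)).symm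
  by_cases hg : ε g = 0
  · rw [hg]
    symm
    apply Finset.sum_eq_zero
    intro i _
    split_ifs with h
    · rw [hcl i h, hg]
    · rfl
  · obtain ⟨i0, hi0⟩ := hsupp g hg
    rw [Finset.sum_eq_single i0, if_pos hi0, hcl i0 hi0]
    · intro j _ hj
      rw [if_neg]
      intro h
      exact hj (hinj _ _ (h.trans hi0.symm))
    · intro h
      exact absurd (Finset.mem_univ _) h

omit [Split k G] in
/-- the count of fixed cosets in terms of `G_p^+ K^+` -/
theorem cast_sum_fx (S : Sylow p G) (y y' : G) [DecidablePred (· ∈ {z : G | IsConj y' z})] :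
    ((∑ z : G, if z ∈ {z : G | IsConj y' z} then fx (S : Subgroup G) (z * y⁻¹) else 0 : ℕ) : k)
      = ((S : Subgroup G).index : k) * (gp k p G * (clsSum ⊤ y' : CA k G)) y := by
  classical
  rw [mul_apply', Finset.mul_sum, Nat.cast_sum]
  refine Finset.sum_congr rfl fun z _ => ?_
  rw [clsSum_top_apply, ← gp_inv]
  have : (y * z⁻¹)⁻¹ = z * y⁻¹ := by group
  rw [this]
  by_cases h : IsConj y' z
  · rw [if_pos h, if_pos (show z ∈ {z : G | IsConj y' z} from h), mul_one, cast_fx k S]
  · rw [if_neg h, if_neg (show ¬ z ∈ {z : G | IsConj y' z} from h)]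
    simp

end Cfsg.Agent.H6.Robinson
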