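import Mathlib
import Cfsg.Agent.CharLib.Ind
import Cfsg.Agent.CharLib.Orth

set_option autoImplicit false

namespace Cfsg.Agent.H6.ZA

open Cfsg Cfsg.Agent.CharLib
open scoped ComplexConjugate

universe u

variable {G : Type u} [Group G] [Fintype G]

open Classical in
theorem norm_one (N : Subgroup G) (m : G → ℂ)
    (m1 : ∀ y, y ∉ N → m y = 0)
    (m2 : ∀ y ∈ N, ∀ y' ∈ N, m (y * y') = m y * m y')
    (m3 : ∀ y ∈ N, m y * conj (m y) = 1)
    (hK : ∀ x, x ∉ N → ∃ y₀ ∈ N, x⁻¹ * y₀ * x ∈ N ∧ m y₀ ≠ m (x⁻¹ * y₀ * x)) :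
    ∑ y : G, m y * conj ((Nat.card N : ℂ)⁻¹ * ∑ x : G, m (x⁻¹ * y * x)) = (Nat.card N : ℂ) := by
  have hN0 : (Nat.card N : ℂ) ≠ 0 := by exact_mod_cast (Nat.card_pos (α := N)).ne'
  have hne : ∀ y ∈ N, m y ≠ 0 := by
    intro y hy h
    have := m3 y hy
    rw [h] at this
    simp at this
  have hcl : ∀ x ∈ N, ∀ y ∈ N, m (x⁻¹ * y * x) = m y := by
    intro x hx y hy
    rw [m2 _ (N.mul_mem (N.inv_mem hx) hy) _ hx, m2 _ (N.inv_mem hx) _ hy]
    have h1 : m x⁻¹ * m x = m 1 := by rw [← m2 _ (N.inv_mem hx) _ hx, inv_mul_cancel]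
    have h2 : m 1 = 1 := by
      have := m2 1 N.one_mem 1 N.one_mem
      rw [one_mul] at this
      have h0 := hne 1 N.one_mem
      field_simp at this
      exact this.symm
    calc m x⁻¹ * m y * m x = (m x⁻¹ * m x) * m y := by ring
      _ = m y := by rw [h1, h2, one_mul]
  have hS : ∀ x : G, ∑ y : G, m y * conj (m (x⁻¹ * y * x)) =
      if x ∈ N then (Nat.card N : ℂ) else 0 := by
    intro x
    by_cases hx : x ∈ N
    · rw [if_pos hx]
      have : ∀ y : G, m y * conj (m (x⁻¹ * y * x)) = if y ∈ N then 1 else 0 := by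
        intro y
        by_cases hy : y ∈ N
        · rw [if_pos hy, hcl x hx y hy, m3 y hy]
        · rw [if_neg hy, m1 y hy, zero_mul]
      simp only [this]
      rw [← Finset.sum_filter, Finset.sum_const, nsmul_eq_mul, mul_one]
      congr 1
      rw [Nat.card_eq_fintype_card, Fintype.card_subtype]
    · rw [if_neg hx]
      obtain ⟨y₀, hy₀, hy₀', hne₀⟩ := hK x hx
      set c₀ : ℂ := m y₀ * conj (m (x⁻¹ * y₀ * x)) with hc₀
      have hc1 : c₀ ≠ 1 := by
        intro h
        apply hne₀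
        have h3 := m3 _ hy₀'
        have : m y₀ * (m (x⁻¹ * y₀ * x) * conj (m (x⁻¹ * y₀ * x))) =
            m (x⁻¹ * y₀ * x) * c₀ := by rw [hc₀]; ring
        rw [h3, h, mul_one, mul_one] at this
        exact this
      set S : ℂ := ∑ y : G, m y * conj (m (x⁻¹ * y * x)) with hSdef
      have h1 : S = ∑ y : G, m (y₀ * y) * conj (m (x⁻¹ * (y₀ * y) * x)) :=
        (Fintype.sum_equiv (Equiv.mulLeft y₀) _ _ (fun _ => rfl)).symm
      have h2 : ∀ y : G, m (y₀ * y) * conj (m (x⁻¹ * (y₀ * y) * x)) =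
          c₀ * (m y * conj (m (x⁻¹ * y * x))) := by
        intro y
        have e : x⁻¹ * (y₀ * y) * x = (x⁻¹ * y₀ * x) * (x⁻¹ * y * x) := by group
        by_cases hy : y ∈ N
        · by_cases hy' : x⁻¹ * y * x ∈ N
          · rw [m2 _ hy₀ _ hy, e, m2 _ hy₀' _ hy', map_mul, hc₀]
            ring
          · have : x⁻¹ * (y₀ * y) * x ∉ N := by
              rw [e]
              intro h
              exact hy' ((N.mul_mem_cancel_left hy₀').mp h)
            rw [m1 _ this, m1 _ hy']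
            simp
        · have : y₀ * y ∉ N := fun h => hy ((N.mul_mem_cancel_left hy₀).mp h)
          rw [m1 _ this, m1 _ hy]
          simp
      rw [Finset.sum_congr rfl (fun y _ => h2 y), ← Finset.mul_sum] at h1
      have h3 : (1 - c₀) * S = 0 := by
        rw [sub_mul, one_mul, ← h1, sub_self]
      rcases mul_eq_zero.mp h3 with h | h
      · exact absurd (sub_eq_zero.mp h).symm hc1
      · exact h
  have h1 : ∑ y : G, m y * conj ((Nat.card N : ℂ)⁻¹ * ∑ x : G, m (x⁻¹ * y * x)) =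
      (Nat.card N : ℂ)⁻¹ * ∑ x : G, ∑ y : G, m y * conj (m (x⁻¹ * y * x)) := by
    rw [Finset.sum_comm, Finset.mul_sum]
    refine Finset.sum_congr rfl fun y _ => ?_
    rw [map_mul, map_inv₀, Complex.conj_natCast, map_sum, Finset.mul_sum, Finset.mul_sum,
      Finset.mul_sum]
    refine Finset.sum_congr rfl fun x _ => ?_
    ring
  rw [h1]
  simp only [hS]
  rw [← Finset.sum_filter, Finset.sum_const, nsmul_eq_mul]
  have : ((Finset.univ.filter (fun x : G => x ∈ N)).card : ℂ) = (Nat.card N : ℂ) := by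
    congr 1
    rw [Nat.card_eq_fintype_card, Fintype.card_subtype]
  rw [this]
  field_simp

end Cfsg.Agent.H6.ZA
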