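import Mathlib

set_option autoImplicit false

namespace Cfsg.Agent.H6.ZA

universe u

variable {G : Type u} [Group G] [Finite G]

open MulAction Subgroup in
theorem transfer_val (N : Subgroup G) (ϕ : N →* ℂˣ) (g : G) (hg : g ∈ N) (x₀ : G)
    (t1 : ∀ (x : G) (k : ℕ), x⁻¹ * g ^ k * x ∈ N → g ^ k = 1 ∨ x ∈ N ∨ x₀⁻¹ * x ∈ N)
    (hx₀ : x₀⁻¹ * g * x₀ ∈ N) (t2 : ϕ ⟨x₀⁻¹ * g * x₀, hx₀⟩ = ϕ ⟨g, hg⟩) :
    MonoidHom.transfer ϕ g = ϕ ⟨g, hg⟩ ∨ MonoidHom.transfer ϕ g = ϕ ⟨g, hg⟩ ^ 2 := by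
  classical
  haveI : Fintype (Quotient (orbitRel (zpowers g) (G ⧸ N))) := Fintype.ofFinite _
  rw [MonoidHom.transfer_eq_prod_quotient_orbitRel_zpowers_quot]
  set J : Finset (Quotient (orbitRel (zpowers g) (G ⧸ N))) :=
    Finset.univ.filter (fun q => q.out.out ∈ N ∨ x₀⁻¹ * q.out.out ∈ N) with hJ
  have hmem : ∀ x : G, (x ∈ N ∨ x₀⁻¹ * x ∈ N) → x⁻¹ * g * x ∈ N := by
    intro x hx
    rcases hx with hx | hx
    · exact N.mul_mem (N.mul_mem (N.inv_mem hx) hg) hx
    · have : x⁻¹ * g * x = (x₀⁻¹ * x)⁻¹ * (x₀⁻¹ * g * x₀) * (x₀⁻¹ * x) := by group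
      rw [this]
      exact N.mul_mem (N.mul_mem (N.inv_mem hx) hx₀) hx
  have hconj : ∀ (y : G) (hy : y ∈ N) (x : G), (x ∈ N ∨ x₀⁻¹ * x ∈ N) → y = x⁻¹ * g * x →
      ϕ ⟨y, hy⟩ = ϕ ⟨g, hg⟩ := by
    intro y hy x hx hyx
    rcases hx with hx | hx
    · have : (⟨y, hy⟩ : N) = (⟨x, hx⟩ : N)⁻¹ * ⟨g, hg⟩ * ⟨x, hx⟩ := Subtype.ext hyx
      rw [this, map_mul, map_mul, map_inv]
      rw [mul_comm, ← mul_assoc, mul_inv_cancel, one_mul]
    · have : (⟨y, hy⟩ : N) = (⟨x₀⁻¹ * x, hx⟩ : N)⁻¹ * ⟨x₀⁻¹ * g * x₀, hx₀⟩ * ⟨x₀⁻¹ * x, hx⟩ := by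
        apply Subtype.ext
        change y = (x₀⁻¹ * x)⁻¹ * (x₀⁻¹ * g * x₀) * (x₀⁻¹ * x)
        rw [hyx]
        group
      rw [this, map_mul, map_mul, map_inv, t2]
      rw [mul_comm, ← mul_assoc, mul_inv_cancel, one_mul]
  have hfac : ∀ q : Quotient (orbitRel (zpowers g) (G ⧸ N)),
      ϕ ⟨q.out.out⁻¹ * g ^ Function.minimalPeriod (g • ·) q.out * q.out.out,
        QuotientGroup.out_conj_pow_minimalPeriod_mem N g q.out⟩ =
      if q ∈ J then ϕ ⟨g, hg⟩ else 1 := by
    intro q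
    by_cases hq : q.out.out ∈ N ∨ x₀⁻¹ * q.out.out ∈ N
    · have hqJ : q ∈ J := by simp [hJ, hq]
      rw [if_pos hqJ]
      have hfix : Function.IsFixedPt (g • ·) q.out := by
        change g • q.out = q.out
        conv_lhs => rw [← QuotientGroup.out_eq' q.out]
        conv_rhs => rw [← QuotientGroup.out_eq' q.out]
        change ((g * q.out.out : G) : G ⧸ N) = _
        rw [QuotientGroup.eq]
        have h1 := N.inv_mem (hmem _ hq)
        have : (g * q.out.out)⁻¹ * q.out.out = (q.out.out⁻¹ * g * q.out.out)⁻¹ := by group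
        rw [this]
        exact h1
      have hk : Function.minimalPeriod (g • ·) q.out = 1 :=
        Function.minimalPeriod_eq_one_iff_isFixedPt.mpr hfix
      exact hconj _ _ q.out.out hq (by rw [hk, pow_one])
    · have hqJ : q ∉ J := by simp [hJ, hq]
      rw [if_neg hqJ]
      have h1 := t1 q.out.out (Function.minimalPeriod (g • ·) q.out)
        (QuotientGroup.out_conj_pow_minimalPeriod_mem N g q.out)
      have h2 : g ^ Function.minimalPeriod (g • ·) q.out = 1 := by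
        rcases h1 with h1 | h1
        · exact h1
        · exact absurd h1 hq
      have h3 : (⟨q.out.out⁻¹ * g ^ Function.minimalPeriod (g • ·) q.out * q.out.out,
        QuotientGroup.out_conj_pow_minimalPeriod_mem N g q.out⟩ : N) = 1 := by
        apply Subtype.ext
        simp [h2]
      rw [h3, map_one]
  rw [Finset.prod_congr rfl (fun q _ => hfac q), Finset.prod_ite_mem, Finset.univ_inter,
    Finset.prod_const]
  have hJ1 : 1 ≤ J.card := by
    rw [Nat.one_le_iff_ne_zero, Finset.card_ne_zero]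
    refine ⟨Quotient.mk _ ((1 : G) : G ⧸ N), ?_⟩
    set q₁ : Quotient (orbitRel (zpowers g) (G ⧸ N)) := Quotient.mk _ ((1 : G) : G ⧸ N) with hq₁
    have h1 : (orbitRel (zpowers g) (G ⧸ N)).r q₁.out ((1 : G) : G ⧸ N) :=
      Quotient.exact (Quotient.out_eq q₁)
    obtain ⟨z, hz⟩ := h1
    have hzN : (z : G) ∈ N := (zpowers_le.mpr hg) z.2
    have h2 : q₁.out = ((1 : G) : G ⧸ N) := by
      rw [← hz]
      change (((z : G) * 1 : G) : G ⧸ N) = _
      rw [QuotientGroup.eq]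
      simpa using hzN
    have h3 : q₁.out.out ∈ N := by
      have := QuotientGroup.out_eq' q₁.out
      rw [h2] at this
      rw [h2]
      rw [QuotientGroup.eq] at this
      simpa using this
    simp [hJ, h3]
  have hJ2 : J.card ≤ 2 := by
    have : J.card ≤ ({((1 : G) : G ⧸ N), ((x₀ : G) : G ⧸ N)} : Finset (G ⧸ N)).card := by
      apply Finset.card_le_card_of_injOn (fun q => q.out)
      · intro q hq
        have hq' : q.out.out ∈ N ∨ x₀⁻¹ * q.out.out ∈ N := by simpa [hJ] using hq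
        simp only [Finset.coe_insert, Finset.coe_singleton, Set.mem_insert_iff,
          Set.mem_singleton_iff]
        rcases hq' with h | h
        · left
          rw [← QuotientGroup.out_eq' q.out, QuotientGroup.eq]
          simpa using h
        · right
          rw [← QuotientGroup.out_eq' q.out, eq_comm, QuotientGroup.eq]
          exact h
      · intro q _ q' _ h
        exact Quotient.out_injective h
    exact this.trans Finset.card_le_two
  have : J.card = 1 ∨ J.card = 2 := by omega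
  rcases this with h | h
  · left; rw [h, pow_one]
  · right; rw [h]

end Cfsg.Agent.H6.ZA
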