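import Mathlib
import Cfsg.Prelude
import Cfsg.Agent.H6.ZA1
import Cfsg.Agent.H6.ZA2
import Cfsg.Agent.CharLib.L.Linear
import Cfsg.Agent.CharLib.Ind
import Cfsg.Agent.CharLib.Orth

set_option autoImplicit false
set_option maxHeartbeats 1000000
open Cfsg

namespace Cfsg.Agent.H6.ZA

open Cfsg.Agent.CharLib Cfsg.Agent.CharLib.H2 Cfsg.Agent.CharLib.L
open scoped ComplexConjugate

theorem zass_aux {G Ω : Type*} [Group G] [Fintype G] [MulAction G Ω] [Fintype Ω]
    (h2' : ∀ {a b c d : Ω}, a ≠ b → c ≠ d → ∃ g : G, g • a = c ∧ g • b = d)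
    (h3 : ∀ g : G, ∀ a b c : Ω, a ≠ b → b ≠ c → a ≠ c → g • a = a → g • b = b → g • c = c → g = 1)
    {a b : Ω} (hab : a ≠ b) [IsSimpleGroup G] (e : ℕ) (hodd : Odd e)
    (hE : ∀ g : G, g • a = a → g • b = b → g ^ e = 1)
    (hlt : 3 ≤ Fintype.card Ω)
    (N : Subgroup G) (memN : ∀ x : G, x ∈ N ↔ x • a = a)
    (H : Subgroup G) (hHa : H ≤ N) (hHcard : Nat.card H + 1 = Fintype.card Ω)
    (hHfix : ∀ u ∈ H, u ≠ 1 → ∀ c : Ω, u • c = c → c = a)
    (μ : N → ℂ) (hμ : Cfsg.IsCharacter N μ ∧ μ 1 = 1)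
    (hμH : ∀ u : N, (u : G) ∈ H → μ u = 1) (hμne : μ ≠ fun _ => 1) :
    Cfsg.IsIrrCharacter G (Cfsg.indFun N μ) ∧ ∀ u ∈ H, u ≠ 1 → Cfsg.indFun N μ u = 1 := by
  classical
  have hmul : ∀ x y : N, μ (x * y) = μ x * μ y := by
    obtain ⟨⟨n, ρ, hρ⟩, h1⟩ := hμ
    have hn : Module.finrank ℂ (Fin n → ℂ) = 1 := by
      have := Representation.char_one ρ
      rw [hρ, h1] at this
      exact_mod_cast this.symm
    intro x y
    rw [← hρ]
    exact char_mul_of_finrank_eq_one hn ρ x y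
  let μhom : N →* ℂ := { toFun := μ, map_one' := hμ.2, map_mul' := hmul }
  let ϕ : N →* ℂˣ := μhom.toHomUnits
  have hϕ : ∀ y : N, ((ϕ y : ℂˣ) : ℂ) = μ y := fun y => rfl
  set m : G → ℂ := extendByZero N μ with hm
  have m1 : ∀ y, y ∉ N → m y = 0 := fun y hy => extendByZero_of_not_mem N μ hy
  have mN : ∀ y (hy : y ∈ N), m y = μ ⟨y, hy⟩ := fun y hy => extendByZero_of_mem N μ hy
  have m2 : ∀ y ∈ N, ∀ y' ∈ N, m (y * y') = m y * m y' := by
    intro y hy y' hy'
    rw [mN _ (N.mul_mem hy hy'), mN _ hy, mN _ hy', ← hmul]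
    rfl
  have m3 : ∀ y ∈ N, m y * conj (m y) = 1 := by
    intro y hy
    rw [mN _ hy, ← hϕ]
    have h1 : (ϕ ⟨y, hy⟩) ^ orderOf (⟨y, hy⟩ : N) = 1 := by
      rw [← map_pow, pow_orderOf_eq_one, map_one]
    have h2 : ((ϕ ⟨y, hy⟩ : ℂˣ) : ℂ) ^ orderOf (⟨y, hy⟩ : N) = 1 := by
      rw [← Units.val_pow_eq_pow_val, h1, Units.val_one]
    have h3 : ‖((ϕ ⟨y, hy⟩ : ℂˣ) : ℂ)‖ = 1 :=
      Complex.norm_eq_one_of_pow_eq_one h2 (orderOf_pos _).ne'
    rw [Complex.mul_conj, Complex.normSq_eq_norm_sq, h3]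
    simp
  have mone : m 1 = 1 := by rw [mN _ N.one_mem]; exact hμ.2
  have mH : ∀ u ∈ H, m u = 1 := fun u hu => by rw [mN _ (hHa hu)]; exact hμH _ hu
  have hreg : ∀ c : Ω, c ≠ a → ∀ d : Ω, d ≠ a → ∃ u ∈ H, u • c = d := by
    intro c hc d hd
    let f : H → {ω : Ω // ω ≠ a} := fun u => ⟨(u : G) • c, fun h => hc (by
      have hu : (u : G) • a = a := (memN _).mp (hHa u.2)
      exact smul_left_cancel (u : G) (h.trans hu.symm))⟩
    have hinj : Function.Injective f := by
      intro u v huv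
      have h1 : (u : G) • c = (v : G) • c := congrArg Subtype.val huv
      have h2 : ((v : G)⁻¹ * u) • c = c := by rw [mul_smul, h1, inv_smul_smul]
      by_contra hne
      have h3 : (v : G)⁻¹ * u ≠ 1 := fun h => hne (Subtype.ext (inv_mul_eq_one.mp h).symm)
      exact hc (hHfix _ (H.mul_mem (H.inv_mem v.2) u.2) h3 c h2)
    have hcard : Fintype.card H = Fintype.card {ω : Ω // ω ≠ a} := by
      rw [Fintype.card_subtype_compl, Fintype.card_subtype_eq, ← hHcard, Nat.card_eq_fintype_card]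
      simp
    have hsurj := ((Fintype.bijective_iff_injective_and_card f).mpr ⟨hinj, hcard⟩).2
    obtain ⟨u, hu⟩ := hsurj ⟨d, hd⟩
    exact ⟨u, u.2, congrArg Subtype.val hu⟩
  have hK : ∀ x, x ∉ N → ∃ y₀ ∈ N, x⁻¹ * y₀ * x ∈ N ∧ m y₀ ≠ m (x⁻¹ * y₀ * x) := by
    intro x hx
    by_contra hcon
    push_neg at hcon
    set c : Ω := x • a with hc
    have hca : c ≠ a := fun h => hx ((memN x).mpr h)
    obtain ⟨y, hy⟩ : ∃ y : N, μ y ≠ 1 := by
      by_contra h
      push_neg at h
      exact hμne (funext h)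
    have hya : (y : G) • a = a := (memN _).mp y.2
    have hyc : (y : G) • c ≠ a := fun h => hca (smul_left_cancel (y : G) (h.trans hya.symm))
    obtain ⟨u, hu, huc⟩ := hreg c hca _ hyc
    set g : G := u⁻¹ * y with hg
    have hgN : g ∈ N := N.mul_mem (N.inv_mem (hHa hu)) y.2
    have hga : g • a = a := (memN _).mp hgN
    have hgc : g • c = c := by rw [hg, mul_smul, ← huc, inv_smul_smul]
    have hmg : m g ≠ 1 := by
      rw [hg, m2 _ (N.inv_mem (hHa hu)) _ y.2, mH _ (H.inv_mem hu), one_mul, mN _ y.2]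
      exact hy
    have hxg : x⁻¹ * g * x ∈ N := by
      rw [memN, mul_smul, mul_smul, ← hc, hgc, hc, inv_smul_smul]
    have heq : m g = m (x⁻¹ * g * x) := hcon g hgN hxg
    have t2 : ϕ ⟨x⁻¹ * g * x, hxg⟩ = ϕ ⟨g, hgN⟩ := by
      apply Units.ext
      rw [hϕ, hϕ, ← mN _ hxg, ← mN _ hgN, heq]
    have hpa : ∀ k : ℕ, g ^ k • a = a := fun k => (memN _).mp (N.pow_mem hgN k)
    have hpc : ∀ k : ℕ, g ^ k • c = c := by
      intro k
      induction k with
      | zero => simp
      | succ k ih => rw [pow_succ, mul_smul, hgc, ih]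
    have t1 : ∀ (x' : G) (k : ℕ), x'⁻¹ * g ^ k * x' ∈ N → g ^ k = 1 ∨ x' ∈ N ∨ x⁻¹ * x' ∈ N := by
      intro x' k hk
      have hfix : g ^ k • (x' • a) = x' • a := by
        have := (memN _).mp hk
        rw [mul_smul, mul_smul, inv_smul_eq_iff] at this
        exact this
      by_cases h1 : x' • a = a
      · right; left; exact (memN _).mpr h1
      · by_cases h2 : x' • a = c
        · right; right
          rw [memN, mul_smul, h2, hc, inv_smul_smul]
        · left
          exact h3 (g ^ k) a c (x' • a) (Ne.symm hca) (Ne.symm h2) (Ne.symm h1) (hpa k) (hpc k) hfix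
    have hV := transfer_val N ϕ g hgN x t1 hxg t2
    have hϕg : ϕ ⟨g, hgN⟩ ≠ 1 := by
      intro h
      apply hmg
      rw [mN _ hgN, ← hϕ, h]
      rfl
    obtain ⟨n, hna, hnc⟩ := h2' (Ne.symm hca) hab
    have hge : g ^ e = 1 := by
      have h5 : (n * g * n⁻¹) ^ e = 1 := by
        apply hE
        · rw [mul_smul, mul_smul]
          have : n⁻¹ • a = a := by rw [inv_smul_eq_iff, hna]
          rw [this, hga, hna]
        · rw [mul_smul, mul_smul]
          have : n⁻¹ • b = c := by rw [inv_smul_eq_iff, hnc]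
          rw [this, hgc, hnc]
      rw [conj_pow] at h5
      have h6 : g ^ e = n⁻¹ * (n * g ^ e * n⁻¹) * n := by group
      rw [h6, h5]; group
    have hϕe : ϕ ⟨g, hgN⟩ ^ e = 1 := by
      rw [← map_pow]
      have : (⟨g, hgN⟩ : N) ^ e = 1 := Subtype.ext (by simpa using hge)
      rw [this, map_one]
    have hϕ2 : ϕ ⟨g, hgN⟩ ^ 2 ≠ 1 := by
      intro h
      apply hϕg
      obtain ⟨k, hk⟩ := hodd
      rw [hk, pow_succ, pow_mul, h, one_pow, one_mul] at hϕe
      exact hϕe
    have hVg : MonoidHom.transfer ϕ g ≠ 1 := by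
      rcases hV with h | h
      · rw [h]; exact hϕg
      · rw [h]; exact hϕ2
    rcases (MonoidHom.transfer ϕ).normal_ker.eq_bot_or_eq_top with hb | ht
    · have hinj : Function.Injective (MonoidHom.transfer ϕ) := (MonoidHom.ker_eq_bot_iff _).mp hb
      have hcomm : ∀ s : G, s * g = g * s := by
        intro s
        apply hinj
        rw [map_mul _ s g, map_mul _ g s, mul_comm]
      obtain ⟨ω, hω⟩ : ∃ ω : Ω, ω ∉ ({a, c} : Finset Ω) := by
        by_contra hall
        push_neg at hall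
        have h1 : (Finset.univ : Finset Ω) ⊆ {a, c} := fun ω _ => hall ω
        have h2 := Finset.card_le_card h1
        have h3 : ({a, c} : Finset Ω).card ≤ 2 := Finset.card_le_two
        rw [Finset.card_univ] at h2
        omega
      have hωa : ω ≠ a := fun h => hω (by simp [h])
      have hωc : ω ≠ c := fun h => hω (by simp [h])
      obtain ⟨s, hsa, -⟩ := h2' (Ne.symm hca) hωa
      have hgω : g • ω = ω := by
        rw [← hsa, ← mul_smul, ← hcomm, mul_smul, hga]
      have : g = 1 := h3 g a c ω (Ne.symm hca) (Ne.symm hωc) (Ne.symm hωa) hga hgc hgω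
      apply hmg
      rw [this, mone]
    · apply hVg
      have : g ∈ (MonoidHom.transfer ϕ).ker := by rw [ht]; trivial
      exact this
  have hN0 : (Nat.card N : ℂ) ≠ 0 := by exact_mod_cast (Nat.card_pos (α := N)).ne'
  constructor
  · apply isIrrCharacter_of_norm_one (isCharacter_indFun N hμ.1)
    rw [frobenius_reciprocity N μ (isClassFunction_indFun N μ), classInner,
      ← sum_extendByZero_mul N μ (fun g => conj (indFun N μ g))]
    simp only [indFun_apply]
    rw [norm_one N m m1 m2 m3 hK]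
    exact inv_mul_cancel₀ hN0
  · intro u hu hu1
    rw [indFun_apply]
    have hsum : ∑ x : G, extendByZero N μ (x⁻¹ * u * x) = ∑ x : G, if x ∈ N then (1 : ℂ) else 0 := by
      refine Finset.sum_congr rfl fun x _ => ?_
      by_cases hx : x ∈ N
      · rw [if_pos hx]
        change m (x⁻¹ * u * x) = 1
        rw [m2 _ (N.mul_mem (N.inv_mem hx) (hHa hu)) _ hx, m2 _ (N.inv_mem hx) _ (hHa hu), mH u hu,
          mul_one, ← m2 _ (N.inv_mem hx) _ hx, inv_mul_cancel, mone]
      · rw [if_neg hx]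
        apply m1
        intro hmem
        apply hx
        rw [memN] at hmem ⊢
        rw [mul_smul, mul_smul, inv_smul_eq_iff] at hmem
        exact hHfix u hu hu1 _ hmem
    rw [hsum, Finset.sum_ite, Finset.sum_const_zero, add_zero, Finset.sum_const, nsmul_eq_mul, mul_one]
    have : (Finset.univ.filter (fun x : G => x ∈ N)).card = Nat.card N := by
      rw [Nat.card_eq_fintype_card, Fintype.card_subtype]
    rw [this]
    exact inv_mul_cancel₀ hN0

end Cfsg.Agent.H6.ZA
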